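import Cfsg.Agent.Lib.CharP.Basic

/-!
# Centralizers and generalized Fitting subgroups for a simple quotient
-/

set_option autoImplicit false

namespace Cfsg.Agent.Lib.Leech.C1iGp

open Subgroup Cfsg.Agent.Lib.CharP.Basic

theorem centralizer_le_of_simple_quot {C : Type*} [Group C] [Finite C] (Q : Subgroup C) [Q.Normal]
    (hs : IsSimpleGroup (C ⧸ Q)) (c q : C) (hq : q ∈ Q)
    (h : ∀ r ∈ Q, c * q * c⁻¹ ≠ r * q * r⁻¹) : Subgroup.centralizer (Q : Set C) ≤ Q := by
  have hQn : (Q : Subgroup C).Normal := inferInstance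
  haveI hRn : (centralizer (Q : Set C)).Normal := by
    constructor
    intro x hx g
    rw [mem_centralizer_iff] at hx ⊢
    intro y hy
    have h1 : g⁻¹ * y * g ∈ Q := by
      have := hQn.conj_mem y hy g⁻¹
      simpa using this
    have h2 := hx _ h1
    have e : g * x * g⁻¹ * y * (g * x * g⁻¹)⁻¹ = g * (x * (g⁻¹ * y * g) * x⁻¹) * g⁻¹ := by group
    have h3 : x * (g⁻¹ * y * g) * x⁻¹ = g⁻¹ * y * g := by
      rw [← h2]
      group
    have e2 : y * (g * x * g⁻¹) * (g * x * g⁻¹)⁻¹ = y := by group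
    calc y * (g * x * g⁻¹) = (g * (x * (g⁻¹ * y * g) * x⁻¹) * g⁻¹) * (g * x * g⁻¹) := by
          rw [h3]; group
      _ = g * x * g⁻¹ * y := by group
  let R : Subgroup C := centralizer (Q : Set C)
  have hmap : (R.map (QuotientGroup.mk' Q)).Normal :=
    Subgroup.Normal.map hRn _ (QuotientGroup.mk'_surjective Q)
  rcases hmap.eq_bot_or_eq_top with hb | ht
  · intro x hx
    have h1 : (QuotientGroup.mk' Q) x ∈ R.map (QuotientGroup.mk' Q) := ⟨x, hx, rfl⟩
    rw [hb, mem_bot] at h1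
    exact (QuotientGroup.eq_one_iff x).1 h1
  · exfalso
    have h1 : (QuotientGroup.mk' Q) c ∈ R.map (QuotientGroup.mk' Q) := by
      rw [ht]
      trivial
    obtain ⟨r, hr, e⟩ := h1
    have h2 : r⁻¹ * c ∈ Q := QuotientGroup.eq.1 e
    set q₁ := r⁻¹ * c with hq₁
    have e1 : c = r * q₁ := by
      rw [hq₁]
      group
    apply h q₁ h2
    have h3 : q₁ * q * q₁⁻¹ ∈ Q := Q.mul_mem (Q.mul_mem h2 hq) (Q.inv_mem h2)
    have h4 : (q₁ * q * q₁⁻¹) * r = r * (q₁ * q * q₁⁻¹) := (mem_centralizer_iff.1 hr _ h3)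
    rw [e1]
    calc r * q₁ * q * (r * q₁)⁻¹ = r * (q₁ * q * q₁⁻¹) * r⁻¹ := by group
      _ = (q₁ * q * q₁⁻¹) * r * r⁻¹ := by rw [h4]
      _ = q₁ * q * q₁⁻¹ := by group

theorem gfit_of_simple_quot {C : Type*} [Group C] [Finite C] (Q : Subgroup C) [Q.Normal]
    (hp : IsPGroup 2 Q) (hs : IsSimpleGroup (C ⧸ Q)) (hns : ¬ IsPGroup 2 (C ⧸ Q))
    (hc : Subgroup.centralizer (Q : Set C) ≤ Q) :
    Cfsg.generalizedFittingSubgroup C = Q := by
  haveI : Fact (Nat.Prime 2) := ⟨Nat.prime_two⟩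
  have hle : Q ≤ pCore 2 C := le_pCore inferInstance hp
  have hP := pCore_isPGroup 2 C
  have hmap : ((pCore 2 C).map (QuotientGroup.mk' Q)).Normal :=
    Subgroup.Normal.map (pCore_normal 2 C) _ (QuotientGroup.mk'_surjective Q)
  have hge : pCore 2 C ≤ Q := by
    rcases hmap.eq_bot_or_eq_top with hb | ht
    · intro x hx
      have h1 : (QuotientGroup.mk' Q) x ∈ (pCore 2 C).map (QuotientGroup.mk' Q) := ⟨x, hx, rfl⟩
      rw [hb, mem_bot] at h1
      exact (QuotientGroup.eq_one_iff x).1 h1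
    · exfalso
      apply hns
      have h2 := hP.map (QuotientGroup.mk' Q)
      rw [ht] at h2
      intro g
      obtain ⟨k, hk⟩ := h2 ⟨g, trivial⟩
      refine ⟨k, ?_⟩
      have := congrArg Subtype.val hk
      simpa using this
  have heq : pCore 2 C = Q := le_antisymm hge hle
  have h := generalizedFitting_eq_of_charP (p := 2) (X := C) (by rw [heq]; exact hc)
  rw [h, heq]

end Cfsg.Agent.Lib.Leech.C1iGp
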