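import Cfsg.Agent.Lib.Leech.ZBasis

/-!
Involutive automorphisms of the rank-24 lattice from symmetric integer matrices `X` with `X² = 4`
and `X Λ ⊆ 2 Λ`: the automorphism is `X / 2`.
-/

set_option autoImplicit false

namespace Cfsg.Agent.Lib.Leech.Aut

open Cfsg
open Cfsg.Agent.Lib.Leech.Even Cfsg.Agent.Lib.Leech.ZBasis
open Matrix

theorem sqNorm_eq_dot (x : GolayPt → ℤ) : sqNorm x = x ⬝ᵥ x := by
  unfold sqNorm dotProduct
  exact Finset.sum_congr rfl fun i _ => by ring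

/-- Halves in the lattice of the images of lattice vectors. -/
def halfSub (X : Matrix GolayPt GolayPt ℤ) : AddSubgroup leechLattice where
  carrier := {v | ∃ w : leechLattice, X *ᵥ v.1 = 2 • w.1}
  zero_mem' := ⟨0, by simp⟩
  add_mem' := by
    rintro v v' ⟨w, hw⟩ ⟨w', hw'⟩
    refine ⟨w + w', ?_⟩
    simp only [AddSubgroup.coe_add, mulVec_add, hw, hw', smul_add]
  neg_mem' := by
    rintro v ⟨w, hw⟩
    refine ⟨-w, ?_⟩
    simp only [AddSubgroup.coe_neg, mulVec_neg, hw, smul_neg]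

theorem half_of_basis (X : Matrix GolayPt GolayPt ℤ)
    (hb : ∀ m < 24, ∃ w : leechLattice, X *ᵥ (bL m).1 = 2 • w.1) (v : leechLattice) :
    ∃ w : leechLattice, X *ᵥ v.1 = 2 • w.1 := by
  obtain ⟨a, rfl⟩ := exists_comb v
  have : comb a ∈ halfSub X := by
    unfold comb
    apply AddSubgroup.list_sum_mem
    intro x hx
    obtain ⟨m, hm, rfl⟩ := List.mem_map.mp hx
    exact (halfSub X).zsmul_mem (hb m (List.mem_range.mp hm)) _
  exact this

theorem two_smul_inj {x y : GolayPt → ℤ} (h : (2 : ℕ) • x = (2 : ℕ) • y) : x = y := by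
  funext p
  have := congrFun h p
  simp only [Pi.smul_apply] at this
  simpa using this

/-- An involutive lattice automorphism from a symmetric matrix `X` with `X² = 4`, `X Λ ⊆ 2 Λ`. -/
theorem exists_aut (X : Matrix GolayPt GolayPt ℤ) (hsym : Xᵀ = X)
    (hsq : X * X = (4 : ℤ) • (1 : Matrix GolayPt GolayPt ℤ))
    (hb : ∀ m < 24, ∃ w : leechLattice, X *ᵥ (bL m).1 = 2 • w.1) :
    ∃ g : Equiv.Perm leechLattice, g ∈ Co0 ∧ ∀ v : leechLattice, X *ᵥ v.1 = 2 • (g v).1 := by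
  choose Y hY using half_of_basis X hb
  have hinv : Function.Involutive Y := by
    intro v
    apply Subtype.ext
    apply two_smul_inj
    apply two_smul_inj
    have h1 : X *ᵥ (X *ᵥ v.1) = (2 : ℕ) • (2 : ℕ) • v.1 := by
      rw [mulVec_mulVec, hsq, smul_mulVec, one_mulVec]
      funext p
      show (4 : ℤ) * v.1 p = (2 : ℕ) • (2 : ℕ) • v.1 p
      simp only [nsmul_eq_mul]
      push_cast
      ring
    rw [← h1, hY v]
    have h2 : X *ᵥ ((2 : ℕ) • (Y v).1) = (2 : ℕ) • (X *ᵥ (Y v).1) := by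
      rw [mulVec_smul]
    rw [h2, hY (Y v)]
  refine ⟨hinv.toPerm, ⟨?_, ?_⟩, fun v => hY v⟩
  · intro v w
    apply Subtype.ext
    apply two_smul_inj
    show (2 : ℕ) • (Y (v + w)).1 = (2 : ℕ) • ((Y v).1 + (Y w).1)
    rw [← hY, smul_add, ← hY, ← hY]
    simp only [AddSubgroup.coe_add, mulVec_add]
  · intro v
    show sqNorm (Y v).1 = sqNorm v.1
    have hadj : ∀ a c : GolayPt → ℤ, (X *ᵥ a) ⬝ᵥ c = a ⬝ᵥ (X *ᵥ c) := by
      intro a c
      conv_rhs => rw [← hsym]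
      rw [dotProduct_mulVec, vecMul_transpose]
    have h1 : (X *ᵥ v.1) ⬝ᵥ (X *ᵥ v.1) = 4 * (v.1 ⬝ᵥ v.1) := by
      rw [hadj, mulVec_mulVec, hsq, smul_mulVec, one_mulVec, dotProduct_smul, smul_eq_mul]
    rw [hY v] at h1
    have h2 : ((2 : ℕ) • (Y v).1) ⬝ᵥ ((2 : ℕ) • (Y v).1) = 4 * ((Y v).1 ⬝ᵥ (Y v).1) := by
      unfold dotProduct
      rw [Finset.mul_sum]
      apply Finset.sum_congr rfl
      intro i _
      simp only [Pi.smul_apply, nsmul_eq_mul]
      push_cast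
      ring
    rw [sqNorm_eq_dot, sqNorm_eq_dot]
    rw [h2] at h1
    linarith

/-- A lattice automorphism whose action on the basis is known. -/
theorem exists_aut_of_table (X : Matrix GolayPt GolayPt ℤ) (hsym : Xᵀ = X)
    (hsq : X * X = (4 : ℤ) • (1 : Matrix GolayPt GolayPt ℤ)) (A : ℕ → ℕ → ℤ)
    (hb : ∀ k ∈ Finset.range 24, ∀ p, (X *ᵥ b k) p =
      2 * ((List.range 24).map fun m => A k m * b m p).sum) :
    ∃ g : Equiv.Perm leechLattice, g ∈ Co0 ∧ ∀ k < 24, g (bL k) = comb (A k) := by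
  have hb' : ∀ k < 24, X *ᵥ (bL k).1 = (2 : ℕ) • (comb (A k)).1 := by
    intro k hk
    funext p
    rw [show (bL k).1 = b k from rfl, hb k (Finset.mem_range.mpr hk) p]
    simp only [Pi.smul_apply, comb_apply, nsmul_eq_mul]
    norm_num
  obtain ⟨g, hg, hg2⟩ := exists_aut X hsym hsq (fun m hm => ⟨_, hb' m hm⟩)
  refine ⟨g, hg, fun k hk => ?_⟩
  apply Subtype.ext
  apply two_smul_inj
  rw [← hb' k hk, hg2]

end Cfsg.Agent.Lib.Leech.Aut
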