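import Cfsg.Agent.Lib.Leech.C2iFinal

/-!
# No element of the automorphism group of the Leech lattice sends the involution `tG` to `-tG`

If `g` conjugates `tG` to `-tG`, it sends vectors supported on the 16-set to vectors supported on
the octad. Counting squared coordinates gives `16 * 64 ≤ 8 * 64`.
-/

set_option autoImplicit false

namespace Cfsg.Agent.Lib.Leech.C1iAnti

open Cfsg Cfsg.Spor Cfsg.Agent.Lib.Golay.Core Cfsg.Agent.Lib.Leech.Lat Cfsg.Agent.Lib.Leech.Mon
  Cfsg.Agent.Lib.Leech.C2iData Cfsg.Agent.Lib.Leech.C2iRoot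

theorem card_Oc : (setOf Oc).card = 16 := by decide +kernel

theorem card_compl_Oc : ((setOf Oc)ᶜ).card = 8 := by decide +kernel

theorem dot_e8_left (i : GolayPt) (y : GolayPt → ℤ) : dotInt (e8 i) y = 8 * y i := by
  unfold dotInt e8
  rw [Finset.sum_eq_single i]
  · simp
  · intro b _ hb
    simp [Pi.single_apply, hb]
  · simp

theorem dot_e8_right (i : GolayPt) (y : GolayPt → ℤ) : dotInt y (e8 i) = 8 * y i := by
  unfold dotInt e8
  rw [Finset.sum_eq_single i]
  · simp [mul_comm]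
  · intro b _ hb
    simp [Pi.single_apply, hb]
  · simp

theorem sqNorm_e8 (i : GolayPt) : sqNorm (e8 i) = 64 := by
  unfold sqNorm e8
  rw [Finset.sum_eq_single i]
  · simp
  · intro b _ hb
    simp [Pi.single_apply, hb]
  · simp

theorem tG_e8 {j : GolayPt} (hj : j ∈ setOf Oc) : tG • e8L j = - e8L j := by
  apply Subtype.ext
  funext p
  rw [tG_apply]
  show _ = - (e8 j p)
  split_ifs with hp
  · rfl
  · have hne : p ≠ j := fun h => hp (h ▸ hj)
    show e8 j p = - (e8 j p)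
    simp [e8, Pi.single_apply, hne]

theorem no_anti (g : Co0) : g * tG * g⁻¹ ≠ negG * tG := by
  intro h
  have hv : ∀ j ∈ setOf Oc, ∀ p ∈ setOf Oc, ((g • e8L j : L) : GolayPt → ℤ) p = 0 := by
    intro j hj p hp
    have h1 : (g * tG * g⁻¹) • (g • e8L j) = - (g • e8L j) := by
      calc (g * tG * g⁻¹) • (g • e8L j) = g • (tG • e8L j) := by
            show ((g * tG * g⁻¹) * g) • e8L j = (g * tG) • e8L j
            congr 1
            group
        _ = g • (- e8L j) := by rw [tG_e8 hj]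
        _ = _ := smul_neg _ _
    rw [h] at h1
    have h2 := congrFun (congrArg Subtype.val h1) p
    have h3 : (((negG * tG) • (g • e8L j) : L) : GolayPt → ℤ) p =
        - ((tG • (g • e8L j) : L) : GolayPt → ℤ) p := rfl
    rw [h3, tG_apply, if_pos hp] at h2
    have h4 : ((- (g • e8L j) : L) : GolayPt → ℤ) p = - ((g • e8L j : L) : GolayPt → ℤ) p := rfl
    rw [h4] at h2
    omega
  have key : ∀ i j, ((g • e8L j : L) : GolayPt → ℤ) i = ((g⁻¹ • e8L i : L) : GolayPt → ℤ) j := by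
    intro i j
    have h1 := smul_dot g (g⁻¹ • e8L i) (e8L j)
    have h2 : g • (g⁻¹ • e8L i) = e8L i := by
      show (g * g⁻¹) • e8L i = e8L i
      rw [mul_inv_cancel]
      rfl
    rw [h2] at h1
    have h3 : dotInt ((e8L i : L) : GolayPt → ℤ) ((g • e8L j : L) : GolayPt → ℤ) =
        8 * ((g • e8L j : L) : GolayPt → ℤ) i := dot_e8_left _ _
    have h4 : dotInt ((g⁻¹ • e8L i : L) : GolayPt → ℤ) ((e8L j : L) : GolayPt → ℤ) =
        8 * ((g⁻¹ • e8L i : L) : GolayPt → ℤ) j := dot_e8_right _ _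
    rw [h3, h4] at h1
    omega
  have A : ∀ j ∈ setOf Oc, ∑ i ∈ (setOf Oc)ᶜ, (((g • e8L j : L) : GolayPt → ℤ) i) ^ 2 = 64 := by
    intro j hj
    have h1 := smul_sqNorm g (e8L j)
    have h2 : sqNorm ((e8L j : L) : GolayPt → ℤ) = 64 := sqNorm_e8 j
    rw [h2] at h1
    unfold sqNorm at h1
    rw [← Finset.sum_add_sum_compl (setOf Oc), Finset.sum_eq_zero, zero_add] at h1
    · exact h1
    · intro p hp
      rw [hv j hj p hp]
      norm_num
  have B : ∀ i ∈ (setOf Oc)ᶜ, ∑ j ∈ setOf Oc, (((g • e8L j : L) : GolayPt → ℤ) i) ^ 2 ≤ 64 := by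
    intro i _
    have h1 := smul_sqNorm g⁻¹ (e8L i)
    have h2 : sqNorm ((e8L i : L) : GolayPt → ℤ) = 64 := sqNorm_e8 i
    rw [h2] at h1
    unfold sqNorm at h1
    simp only [key i]
    rw [← h1]
    exact Finset.sum_le_sum_of_subset_of_nonneg (Finset.subset_univ _) (fun _ _ _ => sq_nonneg _)
  have C := Finset.sum_comm (s := setOf Oc) (t := (setOf Oc)ᶜ)
    (f := fun j i => (((g • e8L j : L) : GolayPt → ℤ) i) ^ 2)
  have D : ∑ j ∈ setOf Oc, ∑ i ∈ (setOf Oc)ᶜ, (((g • e8L j : L) : GolayPt → ℤ) i) ^ 2 = 16 * 64 := by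
    rw [Finset.sum_congr rfl A, Finset.sum_const, card_Oc]
    norm_num
  have E : ∑ i ∈ (setOf Oc)ᶜ, ∑ j ∈ setOf Oc, (((g • e8L j : L) : GolayPt → ℤ) i) ^ 2 ≤ 8 * 64 := by
    calc _ ≤ ∑ _i ∈ (setOf Oc)ᶜ, (64 : ℤ) := Finset.sum_le_sum B
      _ = 8 * 64 := by
        rw [Finset.sum_const, card_compl_Oc]
        norm_num
  rw [D] at C
  rw [← C] at E
  norm_num at E

end Cfsg.Agent.Lib.Leech.C1iAnti
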