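import Cfsg.Agent.Lib.Leech.C1iRange
import Cfsg.Agent.Lib.Leech.C1iAnti
import Cfsg.Agent.Lib.Leech.C1iGp
import Cfsg.Agent.Lib.Monster.Local

/-!
# The centraliser of the involution in the first Conway group
-/

set_option autoImplicit false

namespace Cfsg.Agent.Lib.Leech.C1iCo1

open Cfsg Cfsg.Spor Matrix Cfsg.Agent.Lib.Golay.Core Cfsg.Agent.Lib.Golay.Perm
  Cfsg.Agent.Lib.Leech.Lat Cfsg.Agent.Lib.Leech.Mon Cfsg.Agent.Lib.Leech.Packed Cfsg.Agent.Lib.Leech.Vec Cfsg.Agent.Lib.Leech.Word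
  Cfsg.Agent.Lib.Leech.Center Cfsg.Agent.Lib.Leech.Co1 Cfsg.Agent.Lib.Leech.OutCo1Base
  Cfsg.Agent.Lib.Leech.C2iData Cfsg.Agent.Lib.Leech.C2iSp Cfsg.Agent.Lib.Leech.C2iRoot
  Cfsg.Agent.Lib.Leech.C2iKer Cfsg.Agent.Lib.Leech.C2iExtra Cfsg.Agent.Lib.Leech.C2iGen
  Cfsg.Agent.Lib.Leech.C2iFinal Cfsg.Agent.Lib.Leech.C1iForm Cfsg.Agent.Lib.Leech.C1iPsi
  Cfsg.Agent.Lib.Leech.C1iKer Cfsg.Agent.Lib.Leech.C1iOrb Cfsg.Agent.Lib.Leech.C1iOmega
  Cfsg.Agent.Lib.Leech.C1iRange Cfsg.Agent.Lib.Leech.C1iAnti Cfsg.Agent.Lib.Leech.C1iGp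

open scoped commutatorElement

/-- The class of an automorphism. -/
noncomputable abbrev mk (g : Co0) : Spor.Co1 := (QuotientGroup.mk g : Co0 ⧸ Subgroup.center Co0)

theorem mk_mul (a b : Co0) : mk (a * b) = mk a * mk b := rfl

theorem mk_inv (a : Co0) : mk a⁻¹ = (mk a)⁻¹ := rfl

theorem mk_one : mk 1 = 1 := rfl

theorem mk_eq_iff {a b : Co0} : mk a = mk b ↔ a = b ∨ a = b * negG := by
  rw [QuotientGroup.eq, mem_center_iff]
  constructor
  · rintro (h | h)
    · left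
      exact (inv_mul_eq_one.1 h)
    · right
      rw [inv_mul_eq_iff_eq_mul] at h
      rw [h, mul_assoc, negG_sq, mul_one]
  · rintro (h | h)
    · left
      rw [h, inv_mul_cancel]
    · right
      rw [h, inv_mul_eq_iff_eq_mul, mul_assoc, negG_sq, mul_one]

theorem mk_eq_one_iff {a : Co0} : mk a = 1 ↔ a = 1 ∨ a = negG := by
  rw [← mk_one, mk_eq_iff, one_mul]

/-- The involution of the first Conway group. -/
noncomputable def zz : Spor.Co1 := mk tG

/-- Its centraliser. -/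
abbrev CC1 : Subgroup Spor.Co1 := Subgroup.centralizer ({zz} : Set Spor.Co1)

theorem tG_sq : tG * tG = 1 := eps_sq _ _

theorem mk_mem {g : Co0} (hg : g ∈ NC) : mk g ∈ CC1 := by
  rw [Subgroup.mem_centralizer_singleton_iff]
  show mk (g * tG) = mk (tG * g)
  rw [mem_NC.1 hg]

/-- The map onto the centraliser. -/
noncomputable def pi0 : ↥NC →* ↥CC1 where
  toFun g := ⟨mk g.1, mk_mem g.2⟩
  map_one' := rfl
  map_mul' _ _ := rfl

theorem pi0_val (g : ↥NC) : (pi0 g).1 = mk g.1 := rfl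

theorem pi0_surj : Function.Surjective pi0 := by
  rintro ⟨x, hx⟩
  obtain ⟨g, rfl⟩ := QuotientGroup.mk_surjective x
  have h : mk g * zz = zz * mk g := Subgroup.mem_centralizer_singleton_iff.1 hx
  have h1 : mk (g * tG) = mk (tG * g) := h
  rcases mk_eq_iff.1 h1 with h2 | h2
  · exact ⟨⟨g, mem_NC.2 h2⟩, rfl⟩
  · exfalso
    apply no_anti g
    calc g * tG * g⁻¹ = tG * (g * negG) * g⁻¹ := by rw [h2, mul_assoc tG]
      _ = tG * (negG * g) * g⁻¹ := by rw [negG_central g]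
      _ = tG * negG := by rw [mul_assoc, mul_assoc, mul_inv_cancel, mul_one]
      _ = negG * tG := (negG_central tG).symm

theorem pi0_eq_one {g : ↥NC} : pi0 g = 1 ↔ g.1 = 1 ∨ g.1 = negG := by
  rw [← mk_eq_one_iff]
  exact Subtype.ext_iff

theorem ker_le : pi0.ker ≤ psi.ker := by
  intro g hg
  rw [MonoidHom.mem_ker]
  rcases pi0_eq_one.1 hg with h | h
  · have : g = 1 := Subtype.ext h
    rw [this, map_one]
  · have : g = ⟨negG, negG_mem_NC⟩ := Subtype.ext h
    rw [this]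
    exact psi_negG

/-- The induced map to the orthogonal group. -/
noncomputable def psiB : ↥CC1 →* O8 :=
  (QuotientGroup.lift pi0.ker psi ker_le).comp
    (QuotientGroup.quotientKerEquivOfSurjective pi0 pi0_surj).symm.toMonoidHom

theorem psiB_pi0 (g : ↥NC) : psiB (pi0 g) = psi g := by
  have h : (QuotientGroup.quotientKerEquivOfSurjective pi0 pi0_surj).symm (pi0 g) = QuotientGroup.mk g := by
    rw [MulEquiv.symm_apply_eq]
    rfl
  show QuotientGroup.lift pi0.ker psi ker_le ((QuotientGroup.quotientKerEquivOfSurjective pi0 pi0_surj).symm (pi0 g)) = _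
  rw [h]
  rfl

/-- The normal subgroup. -/
noncomputable abbrev QQ : Subgroup ↥CC1 := psiB.ker

theorem range_psiB : psiB.range = Om8 := by
  rw [← psi_range]
  ext A
  constructor
  · rintro ⟨x, rfl⟩
    obtain ⟨g, rfl⟩ := pi0_surj x
    exact ⟨g, (psiB_pi0 g).symm⟩
  · rintro ⟨g, rfl⟩
    exact ⟨pi0 g, psiB_pi0 g⟩

/-- The quotient. -/
noncomputable def eQuot : ↥CC1 ⧸ QQ ≃* Om8 :=
  (QuotientGroup.quotientKerEquivRange psiB).trans (MulEquiv.subgroupCongr range_psiB)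

instance : Finite ↥CC1 := inferInstance

theorem simple_quot : IsSimpleGroup (↥CC1 ⧸ QQ) :=
  have := simple_Om8
  eQuot.isSimpleGroup

theorem not_pgroup_quot : ¬ IsPGroup 2 (↥CC1 ⧸ QQ) := by
  intro h
  obtain ⟨k, hk⟩ := IsPGroup.iff_card.1 h
  rw [Nat.card_congr eQuot.toEquiv, card_Om8] at hk
  have h3 : (3 : ℕ) ∣ 2 ^ k := by
    rw [← hk]
    norm_num
  have := Nat.Prime.dvd_of_dvd_pow Nat.prime_three h3
  norm_num at this

/-! ### The normal subgroup and the table -/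

theorem mem_QQ {g : ↥NC} : pi0 g ∈ QQ ↔ Qel g.1 ∨ Qel (negG * g.1) := by
  rw [MonoidHom.mem_ker, psiB_pi0, psi_ker_iff]

/-- The element of the normal subgroup given by an element of the kernel. -/
theorem kerK_mem (k : ↥psiC.ker) : Qel (phiK k) := (phiK_range _).1 ⟨k, rfl⟩

/-- The map from the kernel. -/
noncomputable def toQ : ↥psiC.ker →* ↥QQ where
  toFun k := ⟨pi0 ⟨phiK k, Qel_mem_NC (kerK_mem k)⟩, mem_QQ.2 (Or.inl (kerK_mem k))⟩
  map_one' := by
    apply Subtype.ext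
    apply Subtype.ext
    show mk (phiK 1) = 1
    rw [map_one]
    rfl
  map_mul' a b := by
    apply Subtype.ext
    apply Subtype.ext
    show mk (phiK (a * b)) = mk (phiK a) * mk (phiK b)
    rw [map_mul]
    rfl

theorem Qel_smul_U {x : Co0} (h : Qel x) : x • leechU = leechU := (Qel_mem_C0 h).2

theorem toQ_inj : Function.Injective toQ := by
  rw [injective_iff_map_eq_one]
  intro k hk
  have h1 : pi0 ⟨phiK k, Qel_mem_NC (kerK_mem k)⟩ = 1 := congrArg Subtype.val hk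
  rcases pi0_eq_one.1 h1 with h | h
  · apply phiK_inj
    rw [map_one]
    exact h
  · exfalso
    have h2 := Qel_smul_U (kerK_mem k)
    have h3 : phiK k = negG := h
    rw [h3] at h2
    exact U_ne_neg h2.symm

theorem toQ_surj : Function.Surjective toQ := by
  rintro ⟨x, hx⟩
  obtain ⟨g, rfl⟩ := pi0_surj x
  rcases mem_QQ.1 hx with h | h
  · obtain ⟨k, hk⟩ := (phiK_range _).2 h
    refine ⟨k, ?_⟩
    apply Subtype.ext
    apply Subtype.ext
    show mk (phiK k) = mk g.1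
    rw [hk]
  · obtain ⟨k, hk⟩ := (phiK_range _).2 h
    refine ⟨k, ?_⟩
    apply Subtype.ext
    apply Subtype.ext
    show mk (phiK k) = mk g.1
    rw [hk]
    apply mk_eq_iff.2
    right
    rw [negG_central]

/-- The kernel and the normal subgroup. -/
noncomputable def eQ : ↥psiC.ker ≃* ↥QQ := MulEquiv.ofBijective toQ ⟨toQ_inj, toQ_surj⟩

theorem extra_QQ : IsExtraspecial 2 ↥QQ := by
  have hE := isExtraspecial_K phiK phiK_inj phiK_range
  have hc := card_K phiK phiK_inj phiK_range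
  haveI : Finite ↥psiC.ker := Nat.finite_of_card_ne_zero (by rw [hc]; norm_num)
  exact Cfsg.Agent.Lib.Monster.Local.isExtraspecial_of_equiv eQ hE

theorem card_QQ : Nat.card ↥QQ = 2 ^ 9 := by
  rw [← Nat.card_congr eQ.toEquiv, card_K phiK phiK_inj phiK_range]
  norm_num

theorem pgroup_QQ : IsPGroup 2 ↥QQ := by
  apply IsPGroup.of_card card_QQ

/-! ### Explicit data -/

/-- An octad in the complement of the octad. -/
def Op : ℕ := 5538256
/-- The image of the octad. -/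
def Op2 : ℕ := 5350928
/-- The symmetric difference. -/
def Aq : ℕ := 337856
/-- The generator. -/
def oC : ℕ × ℕ := (20221884795850722430336043065579063, 4819776)
/-- An element moving the first octad to the new octad. -/
def oP : ℕ × ℕ := (755033032502636993511529487564742884, 0)
/-- The complement of the new octad. -/
def Yq : ℕ := 16777215 - 5538256

def oE : ℕ × ℕ := (Pid, Op)
def oAq : ℕ × ℕ := (Pid, Aq)
def oY : ℕ × ℕ := (Pid, Yq)
def oN : ℕ × ℕ := (Pid, 16777215)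

theorem data_ok : (Op < 2 ^ 24 ∧ isCode Op = true) ∧ (Aq < 2 ^ 24 ∧ isCode Aq = true) ∧
    (Yq < 2 ^ 24 ∧ isCode Yq = true) ∧ ((16777215 : ℕ) < 2 ^ 24 ∧ isCode 16777215 = true) := by decide +kernel

theorem opG_oE : opG oE = eps (setOf Op) (setOf_mem_of_isCode data_ok.1.1 data_ok.1.2) :=
  opG_eps data_ok.1.1 data_ok.1.2
theorem opG_oAq : opG oAq = eps (setOf Aq) (setOf_mem_of_isCode data_ok.2.1.1 data_ok.2.1.2) :=
  opG_eps data_ok.2.1.1 data_ok.2.1.2
theorem opG_oY : opG oY = eps (setOf Yq) (setOf_mem_of_isCode data_ok.2.2.1.1 data_ok.2.2.1.2) :=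
  opG_eps data_ok.2.2.1.1 data_ok.2.2.1.2

theorem eps_val (c : Finset GolayPt) (hc : c ∈ Sup) (y : L) (p : GolayPt) :
    ((eps c hc • y : L) : GolayPt → ℤ) p = if p ∈ c then - y.1 p else y.1 p := by
  show signedPerm 1 c y.1 p = _
  rw [signedPerm_apply]
  rfl

theorem opG_oN : opG oN = negG := by
  rw [show opG oN = eps (setOf 16777215) (setOf_mem_of_isCode data_ok.2.2.2.1 data_ok.2.2.2.2) from
    opG_eps data_ok.2.2.2.1 data_ok.2.2.2.2]
  apply ext_smul
  intro v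
  apply Subtype.ext
  funext p
  rw [eps_val, if_pos]
  · rfl
  · rw [mem_setOf]
    have h : ∀ i < 24, (16777215 : ℕ).testBit i = true := by decide +kernel
    exact h _ (idx_lt p)

/-- The value of a sign change on a standard vector at its point. -/
theorem eps_e8 (c : Finset GolayPt) (hc : c ∈ Sup) (p : GolayPt) :
    ((eps c hc • e8L p : L) : GolayPt → ℤ) p = if p ∈ c then -8 else 8 := by
  rw [eps_val]
  have h : (e8L p).1 p = 8 := by simp [e8L, e8]
  rw [h]

theorem neg_e8 (p : GolayPt) : ((negG • e8L p : L) : GolayPt → ℤ) p = -8 := by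
  have h : (e8L p).1 p = 8 := by simp [e8L, e8]
  rw [negG_smul]
  show - (e8L p).1 p = _
  rw [h]

theorem one_e8 (p : GolayPt) : (((1 : Co0) • e8L p : L) : GolayPt → ℤ) p = 8 := by
  rw [one_smul]
  simp [e8L, e8]

/-- A sign change is not the identity, if its word is not empty. -/
theorem eps_ne_one {n : ℕ} (hc : setOf n ∈ Sup) {i : ℕ} (hi : i < 24) (hb : n.testBit i = true) :
    eps (setOf n) hc ≠ 1 := by
  intro h
  have h1 := eps_e8 (setOf n) hc (pt i)
  rw [h, one_e8, if_pos (by rw [mem_setOf, idx_pt hi]; exact hb)] at h1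
  norm_num at h1

/-- A sign change is not the opposite of another one, if some point is not in both. -/
theorem eps_ne_neg_mul {n m : ℕ} (hc : setOf n ∈ Sup) (hd : setOf m ∈ Sup) {i : ℕ} (hi : i < 24)
    (hb : n.testBit i = false) (hb' : m.testBit i = false) : eps (setOf n) hc ≠ eps (setOf m) hd * negG := by
  intro h
  have h1 := eps_e8 (setOf n) hc (pt i)
  have h2 := eps_e8 (setOf m) hd (pt i)
  have hn : pt i ∉ setOf n := by rw [mem_setOf, idx_pt hi, hb]; simp
  have hm : pt i ∉ setOf m := by rw [mem_setOf, idx_pt hi, hb']; simp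
  rw [if_neg hn] at h1
  rw [if_neg hm] at h2
  rw [h, ← negG_central, negG_mul_smul] at h1
  have h3 : ((- (eps (setOf m) hd • e8L (pt i)) : L) : GolayPt → ℤ) (pt i) = - ((eps (setOf m) hd • e8L (pt i) : L) : GolayPt → ℤ) (pt i) := rfl
  rw [h3, h2] at h1
  norm_num at h1

/-- Sign changes of different words. -/
theorem eps_ne_eps {n m : ℕ} (hc : setOf n ∈ Sup) (hd : setOf m ∈ Sup) {i : ℕ} (hi : i < 24)
    (hb : n.testBit i = false) (hb' : m.testBit i = true) : eps (setOf n) hc ≠ eps (setOf m) hd := by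
  intro h
  have h1 := eps_e8 (setOf n) hc (pt i)
  have h2 := eps_e8 (setOf m) hd (pt i)
  have hn : pt i ∉ setOf n := by rw [mem_setOf, idx_pt hi, hb]; simp
  have hm : pt i ∈ setOf m := by rw [mem_setOf, idx_pt hi]; exact hb'
  rw [if_neg hn] at h1
  rw [if_pos hm] at h2
  rw [h] at h1
  rw [h1] at h2
  norm_num at h2

theorem neg_ne_eps {n : ℕ} (hc : setOf n ∈ Sup) {i : ℕ} (hi : i < 24) (hb : n.testBit i = false) :
    negG ≠ eps (setOf n) hc := by
  intro h
  have h1 := neg_e8 (pt i)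
  have h2 := eps_e8 (setOf n) hc (pt i)
  have hn : pt i ∉ setOf n := by rw [mem_setOf, idx_pt hi, hb]; simp
  rw [if_neg hn, ← h, h1] at h2
  norm_num at h2

theorem tG_eq_eps : tG = eps (setOf Oc) (setOf_mem_of_isCode cOc.1 cOc.2) := rfl

theorem tG_ne_negG' : tG ≠ negG := by
  intro h
  exact neg_ne_eps (n := Oc) (setOf_mem_of_isCode cOc.1 cOc.2) (i := 0) (by norm_num) (by decide +kernel) h.symm

theorem orderOf_zz : orderOf zz = 2 := by
  apply orderOf_eq_prime
  · rw [pow_two]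
    show mk (tG * tG) = 1
    rw [tG_sq]
    rfl
  · intro h
    rcases mk_eq_one_iff.1 h with h | h
    · exact tG_ne_one h
    · exact tG_ne_negG' h

/-- The sign change on the new octad lies in the table. -/
theorem Qel_E : Qel (opG oE) := ⟨Pid, Pid_T6, Op, by decide +kernel, rfl⟩

theorem E_mem : opG oE ∈ NC := Qel_mem_NC Qel_E

theorem tG_Qel : Qel tG := ⟨Pid, Pid_T6, Oc, by decide +kernel, tG_eq_opG⟩

theorem tG_mem : tG ∈ NC := mem_NC.2 rfl

theorem oC_mem : opG oC ∈ NC := opG_mem_NC (by decide +kernel)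

/-- The commutator relation. -/
theorem comm_word : eqW [oE, oC] [oC, oE, oAq] = true := by decide +kernel

/-- The conjugation relation. -/
theorem conj_word : eqW [C2iGen.oT, oP] [oP, oY] = true := by decide +kernel

/-- The complement. -/
theorem compl_word : eqW [oY] [oE, oN] = true := by decide +kernel

theorem comm_eq : opG oC * opG oE * (opG oC)⁻¹ * (opG oE)⁻¹ = opG oAq := by
  have h := wG_eq comm_word
  simp only [wG_cons, wG_nil, one_mul] at h
  have hE : (opG oE)⁻¹ = opG oE := by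
    rw [opG_oE]
    exact eps_inv _ _
  rw [hE]
  have h1 : opG oAq = opG oC * opG oE * (opG oC)⁻¹ * opG oE := by
    have h2 : opG oE * opG oE = 1 := by
      rw [opG_oE]
      exact eps_sq _ _
    have h3 : opG oC * opG oE * (opG oC)⁻¹ = opG oAq * opG oE := by
      rw [h, mul_assoc, mul_inv_cancel, mul_one]
    rw [h3, mul_assoc, h2, mul_one]
  exact h1.symm

/-! ### The centraliser of the normal subgroup -/

/-- The involution in the centraliser. -/
noncomputable def z1 : ↥CC1 := pi0 ⟨tG, tG_mem⟩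

theorem z1_mem : z1 ∈ QQ := mem_QQ.2 (Or.inl tG_Qel)

theorem z1_ne : z1 ≠ 1 := by
  intro h
  rcases pi0_eq_one.1 h with h | h
  · exact tG_ne_one h
  · exact tG_ne_negG' h

theorem extraAt : Cfsg.Agent.Lib.Monster.Local.ExtraAt QQ z1 where
  ext := extra_QQ
  mem := z1_mem
  comm x _ := by
    apply Subtype.ext
    exact Subgroup.mem_centralizer_singleton_iff.1 x.2
  ne := z1_ne

theorem centralizer_QQ : Subgroup.centralizer (QQ : Set ↥CC1) ≤ QQ := by
  refine centralizer_le_of_simple_quot QQ simple_quot (pi0 ⟨opG oC, oC_mem⟩) (pi0 ⟨opG oE, E_mem⟩)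
    (mem_QQ.2 (Or.inl Qel_E)) ?_
  intro r hr he
  have h1 := extraAt.comm_eq hr (mem_QQ.2 (Or.inl Qel_E) : pi0 ⟨opG oE, E_mem⟩ ∈ QQ)
  have h2 : ⁅r, pi0 ⟨opG oE, E_mem⟩⁆ = pi0 ⟨opG oC, oC_mem⟩ * pi0 ⟨opG oE, E_mem⟩ * (pi0 ⟨opG oC, oC_mem⟩)⁻¹ * (pi0 ⟨opG oE, E_mem⟩)⁻¹ := by
    rw [he]
    rfl
  have h3 : (pi0 ⟨opG oC, oC_mem⟩ * pi0 ⟨opG oE, E_mem⟩ * (pi0 ⟨opG oC, oC_mem⟩)⁻¹ * (pi0 ⟨opG oE, E_mem⟩)⁻¹).1 = mk (opG oAq) := by
    rw [← comm_eq]
    rfl
  rw [h2] at h1
  rcases h1 with h4 | h4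
  · have h5 := congrArg Subtype.val h4
    rw [h3] at h5
    rcases mk_eq_one_iff.1 h5 with h6 | h6
    · rw [opG_oAq] at h6
      exact eps_ne_one _ (i := 6) (by norm_num) (by decide +kernel) h6
    · rw [opG_oAq] at h6
      exact neg_ne_eps (n := Aq) _ (i := 0) (by norm_num) (by decide +kernel) h6.symm
  · have h5 := congrArg Subtype.val h4
    rw [h3] at h5
    rcases mk_eq_iff.1 h5 with h6 | h6
    · rw [opG_oAq] at h6
      exact eps_ne_eps (n := Aq) (m := Oc) _ (setOf_mem_of_isCode cOc.1 cOc.2) (i := 4) (by norm_num) (by decide +kernel) (by decide +kernel) h6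
    · rw [opG_oAq] at h6
      exact eps_ne_neg_mul (n := Aq) (m := Oc) _ (setOf_mem_of_isCode cOc.1 cOc.2) (i := 0) (by norm_num) (by decide +kernel) (by decide +kernel) h6

theorem gfit_CC1 : Cfsg.generalizedFittingSubgroup ↥CC1 = QQ :=
  gfit_of_simple_quot QQ pgroup_QQ simple_quot not_pgroup_quot centralizer_QQ

/-! ### A conjugate of the involution in the normal subgroup -/

/-- The conjugating element. -/
noncomputable def gg : Spor.Co1 := mk (opG oP)

theorem conj_eq : gg * zz * gg⁻¹ = (pi0 ⟨opG oE, E_mem⟩).1 := by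
  have h := wG_eq conj_word
  simp only [wG_cons, wG_nil, one_mul, C2iGen.opG_oT] at h
  have h2 := wG_eq compl_word
  simp only [wG_cons, wG_nil, one_mul, opG_oN] at h2
  have h3 : opG oP * tG * (opG oP)⁻¹ = opG oY := by
    rw [h, mul_assoc, mul_inv_cancel, mul_one]
  show mk (opG oP * tG * (opG oP)⁻¹) = mk (opG oE)
  rw [h3, h2]
  apply mk_eq_iff.2
  right
  rw [negG_central]

theorem conj_ne_aux {E : Co0} (hm : E ∈ NC) (h1 : E ≠ tG) (h2 : E ≠ tG * negG) : (pi0 ⟨E, hm⟩).1 ≠ zz := by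
  intro h
  rcases mk_eq_iff.1 h with h6 | h6
  · exact h1 h6
  · exact h2 h6

theorem conj_ne : gg * zz * gg⁻¹ ≠ zz := by
  rw [conj_eq]
  apply conj_ne_aux
  · rw [opG_oE]
    exact eps_ne_eps (n := Op) (m := Oc) _ (setOf_mem_of_isCode cOc.1 cOc.2) (i := 9) (by norm_num) (by decide +kernel) (by decide +kernel)
  · rw [opG_oE]
    exact eps_ne_neg_mul (n := Op) (m := Oc) _ (setOf_mem_of_isCode cOc.1 cOc.2) (i := 0) (by norm_num) (by decide +kernel) (by decide +kernel)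

/-- **The first Conway group and its involution**. -/
theorem main : ∃ z : Cfsg.Spor.Co1, orderOf z = 2 ∧ ∃ (Q : Subgroup (Subgroup.centralizer ({z} : Set Cfsg.Spor.Co1))) (_ : Q.Normal), Cfsg.generalizedFittingSubgroup (Subgroup.centralizer ({z} : Set Cfsg.Spor.Co1)) = Q ∧ Cfsg.IsExtraspecial 2 Q ∧ Nat.card Q = 2 ^ 9 ∧ Nonempty ((Subgroup.centralizer ({z} : Set Cfsg.Spor.Co1)) ⧸ Q ≃* Cfsg.Omega (ZMod 2) (Cfsg.quadFormPlus 4 (ZMod 2))) ∧ ∃ g : Cfsg.Spor.Co1, (∃ hq : g * z * g⁻¹ ∈ Subgroup.centralizer ({z} : Set Cfsg.Spor.Co1), (⟨g * z * g⁻¹, hq⟩ : Subgroup.centralizer ({z} : Set Cfsg.Spor.Co1)) ∈ Q) ∧ g * z * g⁻¹ ≠ z := by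
  refine ⟨zz, orderOf_zz, QQ, inferInstance, gfit_CC1, extra_QQ, card_QQ, ⟨eQuot⟩, gg, ?_, conj_ne⟩
  have hm : gg * zz * gg⁻¹ ∈ CC1 := by
    rw [conj_eq]
    exact (pi0 ⟨opG oE, E_mem⟩).2
  refine ⟨hm, ?_⟩
  have h : (⟨gg * zz * gg⁻¹, hm⟩ : ↥CC1) = pi0 ⟨opG oE, E_mem⟩ := Subtype.ext conj_eq
  rw [h]
  exact mem_QQ.2 (Or.inl Qel_E)

end Cfsg.Agent.Lib.Leech.C1iCo1
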