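import Cfsg.Agent.Lib.Leech.C2iFinal

/-!
# The vectors supported on the octad

The vectors of the lattice fixed by the sign change on the complement of the octad form a copy of the lattice `E₈`
scaled by 4.  Modulo twice this lattice, inner products divided by 16 and norms divided by 32 give the standard
hyperbolic quadratic form in dimension 8 over the field of two elements.
-/

set_option autoImplicit false

namespace Cfsg.Agent.Lib.Leech.C1iForm

open Cfsg Cfsg.Spor Matrix Cfsg.Agent.Lib.Golay.Core Cfsg.Agent.Lib.Golay.Perm Cfsg.Agent.Lib.Golay.M24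
  Cfsg.Agent.Lib.Leech.Basic Cfsg.Agent.Lib.Leech.Lat Cfsg.Agent.Lib.Leech.Mon
  Cfsg.Agent.Lib.Leech.Packed Cfsg.Agent.Lib.Leech.Vec Cfsg.Agent.Lib.Leech.Cert
  Cfsg.Agent.Lib.Leech.Word Cfsg.Agent.Lib.Leech.C2iData Cfsg.Agent.Lib.Leech.C2iRoot

/-- The space. -/
abbrev V8 : Type := Fin 4 ⊕ Fin 4 → ZMod 2

/-- The vectors supported on the octad. -/
def LP (y : L) : Prop := ∀ i < 24, Oc.testBit i = true → y.1 (pt i) = 0

theorem LP_iff {y : L} : LP y ↔ tG • y = y := ⟨tG_fix, of_tG_fix⟩

theorem LP_add {y z : L} (hy : LP y) (hz : LP z) : LP (y + z) := by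
  intro i hi hb
  show y.1 (pt i) + z.1 (pt i) = 0
  rw [hy i hi hb, hz i hi hb, add_zero]

theorem LP_neg {y : L} (hy : LP y) : LP (-y) := by
  intro i hi hb
  show - y.1 (pt i) = 0
  rw [hy i hi hb, neg_zero]

theorem LP_sub {y z : L} (hy : LP y) (hz : LP z) : LP (y - z) := by
  rw [sub_eq_add_neg]
  exact LP_add hy (LP_neg hz)

theorem Oc_bits : Oc.testBit 4 = true ∧ Oc.testBit 6 = true ∧ Oc.testBit 7 = true ∧ Oc.testBit 8 = true ∧
    Oc.testBit 9 = true ∧ Oc.testBit 10 = true ∧ Oc.testBit 11 = true ∧ Oc.testBit 12 = true ∧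
    Oc.testBit 13 = true ∧ Oc.testBit 15 = true ∧ Oc.testBit 16 = true ∧ Oc.testBit 18 = true ∧
    Oc.testBit 19 = true ∧ Oc.testBit 20 = true ∧ Oc.testBit 21 = true ∧ Oc.testBit 22 = true := by
  decide +kernel

/-- Sum over a function vanishing off the octad. -/
theorem sum_oct (f : GolayPt → ℤ) (hf : ∀ i < 24, Oc.testBit i = true → f (pt i) = 0) :
    ∑ p, f p = f (pt 0) + f (pt 1) + f (pt 2) + f (pt 3) + f (pt 5) + f (pt 14) + f (pt 17) + f (pt 23) := by
  rw [sum_golay]
  simp only [Finset.sum_range_succ, Finset.sum_range_zero]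
  obtain ⟨h4, h6, h7, h8, h9, h10, h11, h12, h13, h15, h16, h18, h19, h20, h21, h22⟩ := Oc_bits
  rw [hf 4 (by norm_num) h4, hf 6 (by norm_num) h6, hf 7 (by norm_num) h7, hf 8 (by norm_num) h8,
    hf 9 (by norm_num) h9, hf 10 (by norm_num) h10, hf 11 (by norm_num) h11, hf 12 (by norm_num) h12,
    hf 13 (by norm_num) h13, hf 15 (by norm_num) h15, hf 16 (by norm_num) h16, hf 18 (by norm_num) h18,
    hf 19 (by norm_num) h19, hf 20 (by norm_num) h20, hf 21 (by norm_num) h21, hf 22 (by norm_num) h22]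
  ring

theorem code_in_O0 : allUpTo (fun m => cond (Nat.beq (Nat.land (code m) Oc) 0)
    (Nat.beq (code m) 0 || Nat.beq (code m) O0) true) 4096 = true := by decide +kernel

theorem code_in_O0' {m : ℕ} (hm : m < 4096) (h : Nat.land (code m) Oc = 0) : code m = 0 ∨ code m = O0 := by
  have h1 := allUpTo_iff.1 code_in_O0 m hm
  rw [Vec.beq_of_eq h, cond_true] at h1
  simp only [Bool.or_eq_true] at h1
  rcases h1 with h1 | h1
  · exact Or.inl (Nat.eq_of_beq_eq_true h1)
  · exact Or.inr (Nat.eq_of_beq_eq_true h1)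

theorem O0_bits : O0.testBit 0 = true ∧ O0.testBit 1 = true ∧ O0.testBit 2 = true ∧ O0.testBit 3 = true ∧
    O0.testBit 5 = true ∧ O0.testBit 14 = true ∧ O0.testBit 17 = true ∧ O0.testBit 23 = true := by
  decide +kernel

theorem O0_Oc_bits : ∀ i < 24, O0.testBit i = true → Oc.testBit i = false := by decide +kernel

theorem bit1_even_zero {a : ℤ} (h2 : (2 : ℤ) ∣ a) (h : bit1 a = 0) : (4 : ℤ) ∣ a := by
  unfold bit1 at h
  have h3 := (ZMod.intCast_zmod_eq_zero_iff_dvd (a / 2) 2).1 h
  push_cast at h3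
  omega

theorem bit1_even_ne {a : ℤ} (h2 : (2 : ℤ) ∣ a) (h : bit1 a ≠ 0) : (4 : ℤ) ∣ a - 2 := by
  unfold bit1 at h
  have h3 : ¬ ((2 : ℕ) : ℤ) ∣ a / 2 := fun h4 => h ((ZMod.intCast_zmod_eq_zero_iff_dvd (a / 2) 2).2 h4)
  push_cast at h3
  omega

/-- Coordinates of the vectors supported on the octad. -/
theorem LP_coords {y : L} (h : LP y) : ∃ c : ℤ, (c = 0 ∨ c = 2) ∧
    (4 : ℤ) ∣ y.1 (pt 0) - c ∧ (4 : ℤ) ∣ y.1 (pt 1) - c ∧ (4 : ℤ) ∣ y.1 (pt 2) - c ∧ (4 : ℤ) ∣ y.1 (pt 3) - c ∧
    (4 : ℤ) ∣ y.1 (pt 5) - c ∧ (4 : ℤ) ∣ y.1 (pt 14) - c ∧ (4 : ℤ) ∣ y.1 (pt 17) - c ∧ (4 : ℤ) ∣ y.1 (pt 23) - c ∧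
    (8 : ℤ) ∣ y.1 (pt 0) + y.1 (pt 1) + y.1 (pt 2) + y.1 (pt 3) + y.1 (pt 5) + y.1 (pt 14) + y.1 (pt 17) + y.1 (pt 23) := by
  have hL := y.2
  rw [mem_leechLattice_iff, mem_leechSet_iff] at hL
  obtain ⟨m, hm, hs, hw⟩ := hL
  have h40 : y.1 (pt 4) = 0 := h 4 (by norm_num) Oc_bits.1
  have hm2 : (2 : ℤ) ∣ m := by
    have h5 := hm (pt 4)
    rw [h40] at h5
    unfold Int.ModEq at h5
    omega
  have heven : ∀ p, (2 : ℤ) ∣ y.1 p := by
    intro p
    have h6 := hm p
    unfold Int.ModEq at h6
    omega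
  have hsum : (8 : ℤ) ∣ y.1 (pt 0) + y.1 (pt 1) + y.1 (pt 2) + y.1 (pt 3) + y.1 (pt 5) + y.1 (pt 14) + y.1 (pt 17) + y.1 (pt 23) := by
    have h5 := sum_oct y.1 h
    unfold Int.ModEq at hs
    rw [h5] at hs
    omega
  have hsup : support₂ (digitWord y.1) ∈ (supports (golayCode : Set (GolayPt → ZMod 2))) := ⟨_, hw, rfl⟩
  obtain ⟨m', hm', hcode⟩ := mem_supports_iff'.1 hsup
  have hmem : ∀ p, p ∈ setOf (code m') ↔ bit1 (y.1 p) ≠ 0 := by
    intro p
    rw [← hcode]
    unfold support₂ digitWord
    rw [Finset.mem_filter]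
    simp
  have hland : Nat.land (code m') Oc = 0 := by
    apply Nat.eq_of_testBit_eq
    intro i
    show ((code m') &&& Oc).testBit i = (0 : ℕ).testBit i
    rw [Nat.testBit_land, Nat.zero_testBit]
    by_cases hi : i < 24
    · by_cases hb : Oc.testBit i = true
      · have h2 : pt i ∉ setOf (code m') := by
          rw [hmem, h i hi hb]
          simp [bit1]
        rw [mem_setOf, idx_pt hi] at h2
        rw [hb]
        simpa using h2
      · simp [hb]
    · have h2 : (code m').testBit i = false := by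
        apply Nat.testBit_lt_two_pow
        exact (code_lt hm').trans_le (Nat.pow_le_pow_right (by norm_num) (by omega))
      rw [h2]
      rfl
  obtain ⟨b0, b1, b2, b3, b5, b14, b17, b23⟩ := O0_bits
  rcases code_in_O0' hm' hland with h0 | h0
  · have key : ∀ i, i < 24 → (4 : ℤ) ∣ y.1 (pt i) := by
      intro i hi
      apply bit1_even_zero (heven _)
      by_contra hne
      have := (hmem (pt i)).2 hne
      rw [h0, mem_setOf] at this
      simp at this
    refine ⟨0, Or.inl rfl, ?_, ?_, ?_, ?_, ?_, ?_, ?_, ?_, hsum⟩ <;> rw [sub_zero] <;> exact key _ (by norm_num)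
  · have key : ∀ i, i < 24 → O0.testBit i = true → (4 : ℤ) ∣ y.1 (pt i) - 2 := by
      intro i hi hb
      apply bit1_even_ne (heven _)
      apply (hmem (pt i)).1
      rw [h0, mem_setOf, idx_pt hi]
      exact hb
    exact ⟨2, Or.inr rfl, key _ (by norm_num) b0, key _ (by norm_num) b1, key _ (by norm_num) b2,
      key _ (by norm_num) b3, key _ (by norm_num) b5, key _ (by norm_num) b14, key _ (by norm_num) b17,
      key _ (by norm_num) b23, hsum⟩

/-- The eight integer forms. -/
def f0 (y : GolayPt → ℤ) : ℤ := 8 * y (pt 17)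
def f1 (y : GolayPt → ℤ) : ℤ := 4 * y (pt 1) - 4 * y (pt 2) + 4 * y (pt 14) - 4 * y (pt 17)
def f2 (y : GolayPt → ℤ) : ℤ := 4 * y (pt 0) + 4 * y (pt 2) - 4 * y (pt 14) - 4 * y (pt 23)
def f3 (y : GolayPt → ℤ) : ℤ := 4 * y (pt 0) + 4 * y (pt 1) + 4 * y (pt 2) + 4 * y (pt 5)
def f4 (y : GolayPt → ℤ) : ℤ :=
  -2 * y (pt 0) - 2 * y (pt 1) - 2 * y (pt 2) + 6 * y (pt 3) - 2 * y (pt 5) - 2 * y (pt 14) - 2 * y (pt 17) - 2 * y (pt 23)
def f5 (y : GolayPt → ℤ) : ℤ := 4 * y (pt 1) - 4 * y (pt 2) - 4 * y (pt 17) + 4 * y (pt 23)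
def f6 (y : GolayPt → ℤ) : ℤ := 4 * y (pt 2) - 4 * y (pt 5) - 4 * y (pt 14) + 4 * y (pt 23)
def f7 (y : GolayPt → ℤ) : ℤ := 4 * y (pt 1) - 4 * y (pt 3) + 4 * y (pt 14) - 4 * y (pt 23)

/-- The forms by index. -/
def fm : Fin 4 ⊕ Fin 4 → (GolayPt → ℤ) → ℤ :=
  Sum.elim ![f4, f5, f6, f7] ![f0, f1, f2, f3]

theorem fm_add (j : Fin 4 ⊕ Fin 4) (y z : GolayPt → ℤ) : fm j (y + z) = fm j y + fm j z := by
  rcases j with i | i <;> fin_cases i <;>
    simp only [fm, Sum.elim_inl, Sum.elim_inr, Matrix.cons_val_zero, Matrix.cons_val_one, Matrix.cons_val,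
      Fin.isValue, Fin.zero_eta, Fin.mk_one, Fin.reduceFinMk, f0, f1, f2, f3, f4, f5, f6, f7, Pi.add_apply] <;> ring

theorem fm_dvd (j : Fin 4 ⊕ Fin 4) {y : L} (hy : LP y) : (16 : ℤ) ∣ fm j y.1 := by
  obtain ⟨c, hc, h0, h1, h2, h3, h5, h14, h17, h23, hs⟩ := LP_coords hy
  rcases j with i | i <;> fin_cases i <;>
    simp only [fm, Sum.elim_inl, Sum.elim_inr, Matrix.cons_val_zero, Matrix.cons_val_one, Matrix.cons_val,
      Fin.isValue, Fin.zero_eta, Fin.mk_one, Fin.reduceFinMk, f0, f1, f2, f3, f4, f5, f6, f7] <;> omega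

/-- The coordinate map. -/
noncomputable def th (y : L) : V8 := fun j => ((fm j y.1 / 16 : ℤ) : ZMod 2)

theorem th_add {y z : L} (hy : LP y) (hz : LP z) : th (y + z) = th y + th z := by
  funext j
  show ((fm j (y.1 + z.1) / 16 : ℤ) : ZMod 2) = ((fm j y.1 / 16 : ℤ) : ZMod 2) + ((fm j z.1 / 16 : ℤ) : ZMod 2)
  have h1 := fm_dvd j hy
  have h2 := fm_dvd j hz
  rw [fm_add, Int.add_ediv_of_dvd_left h1]
  push_cast
  rfl

theorem th_two {y : L} (hy : LP y) : th (y + y) = 0 := by
  rw [th_add hy hy]
  funext j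
  exact CharTwo.add_self_eq_zero _

theorem th_neg {y : L} (hy : LP y) : th (-y) = th y := by
  have h1 : th (y + -y) = th y + th (-y) := th_add hy (LP_neg hy)
  have h2 : th (y + -y) = 0 := by
    rw [add_neg_cancel]
    funext j
    show ((fm j (0 : GolayPt → ℤ) / 16 : ℤ) : ZMod 2) = 0
    have : fm j (0 : GolayPt → ℤ) = 0 := by
      rcases j with i | i <;> fin_cases i <;>
        simp [fm, f0, f1, f2, f3, f4, f5, f6, f7]
    rw [this]
    rfl
  rw [h2] at h1
  have h3 := CharTwo.add_self_eq_zero (th y)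
  have h4 : th y + th (-y) = th y + th y := by rw [← h1, h3]
  exact add_left_cancel h4

/-- The vector with coordinates 2 on the octad. -/
def nH : ℕ := pack (fun i => Nat.add 16 (Nat.mul 2 (Bool.toNat (O0.testBit i)))) 24

theorem nH_tab : inL nH = true ∧ ∀ i < 24, img nH i = 16 + 2 * (O0.testBit i).toNat := by decide +kernel

/-- Vectors all of whose coordinates on the octad are congruent to 0 modulo 4 and with sum divisible by 8
are in the lattice. -/
theorem mem_of_coords0 {x : GolayPt → ℤ} (h0 : ∀ i < 24, Oc.testBit i = true → x (pt i) = 0)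
    (h1 : (4 : ℤ) ∣ x (pt 0)) (h2 : (4 : ℤ) ∣ x (pt 1)) (h3 : (4 : ℤ) ∣ x (pt 2)) (h4 : (4 : ℤ) ∣ x (pt 3))
    (h5 : (4 : ℤ) ∣ x (pt 5)) (h6 : (4 : ℤ) ∣ x (pt 14)) (h7 : (4 : ℤ) ∣ x (pt 17)) (h8 : (4 : ℤ) ∣ x (pt 23))
    (hs : (8 : ℤ) ∣ x (pt 0) + x (pt 1) + x (pt 2) + x (pt 3) + x (pt 5) + x (pt 14) + x (pt 17) + x (pt 23)) :
    x ∈ leechLattice := by
  rw [mem_leechLattice_iff]
  refine mem_leechSet_of_const_mod_four x 0 0 (by decide) ?_ ?_
  · intro p
    have hp := pt_idx p
    have hi := idx_lt p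
    generalize idx p = i at hp hi
    subst hp
    have e : (4 : ℤ) ∣ x (pt i) := by
      rcases C2iRoot.Oc_cover i hi with (r | r | r | r | r | r | r | r) | r
      · rw [r]; exact h8
      · rw [r]; exact h1
      · rw [r]; exact h2
      · rw [r]; exact h3
      · rw [r]; exact h4
      · rw [r]; exact h5
      · rw [r]; exact h6
      · rw [r]; exact h7
      · rw [h0 i hi r]; exact dvd_zero _
    exact (Int.modEq_zero_iff_dvd.2 e)
  · rw [sum_oct x h0]
    show _ ≡ (4 * 0 : ℤ) [ZMOD 8]
    rw [mul_zero]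
    exact Int.modEq_zero_iff_dvd.2 hs

theorem dec_nH_O0 : ∀ i < 24, dec nH (pt i) = 2 * ((O0.testBit i).toNat : ℤ) := by
  intro i hi
  rw [dec_pt _ hi, nH_tab.2 i hi]
  push_cast
  ring


theorem forall_pt {P : GolayPt → Prop} (h : ∀ i < 24, P (pt i)) (p : GolayPt) : P p := by
  have hp := pt_idx p
  rw [← hp]
  exact h _ (idx_lt p)

theorem th_zero_dvd {w : L} (hw : LP w) (h : th w = 0) (j : Fin 4 ⊕ Fin 4) : (32 : ℤ) ∣ fm j w.1 := by
  have h1 : ((fm j w.1 / 16 : ℤ) : ZMod 2) = 0 := congrFun h j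
  have h3 := (ZMod.intCast_zmod_eq_zero_iff_dvd (fm j w.1 / 16) 2).1 h1
  have h4 := fm_dvd j hw
  push_cast at h3
  omega

theorem half_c0 {y c : ℤ} (hc : c = 0 ∨ c = 2) (h1 : (4 : ℤ) ∣ y - c) (h2 : (32 : ℤ) ∣ 8 * y) : c = 0 := by
  omega

theorem half_dvd {u v : ℤ} (h : u = 16 * v) (hd : (32 : ℤ) ∣ u) : (2 : ℤ) ∣ v := by
  omega

theorem half_arith (a0 a1 a2 a3 a5 a14 a17 a23 : ℤ)
    (h1 : (2 : ℤ) ∣ a1 - a2 + a14 - a17) (h2 : (2 : ℤ) ∣ a0 + a2 - a14 - a23) (h3 : (2 : ℤ) ∣ a0 + a1 + a2 + a5)
    (h5 : (2 : ℤ) ∣ a1 - a2 - a17 + a23) (h6 : (2 : ℤ) ∣ a2 - a5 - a14 + a23) (h7 : (2 : ℤ) ∣ a1 - a3 + a14 - a23)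
    (h4 : (2 : ℤ) ∣ a0 + a1 + a2 + a3 + a5 + a14 + a17 + a23) :
    ((2 : ℤ) ∣ a0 ∧ (2 : ℤ) ∣ a1 ∧ (2 : ℤ) ∣ a2 ∧ (2 : ℤ) ∣ a3 ∧ (2 : ℤ) ∣ a5 ∧ (2 : ℤ) ∣ a14 ∧ (2 : ℤ) ∣ a17 ∧ (2 : ℤ) ∣ a23) ∨
    ((2 : ℤ) ∣ a0 - 1 ∧ (2 : ℤ) ∣ a1 - 1 ∧ (2 : ℤ) ∣ a2 - 1 ∧ (2 : ℤ) ∣ a3 - 1 ∧ (2 : ℤ) ∣ a5 - 1 ∧ (2 : ℤ) ∣ a14 - 1 ∧
      (2 : ℤ) ∣ a17 - 1 ∧ (2 : ℤ) ∣ a23 - 1) := by
  have e1 : (2 : ℤ) ∣ a14 - a23 := by omega
  have e2 : (2 : ℤ) ∣ a0 - a2 := by omega
  have e3 : (2 : ℤ) ∣ a5 - a2 := by omega
  have e4 : (2 : ℤ) ∣ a1 - a2 := by omega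
  have e5 : (2 : ℤ) ∣ a14 - a17 := by omega
  have e6 : (2 : ℤ) ∣ a3 - a2 := by omega
  clear h1 h2 h3 h5 h6 h7
  omega

/-- The kernel of the coordinate map. -/
theorem exists_half {w : L} (hw : LP w) (h : th w = 0) : ∃ w' : L, LP w' ∧ w = w' + w' := by
  have h0 : (32 : ℤ) ∣ f0 w.1 := th_zero_dvd hw h (Sum.inr 0)
  have h1 : (32 : ℤ) ∣ f1 w.1 := th_zero_dvd hw h (Sum.inr 1)
  have h2 : (32 : ℤ) ∣ f2 w.1 := th_zero_dvd hw h (Sum.inr 2)
  have h3 : (32 : ℤ) ∣ f3 w.1 := th_zero_dvd hw h (Sum.inr 3)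
  have h4 : (32 : ℤ) ∣ f4 w.1 := th_zero_dvd hw h (Sum.inl 0)
  have h5 : (32 : ℤ) ∣ f5 w.1 := th_zero_dvd hw h (Sum.inl 1)
  have h6 : (32 : ℤ) ∣ f6 w.1 := th_zero_dvd hw h (Sum.inl 2)
  have h7 : (32 : ℤ) ∣ f7 w.1 := th_zero_dvd hw h (Sum.inl 3)
  unfold f0 at h0
  unfold f1 at h1
  unfold f2 at h2
  unfold f3 at h3
  unfold f4 at h4
  unfold f5 at h5
  unfold f6 at h6
  unfold f7 at h7
  obtain ⟨c, hc, c0, c1, c2, c3, c5, c14, c17, c23, hs⟩ := LP_coords hw
  have hc0 : c = 0 := half_c0 hc c17 h0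
  subst hc0
  simp only [sub_zero] at c0 c1 c2 c3 c5 c14 c17 c23
  obtain ⟨a0, e0⟩ := c0
  obtain ⟨a1, e1⟩ := c1
  obtain ⟨a2, e2⟩ := c2
  obtain ⟨a3, e3⟩ := c3
  obtain ⟨a5, e5⟩ := c5
  obtain ⟨a14, e14⟩ := c14
  obtain ⟨a17, e17⟩ := c17
  obtain ⟨a23, e23⟩ := c23
  have hoct : ∀ i < 24, Oc.testBit i = true → w.1 (pt i) / 2 = 0 := by
    intro i hi hb
    rw [hw i hi hb]
    rfl
  have d1 : (2 : ℤ) ∣ a1 - a2 + a14 - a17 := half_dvd (by rw [e1, e2, e14, e17]; ring) h1
  have d2 : (2 : ℤ) ∣ a0 + a2 - a14 - a23 := half_dvd (by rw [e0, e2, e14, e23]; ring) h2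
  have d3 : (2 : ℤ) ∣ a0 + a1 + a2 + a5 := half_dvd (by rw [e0, e1, e2, e5]; ring) h3
  have d5 : (2 : ℤ) ∣ a1 - a2 - a17 + a23 := half_dvd (by rw [e1, e2, e17, e23]; ring) h5
  have d6 : (2 : ℤ) ∣ a2 - a5 - a14 + a23 := half_dvd (by rw [e2, e5, e14, e23]; ring) h6
  have d7 : (2 : ℤ) ∣ a1 - a3 + a14 - a23 := half_dvd (by rw [e1, e3, e14, e23]; ring) h7
  have d4 : (4 : ℤ) ∣ a0 + a1 + a2 + a3 + a5 + a14 + a17 + a23 := by
    have e : -2 * w.1 (pt 0) - 2 * w.1 (pt 1) - 2 * w.1 (pt 2) + 6 * w.1 (pt 3) - 2 * w.1 (pt 5) - 2 * w.1 (pt 14) -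
        2 * w.1 (pt 17) - 2 * w.1 (pt 23) = 32 * a3 - 8 * (a0 + a1 + a2 + a3 + a5 + a14 + a17 + a23) := by
      rw [e0, e1, e2, e3, e5, e14, e17, e23]; ring
    rw [e] at h4
    generalize a0 + a1 + a2 + a3 + a5 + a14 + a17 + a23 = S at h4 ⊢
    clear e d1 d2 d3 d5 d6 d7 hs h0 h1 h2 h3 h5 h6 h7 e0 e1 e2 e3 e5 e14 e17 e23 hoct
    omega
  have d4' : (2 : ℤ) ∣ a0 + a1 + a2 + a3 + a5 + a14 + a17 + a23 := by
    generalize a0 + a1 + a2 + a3 + a5 + a14 + a17 + a23 = S at d4 ⊢
    clear d1 d2 d3 d5 d6 d7 hs h0 h1 h2 h3 h4 h5 h6 h7 e0 e1 e2 e3 e5 e14 e17 e23 hoct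
    omega
  have ev : ∀ a : ℤ, (4 * a) / 2 = 2 * a := fun a => by omega
  have v0 : w.1 (pt 0) / 2 = 2 * a0 := by rw [e0, ev]
  have v1 : w.1 (pt 1) / 2 = 2 * a1 := by rw [e1, ev]
  have v2 : w.1 (pt 2) / 2 = 2 * a2 := by rw [e2, ev]
  have v3 : w.1 (pt 3) / 2 = 2 * a3 := by rw [e3, ev]
  have v5 : w.1 (pt 5) / 2 = 2 * a5 := by rw [e5, ev]
  have v14 : w.1 (pt 14) / 2 = 2 * a14 := by rw [e14, ev]
  have v17 : w.1 (pt 17) / 2 = 2 * a17 := by rw [e17, ev]
  have v23 : w.1 (pt 23) / 2 = 2 * a23 := by rw [e23, ev]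
  have hz : (fun p => w.1 p / 2) ∈ leechLattice := by
    rcases half_arith a0 a1 a2 a3 a5 a14 a17 a23 d1 d2 d3 d5 d6 d7 d4' with
      ⟨b0, b1, b2, b3, b5, b14, b17, b23⟩ | ⟨b0, b1, b2, b3, b5, b14, b17, b23⟩
    · refine mem_of_coords0 hoct ?_ ?_ ?_ ?_ ?_ ?_ ?_ ?_ ?_
      · show (4 : ℤ) ∣ w.1 (pt 0) / 2
        rw [v0]; exact mul_dvd_mul_left 2 b0
      · show (4 : ℤ) ∣ w.1 (pt 1) / 2
        rw [v1]; exact mul_dvd_mul_left 2 b1
      · show (4 : ℤ) ∣ w.1 (pt 2) / 2
        rw [v2]; exact mul_dvd_mul_left 2 b2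
      · show (4 : ℤ) ∣ w.1 (pt 3) / 2
        rw [v3]; exact mul_dvd_mul_left 2 b3
      · show (4 : ℤ) ∣ w.1 (pt 5) / 2
        rw [v5]; exact mul_dvd_mul_left 2 b5
      · show (4 : ℤ) ∣ w.1 (pt 14) / 2
        rw [v14]; exact mul_dvd_mul_left 2 b14
      · show (4 : ℤ) ∣ w.1 (pt 17) / 2
        rw [v17]; exact mul_dvd_mul_left 2 b17
      · show (4 : ℤ) ∣ w.1 (pt 23) / 2
        rw [v23]; exact mul_dvd_mul_left 2 b23
      · show (8 : ℤ) ∣ w.1 (pt 0) / 2 + w.1 (pt 1) / 2 + w.1 (pt 2) / 2 + w.1 (pt 3) / 2 + w.1 (pt 5) / 2 +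
          w.1 (pt 14) / 2 + w.1 (pt 17) / 2 + w.1 (pt 23) / 2
        rw [v0, v1, v2, v3, v5, v14, v17, v23]
        have : 2 * a0 + 2 * a1 + 2 * a2 + 2 * a3 + 2 * a5 + 2 * a14 + 2 * a17 + 2 * a23 =
          2 * (a0 + a1 + a2 + a3 + a5 + a14 + a17 + a23) := by ring
        rw [this]
        exact mul_dvd_mul_left 2 d4
    · obtain ⟨b0', b1', b2', b3', b5', b14', b17', b23'⟩ := O0_bits
      have f0' := dec_nH_O0 0 (by norm_num)
      have f1' := dec_nH_O0 1 (by norm_num)
      have f2' := dec_nH_O0 2 (by norm_num)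
      have f3' := dec_nH_O0 3 (by norm_num)
      have f5' := dec_nH_O0 5 (by norm_num)
      have f14' := dec_nH_O0 14 (by norm_num)
      have f17' := dec_nH_O0 17 (by norm_num)
      have f23' := dec_nH_O0 23 (by norm_num)
      rw [b0'] at f0'
      rw [b1'] at f1'
      rw [b2'] at f2'
      rw [b3'] at f3'
      rw [b5'] at f5'
      rw [b14'] at f14'
      rw [b17'] at f17'
      rw [b23'] at f23'
      simp only [Bool.toNat_true, Nat.cast_one, mul_one] at f0' f1' f2' f3' f5' f14' f17' f23'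
      have two : ∀ a : ℤ, (2 : ℤ) ∣ a - 1 → (4 : ℤ) ∣ 2 * a - 2 := fun a ha => by
        have : 2 * a - 2 = 2 * (a - 1) := by ring
        rw [this]
        exact mul_dvd_mul_left 2 ha
      have hm : (fun p => w.1 p / 2 - dec nH p) ∈ leechLattice := by
        refine mem_of_coords0 ?_ ?_ ?_ ?_ ?_ ?_ ?_ ?_ ?_ ?_
        · intro i hi hb
          show w.1 (pt i) / 2 - dec nH (pt i) = 0
          have e := dec_nH_O0 i hi
          have hb0 : O0.testBit i = false := by
            cases hh : O0.testBit i with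
            | false => rfl
            | true =>
              have := O0_Oc_bits i hi hh
              rw [hb] at this
              exact absurd this (by simp)
          rw [e, hb0, hoct i hi hb]
          simp
        · show (4 : ℤ) ∣ w.1 (pt 0) / 2 - dec nH (pt 0)
          rw [f0', v0]; exact two _ b0
        · show (4 : ℤ) ∣ w.1 (pt 1) / 2 - dec nH (pt 1)
          rw [f1', v1]; exact two _ b1
        · show (4 : ℤ) ∣ w.1 (pt 2) / 2 - dec nH (pt 2)
          rw [f2', v2]; exact two _ b2
        · show (4 : ℤ) ∣ w.1 (pt 3) / 2 - dec nH (pt 3)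
          rw [f3', v3]; exact two _ b3
        · show (4 : ℤ) ∣ w.1 (pt 5) / 2 - dec nH (pt 5)
          rw [f5', v5]; exact two _ b5
        · show (4 : ℤ) ∣ w.1 (pt 14) / 2 - dec nH (pt 14)
          rw [f14', v14]; exact two _ b14
        · show (4 : ℤ) ∣ w.1 (pt 17) / 2 - dec nH (pt 17)
          rw [f17', v17]; exact two _ b17
        · show (4 : ℤ) ∣ w.1 (pt 23) / 2 - dec nH (pt 23)
          rw [f23', v23]; exact two _ b23
        · show (8 : ℤ) ∣ (w.1 (pt 0) / 2 - dec nH (pt 0)) + (w.1 (pt 1) / 2 - dec nH (pt 1)) +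
            (w.1 (pt 2) / 2 - dec nH (pt 2)) + (w.1 (pt 3) / 2 - dec nH (pt 3)) +
            (w.1 (pt 5) / 2 - dec nH (pt 5)) + (w.1 (pt 14) / 2 - dec nH (pt 14)) +
            (w.1 (pt 17) / 2 - dec nH (pt 17)) + (w.1 (pt 23) / 2 - dec nH (pt 23))
          rw [f0', f1', f2', f3', f5', f14', f17', f23', v0, v1, v2, v3, v5, v14, v17, v23]
          have : (2 * a0 - 2) + (2 * a1 - 2) + (2 * a2 - 2) + (2 * a3 - 2) + (2 * a5 - 2) + (2 * a14 - 2) +
              (2 * a17 - 2) + (2 * a23 - 2) = 2 * (a0 + a1 + a2 + a3 + a5 + a14 + a17 + a23) - 8 * 2 := by ring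
          rw [this]
          exact dvd_sub (mul_dvd_mul_left 2 d4) (dvd_mul_right _ _)
      have h8 := leechLattice.add_mem hm (mem_of_inL nH_tab.1)
      have e : (fun p => w.1 p / 2 - dec nH p) + dec nH = fun p => w.1 p / 2 := by
        funext p
        show w.1 p / 2 - dec nH p + dec nH p = _
        ring
      rwa [e] at h8
  refine ⟨⟨_, hz⟩, fun i hi hb => hoct i hi hb, ?_⟩
  apply Subtype.ext
  funext p
  show w.1 p = w.1 p / 2 + w.1 p / 2
  refine forall_pt (P := fun p => w.1 p = w.1 p / 2 + w.1 p / 2) (fun i hi => ?_) p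
  show w.1 (pt i) = w.1 (pt i) / 2 + w.1 (pt i) / 2
  rcases C2iRoot.Oc_cover i hi with (r | r | r | r | r | r | r | r) | r
  · subst r; rw [v23, e23]; ring
  · subst r; rw [v0, e0]; ring
  · subst r; rw [v1, e1]; ring
  · subst r; rw [v2, e2]; ring
  · subst r; rw [v3, e3]; ring
  · subst r; rw [v5, e5]; ring
  · subst r; rw [v14, e14]; ring
  · subst r; rw [v17, e17]; ring
  · rw [hw i hi r]; rfl

/-- Inner products of vectors supported on the octad. -/
theorem dot_oct (y z : GolayPt → ℤ) (hy : ∀ i < 24, Oc.testBit i = true → y (pt i) = 0) :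
    dotInt y z = y (pt 0) * z (pt 0) + y (pt 1) * z (pt 1) + y (pt 2) * z (pt 2) + y (pt 3) * z (pt 3) +
      y (pt 5) * z (pt 5) + y (pt 14) * z (pt 14) + y (pt 17) * z (pt 17) + y (pt 23) * z (pt 23) := by
  unfold dotInt
  exact sum_oct (fun p => y p * z p) (fun i hi hb => by simp [hy i hi hb])

theorem dot_dvd {y z : L} (hy : LP y) (hz : LP z) : (16 : ℤ) ∣ dotInt y.1 z.1 := by
  rw [dot_oct _ _ hy]
  obtain ⟨c, hc, ⟨a0, c0⟩, ⟨a1, c1⟩, ⟨a2, c2⟩, ⟨a3, c3⟩, ⟨a5, c5⟩, ⟨a14, c14⟩, ⟨a17, c17⟩, ⟨a23, c23⟩, hs⟩ :=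
    LP_coords hy
  obtain ⟨c', hc', ⟨b0, d0⟩, ⟨b1, d1⟩, ⟨b2, d2⟩, ⟨b3, d3⟩, ⟨b5, d5⟩, ⟨b14, d14⟩, ⟨b17, d17⟩, ⟨b23, d23⟩, hs'⟩ :=
    LP_coords hz
  obtain ⟨s, hs1⟩ : ∃ s : ℤ, c = 2 * s := by
    rcases hc with rfl | rfl
    · exact ⟨0, rfl⟩
    · exact ⟨1, rfl⟩
  obtain ⟨s', hs1'⟩ : ∃ s' : ℤ, c' = 2 * s' := by
    rcases hc' with rfl | rfl
    · exact ⟨0, rfl⟩
    · exact ⟨1, rfl⟩
  obtain ⟨A, hA⟩ : ∃ A : ℤ, a0 + a1 + a2 + a3 + a5 + a14 + a17 + a23 = 2 * A := by
    have : (2 : ℤ) ∣ a0 + a1 + a2 + a3 + a5 + a14 + a17 + a23 := by omega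
    exact this
  obtain ⟨B, hB⟩ : ∃ B : ℤ, b0 + b1 + b2 + b3 + b5 + b14 + b17 + b23 = 2 * B := by
    have : (2 : ℤ) ∣ b0 + b1 + b2 + b3 + b5 + b14 + b17 + b23 := by omega
    exact this
  rw [sub_eq_iff_eq_add.1 c0, sub_eq_iff_eq_add.1 c1, sub_eq_iff_eq_add.1 c2, sub_eq_iff_eq_add.1 c3,
    sub_eq_iff_eq_add.1 c5, sub_eq_iff_eq_add.1 c14, sub_eq_iff_eq_add.1 c17, sub_eq_iff_eq_add.1 c23,
    sub_eq_iff_eq_add.1 d0, sub_eq_iff_eq_add.1 d1, sub_eq_iff_eq_add.1 d2, sub_eq_iff_eq_add.1 d3,
    sub_eq_iff_eq_add.1 d5, sub_eq_iff_eq_add.1 d14, sub_eq_iff_eq_add.1 d17, sub_eq_iff_eq_add.1 d23, hs1, hs1']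
  refine ⟨2 * s * s' + s' * A + s * B + (a0 * b0 + a1 * b1 + a2 * b2 + a3 * b3 + a5 * b5 + a14 * b14 + a17 * b17 + a23 * b23), ?_⟩
  linear_combination (8 * s') * hA + (8 * s) * hB

theorem sq_sub_dvd (a : ℤ) : ∃ t : ℤ, a ^ 2 = a + 2 * t := by
  rcases Int.even_or_odd' a with ⟨k, rfl | rfl⟩
  · exact ⟨2 * k ^ 2 - k, by ring⟩
  · exact ⟨2 * k ^ 2 + k, by ring⟩

theorem norm_dvd {y : L} (hy : LP y) : (32 : ℤ) ∣ sqNorm y.1 := by
  have e : sqNorm y.1 = y.1 (pt 0) ^ 2 + y.1 (pt 1) ^ 2 + y.1 (pt 2) ^ 2 + y.1 (pt 3) ^ 2 +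
      y.1 (pt 5) ^ 2 + y.1 (pt 14) ^ 2 + y.1 (pt 17) ^ 2 + y.1 (pt 23) ^ 2 := by
    unfold sqNorm
    exact sum_oct (fun p => y.1 p ^ 2) (fun i hi hb => by simp [hy i hi hb])
  rw [e]
  obtain ⟨c, hc, ⟨a0, c0⟩, ⟨a1, c1⟩, ⟨a2, c2⟩, ⟨a3, c3⟩, ⟨a5, c5⟩, ⟨a14, c14⟩, ⟨a17, c17⟩, ⟨a23, c23⟩, hs⟩ :=
    LP_coords hy
  obtain ⟨s, hs1⟩ : ∃ s : ℤ, c = 2 * s := by
    rcases hc with rfl | rfl
    · exact ⟨0, rfl⟩
    · exact ⟨1, rfl⟩
  obtain ⟨A, hA⟩ : ∃ A : ℤ, a0 + a1 + a2 + a3 + a5 + a14 + a17 + a23 = 2 * A := by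
    have : (2 : ℤ) ∣ a0 + a1 + a2 + a3 + a5 + a14 + a17 + a23 := by omega
    exact this
  rw [sub_eq_iff_eq_add.1 c0, sub_eq_iff_eq_add.1 c1, sub_eq_iff_eq_add.1 c2, sub_eq_iff_eq_add.1 c3,
    sub_eq_iff_eq_add.1 c5, sub_eq_iff_eq_add.1 c14, sub_eq_iff_eq_add.1 c17, sub_eq_iff_eq_add.1 c23, hs1]
  obtain ⟨t0, e0⟩ := sq_sub_dvd a0
  obtain ⟨t1, e1⟩ := sq_sub_dvd a1
  obtain ⟨t2, e2⟩ := sq_sub_dvd a2
  obtain ⟨t3, e3⟩ := sq_sub_dvd a3
  obtain ⟨t5, e5⟩ := sq_sub_dvd a5
  obtain ⟨t14, e14⟩ := sq_sub_dvd a14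
  obtain ⟨t17, e17⟩ := sq_sub_dvd a17
  obtain ⟨t23, e23⟩ := sq_sub_dvd a23
  refine ⟨s ^ 2 + s * A + A + (t0 + t1 + t2 + t3 + t5 + t14 + t17 + t23), ?_⟩
  linear_combination (16 * s + 16) * hA + 16 * e0 + 16 * e1 + 16 * e2 + 16 * e3 + 16 * e5 + 16 * e14 + 16 * e17 + 16 * e23

/-! ### Binary words of length eight -/

/-- The word of a number. -/
def bt8 (k : ℕ) : V8 :=
  Sum.elim (fun i => ((bit k (i : ℕ) : ℕ) : ZMod 2)) (fun i => ((bit k ((i : ℕ) + 4) : ℕ) : ZMod 2))

/-- The number of a word. -/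
def nm8 (x : V8) : ℕ :=
  (x (Sum.inl 0)).val + 2 * (x (Sum.inl 1)).val + 4 * (x (Sum.inl 2)).val + 8 * (x (Sum.inl 3)).val +
    16 * (x (Sum.inr 0)).val + 32 * (x (Sum.inr 1)).val + 64 * (x (Sum.inr 2)).val + 128 * (x (Sum.inr 3)).val

theorem nm8_bt8 : ∀ k < 256, nm8 (bt8 k) = k := by decide +kernel

theorem bt8_inj {k l : ℕ} (hk : k < 256) (hl : l < 256) (h : bt8 k = bt8 l) : k = l := by
  rw [← nm8_bt8 k hk, ← nm8_bt8 l hl, h]

theorem bt8_bij : Function.Bijective (fun k : Fin 256 => bt8 k.1) := by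
  rw [Fintype.bijective_iff_injective_and_card]
  refine ⟨fun a b h => Fin.ext (bt8_inj a.2 b.2 h), ?_⟩
  simp

/-- The words and the numbers. -/
noncomputable def e256 : Fin 256 ≃ V8 := Equiv.ofBijective _ bt8_bij

/-- The number of a word. -/
noncomputable def kOf8 (x : V8) : ℕ := (e256.symm x).1

theorem kOf8_lt (x : V8) : kOf8 x < 256 := (e256.symm x).2

theorem bt8_kOf8 (x : V8) : bt8 (kOf8 x) = x := e256.apply_symm_apply x

theorem kOf8_bt8 {k : ℕ} (hk : k < 256) : kOf8 (bt8 k) = k :=
  bt8_inj (kOf8_lt _) hk (bt8_kOf8 _)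

/-- The value of the form on numbers. -/
def qn (k : ℕ) : ℕ := (bit k 0 * bit k 4 + bit k 1 * bit k 5 + bit k 2 * bit k 6 + bit k 3 * bit k 7) % 2

theorem q_bt8 (k : ℕ) : quadFormPlus 4 (ZMod 2) (bt8 k) = ((qn k : ℕ) : ZMod 2) := by
  unfold quadFormPlus qn
  rw [Fin.sum_univ_four, ZMod.natCast_mod]
  simp only [bt8, Sum.elim_inl, Sum.elim_inr, Fin.val_zero, Fin.val_one, Fin.val_two]
  push_cast
  rfl

/-- The norm of the chosen representative. -/
def nrm (k : ℕ) : ℕ := cond (Nat.beq k 0) 0 (cond (Nat.beq (qn k) 1) 32 64)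

/-- The packed representatives. -/
def repT : ℕ := 2534352485708810117203823886818190085174789396526704174763389070285972164042748100511549388948311088562650776520861204451555454577704205980043367717861463150244009747353562967519320547753913428169234696773512905044831421735422069522403296974064645566105077642729907241160166996396191574892505878478991017746313054992694653734552093528304325026173965481768509576129944547835445893356481593274402974905856536330440501751472311892651497078546963177573770344477453024643313625116238620840025611742827330312798124960354573736155078427671530259619122441004820323022486417676709500592834289653649850152656754302864530402672763611630920401083239284349626845777952570850848888734763374674761152783914838044313002723127271414319134459643203221466807929837011254537182983607314957271636397443517320471417173724675494738402610986723726160063523734312218198593025601934886742860521816892748915055135858779176011864793011076272031843667227582690046123073290575870505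575073877321035137287699302068751540828935884072127246577518134467154050875314084111204371757593128443625834280619714657646959211336867909371065724915545116604322931695464276024533941812823001908769796484566248703428840067456012286492900877850330195905944049814574790490322074185269513941122401652583244470111639944640679663699036867597842438623218619714633883787372154444764264649608241108432969033907055757774866043372314997966200816616370712972009555107035359225270011420714239652146369128847393171631367312075196936856076676339304962717799071705431194592295553347738148135712280024430282856595563396949172128619135890618139548239317465124754485498561002255215927930247432999612306284050347626432599219716553242753420484329016354629387992720330622040119436824965328141662650869118417684754077721021954415200748259897643513301940055102044024779107086148716447907835456601418933652476726344919474188488507458732398997352792937257928241504067281763812903776297252203138402336427598472122068995953586631014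081437160304843593175852225269205826695216617206974460193808851050500438700262371194244335953159541068181600875307437059547870606176823769763992408860721969921716273959570835273760996769735595084159840056562103959297138440600227725419981756600504885842450029857549493872645346171738023384338703078264439338355174998354458374228879975790755143909424415619921999376645306801083919368149285969778539224399955243563758179692199123370551581537096793094247507651595373108735697596957328593281902707970434488592494664071957561698467937360070210766654377263340905972026616831098460753265233777799133944751451742355053885893045491784679100253103695831649922215722647630538644098982174476742996147874067951714696442016021038547851977383238721137665669478862101495576207072804115186591708236300426028319978743819787181812520014895722836373499007002360525127368744653757093374283786202881883224479710913854742030421016135709400052016269423704943040914751164543216224045274456131626146157926777049873761117450314410999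870994969218692436305482028698444338804860330280381958001087466451073283731438313039162917693180901265373665992691317504758535011145797652539235998651909052260386839738111379629709733904187580403856822365098376910323024047706842546062923160674117105761994352008798580136404064256143866236235435004703186518678812000885941965151852177659216457078207759548753930844745228764551328967202100242138613745923690349859068432522751470939251766654409297341224648414615006438658123434189894008234443085190367859097925169934804215003300192879314122596846208522955739868191566234187555216325182182033454407306555813921154230975411732319880901505452669459017157988266309769368135782547472928360580621796950473834416186539548445391171921446483211896754631017284960676770346468272861074483468753561502397433031227223964329092940569237038673184703602288944382932970901080620782996494083926353501880999048679239083324030857616008669234468357565548835277763692451410311377644015871775858031247701087650306490220746242562791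631833042353092768961211046168786598371105889964233892917476658558570252511514258167935970525007887429483258216970575585319929217052896724733638552724565794191256623993660071269824771376601257062104416745324649165080421517043767613279502104689542811381776152247237408348441911415723865107094755687654484630671908911767326415695353824832428057092774629708234312737898201569950270778361131335505964315405249804208725367199867909140293174511120993819455873242767970709306676138023291715854113473889792848747884799156449992578795088040711910141749416234706685830823728764347070266267628805751503905817124308615200534403942054984592513705825963223049498256531223041619548645092966230697127477959110074124179541152397364389896442411834483088309909734010306054535819018612663199796469248545457237220792008746026188139559965239111044407445058839066441121502112145760800311146653489418268207237816746708295771434559341087232135893362878154199821648086718970985072922049082363345449449454218567083010210768234611367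736558814028938226382587222062490028470109549192228434509413869306242846854119096661160708884295737885471176513464288326873749651168432461463101755437730257659871374210728606750550092874687641419181059544648599338298813197863454555577727602256459618729375625331736751380799235663663703362636274168772526251542744841450331444179567671277569044181723591535184819988304059631390609073564633719897970370326834628372927986171118697465651083975046351995567719061310398643837821067648599563564986384326636679045425012559948243529194489338610186834682079653450574329082552698881556397509949719343975933425051053881796680265477929548714235374416003262324817225450046240069546313838173057876783960368005446303855252478763434288630703199563980536298750820942371242058193248547431292104682721653135718677622735302921901912147517161628811083067420673890496066566535412150685840738084213255661542381924073536093915385264677694381789050911404195816484713165969673852163062696393576501031327113801816217527906304602053373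396088133107350833442652947438256579511404642440866610428428322912040828002540774380281952516195734199818749577806903281356212504507651295116490852999228727652241575373362401301788542341992283339779141122389171945609472951548621993491064551483047413949386107497125884927515681832080551149383542272671609990029190319106654283184697813383621630228620835288800573422803604032157013700923181464520013090822380613311516315791343812006428383924426917606438235153150952782353155860397159416789196904085292954434275688576284225570591887581807466241084668817111698226640766332475044181686936794736580811664489301529576433913384073640945764346949026535548474669845380715918705976960831466770281372107134289294137100790298875819187657525154883146461113884579110997578749093628621538953864239332484688035579420132199581227193670634320373261632086300055238991535480317702948819395829613169247206296315778252617046369387469488866300976053968390754479615430545195197871590073295423147984952640216989529644015483502608562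794042126939840187175672213416044443877725666316188548764401857808557883465411377942323803227309812838395248181587085796208812975724790826474325581693203918047318250521892754575410934141934885012890614721309052056520974959842932082868864130104859090420944977696769510479258181571672071353664523098502900142987079404966082435182897207843388014421373009010061787157538133177605225902851313362022466514052586757784905050330661601974581771910699542848527655634703014390139400514870913981699578845050721868335140287575236898998205305381140017952540446044641703997138261437161040469630363401962708249058925324332509132583819985159261991604352190482141971030916861664303051567582916844951197667508445037930723079739236399088402436079146711091085616627573871802544538287887023694230597734543546170144756836908456426579490564250543885752535509072208244135938902135326186294856008317590101997396882438296795817950792733838322479465424955267727236158902976184320665180634766306367348307138542379549795830342950754305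2364411162416975746014675416133452678847602947529102565714207550401121887048693150180918554359100160770461498408645078725941940025080073020494693562898534834397136209502296040811457317884827843086064411878005230581477466927238620627274324972028332031587223038550373134914709948389886513578053928733025054867202915447434235912667289179203415879922933794185649088598431156545164878914169522580084514496997859678849316558679696881717837681189172340037449463294405948293033399993453403368378123035631940344939950983661386989302218544823338786034405235525713830027982671703490118748743527675477664873454065820081543827094677863429638822135509801876616574550871473273582629364962644390858608710792066074284981967245640528712308116023071384745733082697630138795535434154451328632600844163328961218206940705718149059560696916747473143768955873029969641986313509440832105066513601159244090217036337493249359639672002851466674794746024870505614659562555686773947508196377624223635655581463123399332553937049257993240803607826164285039667249738196755033093959430334858094243582418631693537154975347246395526190069161434358876899251128737632753776018465284310695270294363962174347485071221459802688796506173010356023957593130990784517996159857299971530578446190212645667344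

def maskL120' : ℕ := 1329227995784915872903807060280344575

/-- A representative. -/
def rt (k : ℕ) : ℕ := Nat.land (Nat.shiftRight repT (Nat.mul 120 k)) maskL120'

theorem rt_tab1 : ∀ k < 256, inL (rt k) = true ∧ (∀ i < 24, Oc.testBit i = true → img (rt k) i = 16) ∧
    dotIs (rt k) (rt k) (nrm k) 0 = true := by decide +kernel

theorem rt_tab2 : ∀ k < 256, ∀ j : Fin 4, fm (Sum.inl j) (dec (rt k)) % 32 = 16 * (bit k (j : ℕ) : ℤ) ∧
    fm (Sum.inr j) (dec (rt k)) % 32 = 16 * (bit k ((j : ℕ) + 4) : ℤ) := by decide +kernel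

/-- The representative of a word. -/
noncomputable def rv8 (x : V8) : L := ⟨dec (rt (kOf8 x)), mem_of_inL (rt_tab1 _ (kOf8_lt x)).1⟩

theorem LP_rv8 (x : V8) : LP (rv8 x) := by
  intro i hi hb
  show dec (rt (kOf8 x)) (pt i) = 0
  rw [dec_pt _ hi, (rt_tab1 _ (kOf8_lt x)).2.1 i hi hb]
  norm_num

theorem cast_of_mod {F b : ℤ} (h : F % 32 = 16 * b) (hb : b = 0 ∨ b = 1) : ((F / 16 : ℤ) : ZMod 2) = ((b : ℤ) : ZMod 2) := by
  have h1 : F / 16 = 2 * (F / 32) + b := by omega
  rw [h1]
  push_cast
  have : (2 : ZMod 2) = 0 := rfl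
  rw [this]
  ring

theorem bit_lt' (k i : ℕ) : (bit k i : ℤ) = 0 ∨ (bit k i : ℤ) = 1 := by
  rw [bit_eq]
  cases (k.testBit i) <;> simp

theorem th_rv8 (x : V8) : th (rv8 x) = x := by
  conv_rhs => rw [← bt8_kOf8 x]
  funext j
  show ((fm j (dec (rt (kOf8 x))) / 16 : ℤ) : ZMod 2) = bt8 (kOf8 x) j
  rcases j with i | i
  · rw [cast_of_mod (rt_tab2 _ (kOf8_lt x) i).1 (bit_lt' _ _)]
    simp [bt8]
  · rw [cast_of_mod (rt_tab2 _ (kOf8_lt x) i).2 (bit_lt' _ _)]
    simp [bt8]

theorem exists_th (v : V8) : ∃ y : L, LP y ∧ th y = v := ⟨rv8 v, LP_rv8 v, th_rv8 v⟩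

theorem nrm_tab : ∀ k < 256, ((nrm k = 0 ∨ nrm k = 64) ∧ qn k = 0) ∨ (nrm k = 32 ∧ qn k = 1) := by decide +kernel

theorem val_q_bt8 (k : ℕ) : (quadFormPlus 4 (ZMod 2) (bt8 k)).val = qn k := by
  rw [q_bt8, ZMod.val_natCast]
  unfold qn
  omega

theorem q_rv8 (x : V8) : (64 : ℤ) ∣ sqNorm (rv8 x).1 - 32 * ((quadFormPlus 4 (ZMod 2) x).val : ℤ) := by
  obtain ⟨k, hk, rfl⟩ : ∃ k < 256, x = bt8 k := ⟨kOf8 x, kOf8_lt x, (bt8_kOf8 x).symm⟩
  have h1 := dotIs_iff.1 (rt_tab1 k hk).2.2
  rw [dotInt_self] at h1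
  have h2 : (rv8 (bt8 k)).1 = dec (rt k) := by
    show dec (rt (kOf8 (bt8 k))) = _
    rw [kOf8_bt8 hk]
  rw [h2, h1, val_q_bt8]
  rcases nrm_tab k hk with ⟨h3, h4⟩ | ⟨h3, h4⟩
  · rw [h4]
    rcases h3 with h3 | h3 <;> rw [h3] <;> norm_num
  · rw [h3, h4]
    norm_num

/-- Congruence modulo twice the lattice. -/
theorem exists_rep_half {y : L} (hy : LP y) : ∃ w : L, LP w ∧ y = rv8 (th y) + (w + w) := by
  have h1 : th (y + - rv8 (th y)) = 0 := by
    rw [th_add hy (LP_neg (LP_rv8 _)), th_neg (LP_rv8 _), th_rv8]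
    funext j
    exact CharTwo.add_self_eq_zero _
  obtain ⟨w, hw, e⟩ := exists_half (LP_add hy (LP_neg (LP_rv8 _))) h1
  refine ⟨w, hw, ?_⟩
  rw [← e]
  abel

/-- The form and the norm. -/
theorem q_th {y : L} (hy : LP y) : (64 : ℤ) ∣ sqNorm y.1 - 32 * ((quadFormPlus 4 (ZMod 2) (th y)).val : ℤ) := by
  obtain ⟨w, hw, e⟩ := exists_rep_half hy
  have h1 := q_rv8 (th y)
  have h2 := dot_dvd (LP_rv8 (th y)) hw
  have h3 := norm_dvd hw
  have h4 : sqNorm y.1 = sqNorm (rv8 (th y)).1 + 4 * dotInt (rv8 (th y)).1 w.1 + 4 * sqNorm w.1 := by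
    have e1 : y.1 = (rv8 (th y)).1 + (w.1 + w.1) := congrArg Subtype.val e
    rw [e1, Cfsg.Agent.Lib.Leech.Even.sqNorm_add, Cfsg.Agent.Lib.Leech.Even.sqNorm_add, dotInt_add_right, dotInt_self]
    ring
  rw [h4]
  omega

/-- Equality of the form for vectors of the same norm. -/
theorem q_eq_of_norm {y z : L} (hy : LP y) (hz : LP z) (h : sqNorm y.1 = sqNorm z.1) :
    quadFormPlus 4 (ZMod 2) (th y) = quadFormPlus 4 (ZMod 2) (th z) := by
  have h1 := q_th hy
  have h2 := q_th hz
  have h3 : (quadFormPlus 4 (ZMod 2) (th y)).val < 2 := ZMod.val_lt _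
  have h4 : (quadFormPlus 4 (ZMod 2) (th z)).val < 2 := ZMod.val_lt _
  apply ZMod.val_injective 2
  rw [h] at h1
  omega

end Cfsg.Agent.Lib.Leech.C1iForm
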