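import Cfsg.Agent.Lib.Leech.C1iPsi

/-!
# The kernel of the action on the orthogonal space
-/

set_option autoImplicit false

namespace Cfsg.Agent.Lib.Leech.C1iKer

open Cfsg Cfsg.Spor Matrix Cfsg.Agent.Lib.Golay.Core
  Cfsg.Agent.Lib.Leech.Lat Cfsg.Agent.Lib.Leech.C2iTab Cfsg.Agent.Lib.Leech.C2iRoot Cfsg.Agent.Lib.Leech.C2iKer
  Cfsg.Agent.Lib.Leech.C1iForm Cfsg.Agent.Lib.Leech.C1iPsi

theorem LP_U : LP leechU := U_supp

theorem negG_mem_NC : negG ∈ NC := mem_NC.2 (negG_central _)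

theorem neg_mul_mem_NC {g : Co0} (hg : g ∈ NC) : negG * g ∈ NC := NC.mul_mem negG_mem_NC hg

theorem negG_mul_smul (g : Co0) (y : L) : (negG * g) • y = - (g • y) := rfl

theorem negG_sq : negG * negG = 1 := by
  apply ext_smul
  intro v
  show - - v = v
  rw [neg_neg]

/-- Norm 32 vectors are moved to their opposite at most. -/
theorem smul_of_th {g : Co0} {y : L} (hy : LP y) (hgy : LP (g • y)) (hth : th (g • y) = th y)
    (h32 : sqNorm y.1 = 32) : g • y = y ∨ g • y = - y := by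
  by_cases hne : g • y = y
  · exact Or.inl hne
  right
  have h1 : th (g • y + - y) = 0 := by
    rw [th_add hgy (LP_neg hy), th_neg hy, hth]
    funext j
    exact CharTwo.add_self_eq_zero _
  obtain ⟨w, hw, e⟩ := exists_half (LP_add hgy (LP_neg hy)) h1
  have h2 := short_congruent (g • y).2 y.2 (fun h => hne (Subtype.ext h))
    (by rw [smul_sqNorm, h32]; norm_num) (by rw [h32]; norm_num)
    ⟨w.1, w.2, by
      have e1 := congrArg Subtype.val e
      show (g • y).1 - y.1 = _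
      rw [two_nsmul, sub_eq_add_neg]
      exact e1⟩
  rcases h2 with h2 | ⟨h3, -, -⟩
  · exact Subtype.ext h2
  · rw [smul_sqNorm, h32] at h3
    norm_num at h3

theorem ker_smul {g : Co0} (hg : g ∈ NC) (hk : ∀ x, Ph8 g x = x) {y : L} (hy : LP y)
    (h32 : sqNorm y.1 = 32) : g • y = y ∨ g • y = - y := by
  refine smul_of_th hy (LP_smul hg hy) ?_ h32
  rw [← Ph8_th hg hy, hk]

theorem ker_rt {g : Co0} (hg : g ∈ NC) (hk : ∀ x, Ph8 g x = x) (z : C2iSp.V) :
    g • rv z = rv z ∨ g • rv z = - rv z := by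
  have hR := rt_rv z
  rcases hR.norm with h | h
  · exact ker_smul hg hk hR.supp h
  · left
    rw [h, smul_zero']

theorem sq_U : sqNorm leechU.1 = 32 := by decide +kernel

theorem qel_of_fix {g : Co0} (hg : g ∈ NC) (hk : ∀ x, Ph8 g x = x) (hU : g • leechU = leechU) : Qel g := by
  have hC : g ∈ C0 := ⟨mem_NC.1 hg, hU⟩
  exact qel_of_ker hC (fun z => Ph_eq hC (ker_rt hg hk z))

theorem ker_neg {g : Co0} (hg : g ∈ NC) (hk : ∀ x, Ph8 g x = x) (x : V8) : Ph8 (negG * g) x = x := by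
  show th ((negG * g) • rv8 x) = x
  rw [negG_mul_smul, th_neg (LP_smul hg (LP_rv8 x))]
  exact hk x

theorem qel_of_ker8 {g : Co0} (hg : g ∈ NC) (hk : ∀ x, Ph8 g x = x) : Qel g ∨ Qel (negG * g) := by
  rcases ker_smul hg hk LP_U sq_U with h | h
  · exact Or.inl (qel_of_fix hg hk h)
  · right
    refine qel_of_fix (neg_mul_mem_NC hg) (ker_neg hg hk) ?_
    rw [negG_mul_smul, h, neg_neg]

theorem Qel_mem_NC {g : Co0} (h : Qel g) : g ∈ NC := mem_NC.2 (Qel_mem_C0 h).1

theorem Qel_fix {g : Co0} (h : Qel g) {y : L} (hy : LP y) : g • y = y := by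
  obtain ⟨P, hP, c, hc, rfl⟩ := h
  exact opG_smul_fix hP hc hy

theorem ker_of_qel {g : Co0} (h : Qel g) (x : V8) : Ph8 g x = x := by
  show th (g • rv8 x) = x
  rw [Qel_fix h (LP_rv8 x), th_rv8]

theorem ker_of_neg_qel {g : Co0} (h : Qel (negG * g)) (x : V8) : Ph8 g x = x := by
  show th (g • rv8 x) = x
  have h1 := Qel_fix h (LP_rv8 x)
  rw [negG_mul_smul] at h1
  rw [neg_eq_iff_eq_neg.1 h1, th_neg (LP_rv8 x), th_rv8]

/-- **The kernel**. -/
theorem psi_ker_iff (g : ↥NC) : psi g = 1 ↔ Qel g.1 ∨ Qel (negG * g.1) := by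
  rw [psi_eq_one_iff]
  constructor
  · exact qel_of_ker8 g.2
  · rintro (h | h)
    · exact ker_of_qel h
    · exact ker_of_neg_qel h

theorem U_ne_neg : leechU ≠ - leechU := by
  intro h
  have h1 := congrFun (congrArg Subtype.val h) (pt 23)
  have h2 : (leechU : L).1 (pt 23) = 4 := vecU_pt23
  have h3 : ((- leechU : L) : GolayPt → ℤ) (pt 23) = - (leechU : L).1 (pt 23) := rfl
  rw [h3, h2] at h1
  norm_num at h1

/-- On the stabiliser of the vector the kernel consists of the elements of the table. -/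
theorem psi_ker_C0 {g : Co0} (hg : g ∈ C0) (hN : g ∈ NC) : psi ⟨g, hN⟩ = 1 ↔ Qel g := by
  rw [psi_ker_iff]
  constructor
  · rintro (h | h)
    · exact h
    · exfalso
      have h1 := Qel_fix h LP_U
      rw [negG_mul_smul, hg.2] at h1
      exact U_ne_neg (neg_eq_iff_eq_neg.1 h1)
  · exact Or.inl

end Cfsg.Agent.Lib.Leech.C1iKer
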