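import Cfsg.Agent.Lib.Classical.QuadEichBridge

/-!
# The group `O⁺₈(2)` and its simple subgroup of index two
-/

set_option autoImplicit false
set_option linter.unusedVariables false

namespace Cfsg.Agent.Lib.Leech.C1iOmega

open Cfsg.Agent.Lib.Classical.QuadEichBridge Cfsg.Agent.Lib.Orth.Forms Cfsg.Agent.Lib.Orth.Bridge
open Cfsg.Agent.Lib.Orth.Refl Cfsg.Agent.Lib.Classical.QuadEichler

abbrev O8 := Cfsg.isometryGroup (ZMod 2) (Cfsg.quadFormPlus 4 (ZMod 2))

abbrev Om8 : Subgroup O8 := Cfsg.Omega (ZMod 2) (Cfsg.quadFormPlus 4 (ZMod 2))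

theorem hn8 : 5 ≤ Fintype.card (Fin 4 ⊕ Fin 4) := by simp

theorem two_eq : (2 : ZMod 2) = 0 := rfl

theorem card_center_Om8 : Nat.card (Subgroup.center Om8) = 1 :=
  card_center_of_two (plusForm 4 (ZMod 2)) (plusForm_nondeg 4) hn8 two_eq

theorem index_Om8 : Om8.index = 2 :=
  Cfsg.Agent.Lib.Orth.Closure.index_Omega_char_two (plusForm 4 (ZMod 2)) (by simp) (plusForm_nondeg 4)
    (Or.inr (by simp))

theorem card_Om8 : Nat.card Om8 = 174182400 := by
  have h := card_POmega_plus (F := ZMod 2) (q := 2) (by simp) 4 (le_refl 4)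
  have h1 := card_POmega_mul (plusForm 4 (ZMod 2))
  rw [show Nat.card (Subgroup.center (Cfsg.Omega (ZMod 2) ⇑(plusForm 4 (ZMod 2)))) = 1 from card_center_Om8, mul_one] at h1
  have h2 : Nat.card Om8 = Nat.card (Cfsg.POmega (ZMod 2) (Cfsg.quadFormPlus 4 (ZMod 2))) := h1
  rw [h2]
  have h3 : Nat.gcd 4 (2 ^ 4 - 1) = 1 := by norm_num
  rw [h3, one_mul] at h
  rw [h]
  norm_num [Finset.prod_range_succ]

theorem card_O8 : Nat.card O8 = 348364800 := by
  have h := Subgroup.card_mul_index Om8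
  rw [card_Om8, index_Om8] at h
  omega

theorem simple_Om8 : IsSimpleGroup Om8 := by
  have h := isSimple_plus (F := ZMod 2) 4 (le_refl 4)
  have hc : Subgroup.center Om8 = ⊥ := Subgroup.eq_bot_of_card_eq _ card_center_Om8
  let e : Om8 ⧸ Subgroup.center Om8 ≃* Om8 :=
    (QuotientGroup.quotientMulEquivOfEq hc).trans QuotientGroup.quotientBot
  exact e.symm.isSimpleGroup

theorem eq_Om8_of_card (I : Subgroup O8) (h : Nat.card I = 174182400) : I = Om8 := by
  have hidx : I.index = 2 := by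
    have h1 := Subgroup.card_mul_index I
    rw [h, card_O8] at h1
    omega
  haveI hN : I.Normal := Subgroup.normal_of_index_eq_two hidx
  have hcard : Nat.card (O8 ⧸ I) = 2 := hidx
  have hcomm : ∀ x y : O8 ⧸ I, x * y = y * x := by
    haveI : Fact (Nat.Prime (Nat.card (O8 ⧸ I))) := ⟨by rw [hcard]; exact Nat.prime_two⟩
    haveI := isCyclic_of_prime_card (α := O8 ⧸ I) rfl
    exact IsCyclic.exists_generator (α := O8 ⧸ I) |>.elim fun g hg x y => by
      obtain ⟨a, rfl⟩ := Subgroup.mem_zpowers_iff.1 (hg x)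
      obtain ⟨b, rfl⟩ := Subgroup.mem_zpowers_iff.1 (hg y)
      exact (Commute.refl g).zpow_zpow a b
  have hle : Om8 ≤ I := by
    have hOm : Om8 = commutator O8 := rfl
    rw [hOm, commutator_def, Subgroup.commutator_le]
    intro x _ y _
    rw [← QuotientGroup.eq_one_iff, commutatorElement_def]
    simp only [QuotientGroup.mk_mul, QuotientGroup.mk_inv]
    rw [hcomm (x : O8 ⧸ I) y]
    group
  exact (Subgroup.eq_of_le_of_card_ge hle (by rw [h, card_Om8])).symm

theorem card_nonsing : (Finset.univ.filter fun v : Fin 4 ⊕ Fin 4 → ZMod 2 => Cfsg.quadFormPlus 4 (ZMod 2) v = 1).card = 120 := by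
  decide +kernel

end Cfsg.Agent.Lib.Leech.C1iOmega
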