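import Cfsg.Agent.Lib.Leech.C1iKer

/-!
# The orbit of the given minimal vector on the words of length eight

The group generated by `ξ` and two elements of the stabiliser of the given vector is transitive on the words with
value 1 under the quadratic form.
-/

set_option autoImplicit false

namespace Cfsg.Agent.Lib.Leech.C1iOrb

open Cfsg Cfsg.Spor Matrix Cfsg.Agent.Lib.Golay.Core
  Cfsg.Agent.Lib.Leech.Lat Cfsg.Agent.Lib.Leech.Vec Cfsg.Agent.Lib.Leech.Word Cfsg.Agent.Lib.Leech.OutCo1Base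
  Cfsg.Agent.Lib.Leech.C2iData Cfsg.Agent.Lib.Leech.C2iRoot Cfsg.Agent.Lib.Leech.C2iKer Cfsg.Agent.Lib.Leech.C2iGen
  Cfsg.Agent.Lib.Leech.C1iForm Cfsg.Agent.Lib.Leech.C1iPsi Cfsg.Agent.Lib.Leech.C1iKer

/-- The operations used. -/
def Gs : List (ℕ × ℕ) := [(0, 0), (20221884795850722430336043065579063, 4819776),
  (108122168966966670611841106225597623, 12897522)]

/-- The words, as lists of numbers of generators. -/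
def wT : List (List ℕ) := [[],[],[],[],[],[],[],[],[],[],[],[],[],[],[],[],[],[2,0,2,1,1,1],[],[2,1,0,0,2,1],[],[2,1,0,2,1,0,0],[],[2,1,0,2,1],[],[2,0,0],[],[2],[],[2,0,0,2,0,0,2],[],[2,0,0,0,0],[],[],[2,1,2,1,0],[2,0,2,0,0,2,0],[],[],[2,1,2,1,0,0],[2,0,1,2,1],[],[],[2,1,1,0,0],[2,0,1,1],[],[],[2,1,1,0],[2,0,0,0,1,1,2],[],[2,0,0,0,0,0],[2,1,2,1,2,0],[],[],[2,0,2,1,2],[2,0,1,0,1,1],[],[],[2,0,1,0,0,2,1],[2,1,1,0,0,2],[],[],[2,1,0,0,2,1,0],[2,1,1,0,2],[],[],[],[],[],[2,1,0,2],[2,1,2,1,1,1],[2,1,0,0,2],[2,0,1,1,1,2,1],[],[],[],[],[2,0,0,0,2,1,0],[2,0,0,0,2,0],[2,0,1,1,2,1],[2,0,0,2,0,0,0],[],[2,0,1,1,1,0],[],[2,0,0,0,1],[2,1,0],[],[2,1,0,0],[],[],[2,0,2],[],[2,0,2,0],[2,0,0,0,2,1,2,0],[],[2,0,2,1,1],[],[],[],[2,0,1,0],[2,0,0,2,1,0],[2,0,0,0,2,1],[2,0,0,0,2],[],[],[],[],[2,1,0,0,2,0],[2,0,1,0,1,0,1,2],[2,0,2,0,0,1],[2,0,1,2,1,1]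,[],[],[],[2,0,2,0,0,0],[2,0,1,0,2],[],[2,0,0,0,2,1,2],[],[],[2,0,2,0,0],[],[2,0,1,1,1],[2,1,0,0,0],[],[2,0,1,1,1,1],[],[],[2,0,0,0,0,0,1],[],[],[],[],[],[],[],[],[2,0,0,0,0,1,0],[2,0,0,2,0,0],[2,0,1],[2,0,0,2,1],[2,0,1,0,0],[2,0,0,2],[2,0,2,0,2,1],[],[],[2,0,0,2,0,0,1],[],[2,1,0,2,1,2],[],[2,0,0,2,1,1],[],[2,0,0,0,1,0],[2,0,1,2,1,0,1],[],[2,0,1,2],[],[2,0,1,0,0,2],[],[2,0,2,0,2,1,2],[],[],[],[2,0,0,0,0,1],[2,0,0,2,0],[],[],[2,0,0,0,2,1,0,0],[2,0,0,0,2,0,0],[2,1,2],[2,1,2,1,1,1,1],[],[],[2,0,0,1,2],[2,0,1,2,1,1,0],[],[],[],[2,0,2,1],[2,0,1,0,0,2,0],[],[],[2,0,2,0,1],[2,1,0,0,2,1,1],[],[2,1],[],[],[2,0,0,0,1,1],[2,0,0,1],[],[],[2,0,1,1,2],[],[],[],[],[2,0,1,0,1],[2,0,1,1,0,0],[2,1,0,0,0,1],[2,0,1,1,0],[2,0,1,0,2,1],[2,1,2,1,0,1],[2,1,0,0,2,0,1],[2,0,1,2,1,0],[],[],[],[],[],[2,1,0,2,1,0],[],[2,1,2,1,0,0,1],[2,0,1,0,1,2],[],[2,1,0,0,0,1,2],[],[2,0,1,1,1,1,1],[],[2,0,0,0,2,1,1],[],[],[2,0],[],[2,0,2,0,2],[],[],[2,1,2,1],[2,0,2,0,0,2],[2,0,0,1,1,2],[2,1,2,1,1],[],[],[2,0,1,0,1,0],[2,1,2,1,2,1],[],[],[],[],[2,1,1],[2,0,1,0,1,0,1],[],[2,0,0,0],[2,1,2,1,2],[],[2,0,0,1,1],[],[],[2,0,0,1,1,1],[2,0,0,1,2,1],[],[],[2,0,0,1,1,2,1],[],[2,0,1,1,1,2],[2,0,0,1,2,1,0],[]]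

/-- The generators. -/
def gOf (i : ℕ) : List (ℕ × ℕ) := [w1, w2, [(0, 0)]].getD i []

/-- The word of a number. -/
def wK (k : ℕ) : List (ℕ × ℕ) := (wT.getD k []).flatMap gOf

theorem Gs_comm : ∀ o ∈ Gs, eqW [o, C2iGen.oT] [C2iGen.oT, o] = true := by decide +kernel

theorem opG_mem_NC {o : ℕ × ℕ} (ho : o ∈ Gs) : opG o ∈ NC := by
  have h := wG_eq (Gs_comm o ho)
  simp only [wG_cons, wG_nil, one_mul, C2iGen.opG_oT] at h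
  exact mem_NC.2 h.symm

theorem wK_ops : ∀ k < 256, ∀ o ∈ wK k, o ∈ Gs := by decide +kernel

theorem wK_run : ∀ k < 256, qn k = 1 → runW (wK k) nU (rt k) = true := by decide +kernel

theorem wK_mem {k : ℕ} (hk : k < 256) : wG (wK k) ∈ NC :=
  wG_mem fun _ ho => opG_mem_NC (wK_ops k hk _ ho)

/-- The number of the given vector. -/
def kU : ℕ := 143

theorem nU_mem : dec nU ∈ leechLattice := by
  rw [nU_dec]
  exact leechU.2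

theorem rv8_bt8 {k : ℕ} (hk : k < 256) : rv8 (bt8 k) = ⟨dec (rt k), mem_of_inL (rt_tab1 k hk).1⟩ := by
  apply Subtype.ext
  show dec (rt (kOf8 (bt8 k))) = dec (rt k)
  rw [kOf8_bt8 hk]

theorem wK_smul {k : ℕ} (hk : k < 256) (hq : qn k = 1) : wG (wK k) • leechU = rv8 (bt8 k) := by
  rw [rv8_bt8 hk]
  apply Subtype.ext
  have h4 : (⟨dec nU, nU_mem⟩ : L) = leechU := Subtype.ext nU_dec
  have h := wG_smul (wK k) (wK_run k hk hq) nU_mem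
  rw [h4] at h
  exact h

/-- Transitivity. -/
theorem exists_orbit (v : V8) (hv : quadFormPlus 4 (ZMod 2) v = 1) :
    ∃ g : ↥NC, Ph8 g.1 (th leechU) = v := by
  have hk := kOf8_lt v
  have hq : qn (kOf8 v) = 1 := by
    have h1 := val_q_bt8 (kOf8 v)
    rw [bt8_kOf8, hv] at h1
    exact h1.symm
  refine ⟨⟨_, wK_mem hk⟩, ?_⟩
  show Ph8 (wG (wK (kOf8 v))) (th leechU) = v
  rw [Ph8_th (wK_mem hk) LP_U, wK_smul hk hq, th_rv8, bt8_kOf8]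

/-- The value of the form at the image of the given vector. -/
theorem q_th_U : quadFormPlus 4 (ZMod 2) (th leechU) = 1 := by
  have h1 := q_th LP_U
  rw [sq_U] at h1
  have h3 : (quadFormPlus 4 (ZMod 2) (th leechU)).val < 2 := ZMod.val_lt _
  apply ZMod.val_injective 2
  show _ = 1
  omega

/-- The stabiliser of the word of the given vector. -/
theorem stab_U {g : Co0} (hg : g ∈ NC) (h : Ph8 g (th leechU) = th leechU) :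
    g • leechU = leechU ∨ g • leechU = - leechU := by
  rw [Ph8_th hg LP_U] at h
  exact smul_of_th LP_U (LP_smul hg LP_U) h sq_U

end Cfsg.Agent.Lib.Leech.C1iOrb
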