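import Cfsg.Agent.Lib.Leech.C1iForm

/-!
# The action of the centraliser of the involution on the 8-dimensional orthogonal space
-/

set_option autoImplicit false

namespace Cfsg.Agent.Lib.Leech.C1iPsi

open Cfsg Cfsg.Spor Matrix Cfsg.Agent.Lib.Golay.Core
  Cfsg.Agent.Lib.Leech.Lat Cfsg.Agent.Lib.Leech.C2iRoot Cfsg.Agent.Lib.Leech.C1iForm

/-- The centraliser of the involution. -/
noncomputable def NC : Subgroup Co0 := Subgroup.centralizer ({tG} : Set Co0)

theorem mem_NC {g : Co0} : g ∈ NC ↔ g * tG = tG * g := Subgroup.mem_centralizer_singleton_iff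

theorem LP_smul {g : Co0} (hg : g ∈ NC) {y : L} (hy : LP y) : LP (g • y) := by
  rw [LP_iff] at hy ⊢
  rw [← mul_smul', ← mem_NC.1 hg, mul_smul', hy]

/-- The action on words. -/
noncomputable def Ph8 (g : Co0) (x : V8) : V8 := th (g • rv8 x)

theorem Ph8_th {g : Co0} (hg : g ∈ NC) {y : L} (hy : LP y) : Ph8 g (th y) = th (g • y) := by
  obtain ⟨w, hw, e⟩ := exists_rep_half hy
  conv_rhs => rw [e]
  rw [Lat.smul_add, Lat.smul_add, th_add (LP_smul hg (LP_rv8 _)) (LP_add (LP_smul hg hw) (LP_smul hg hw)),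
    th_two (LP_smul hg hw), add_zero]
  rfl

theorem Ph8_add {g : Co0} (hg : g ∈ NC) (x z : V8) : Ph8 g (x + z) = Ph8 g x + Ph8 g z := by
  have h := Ph8_th hg (LP_add (LP_rv8 x) (LP_rv8 z))
  rw [th_add (LP_rv8 x) (LP_rv8 z), th_rv8, th_rv8, Lat.smul_add,
    th_add (LP_smul hg (LP_rv8 x)) (LP_smul hg (LP_rv8 z))] at h
  exact h

theorem Ph8_one (x : V8) : Ph8 1 x = x := by
  show th ((1 : Co0) • rv8 x) = x
  rw [one_smul, th_rv8]

theorem Ph8_mul {g h : Co0} (hg : g ∈ NC) (hh : h ∈ NC) (x : V8) : Ph8 (g * h) x = Ph8 g (Ph8 h x) := by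
  show th ((g * h) • rv8 x) = Ph8 g (th (h • rv8 x))
  rw [Ph8_th hg (LP_smul hh (LP_rv8 x)), mul_smul']

theorem Ph8_q {g : Co0} (hg : g ∈ NC) (x : V8) :
    quadFormPlus 4 (ZMod 2) (Ph8 g x) = quadFormPlus 4 (ZMod 2) x := by
  have h := q_eq_of_norm (LP_smul hg (LP_rv8 x)) (LP_rv8 x) (smul_sqNorm g (rv8 x))
  rwa [th_rv8] at h

/-! ### Matrices -/

/-- The matrix of a map. -/
def matOf (φ : V8 → V8) : Matrix (Fin 4 ⊕ Fin 4) (Fin 4 ⊕ Fin 4) (ZMod 2) :=
  Matrix.of fun i j => φ (Pi.single j 1) i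

theorem mulVec_matOf {φ : V8 → V8} (hadd : ∀ x y, φ (x + y) = φ x + φ y) (x : V8) :
    matOf φ *ᵥ x = φ x := by
  let f : V8 →+ V8 := AddMonoidHom.mk' φ hadd
  have hs : ∀ (c : ZMod 2) (v : V8), φ (c • v) = c • φ v := by
    intro c v
    fin_cases c
    · show φ ((0 : ZMod 2) • v) = (0 : ZMod 2) • φ v
      rw [zero_smul, zero_smul]
      exact f.map_zero
    · show φ ((1 : ZMod 2) • v) = (1 : ZMod 2) • φ v
      rw [one_smul, one_smul]
  have hx : x = ∑ j, x j • (Pi.single j 1 : V8) := by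
    funext i
    simp [Finset.sum_apply, Pi.single_apply]
  have h1 : φ x = ∑ j, x j • φ (Pi.single j 1 : V8) := by
    conv_lhs => rw [hx]
    have := map_sum f (fun j => x j • (Pi.single j 1 : V8)) Finset.univ
    simp only [f, AddMonoidHom.mk'_apply] at this
    rw [this]
    exact Finset.sum_congr rfl fun j _ => hs _ _
  rw [h1]
  funext i
  simp only [Matrix.mulVec, dotProduct, matOf, Matrix.of_apply, Finset.sum_apply, Pi.smul_apply,
    smul_eq_mul]
  exact Finset.sum_congr rfl fun j _ => mul_comm _ _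

theorem matOf_mul {φ χ : V8 → V8} (hφ : ∀ x y, φ (x + y) = φ x + φ y) (hχ : ∀ x y, χ (x + y) = χ x + χ y) :
    matOf φ * matOf χ = matOf (fun x => φ (χ x)) := by
  ext i j
  have h3 : (matOf φ * matOf χ) i j = (matOf φ *ᵥ (matOf χ *ᵥ Pi.single j 1)) i := by
    rw [Matrix.mulVec_mulVec]
    simp
  rw [h3, mulVec_matOf hχ, mulVec_matOf hφ]
  rfl

theorem matOf_id {φ : V8 → V8} (h : ∀ x, φ x = x) : matOf φ = 1 := by
  ext i j
  simp only [matOf, Matrix.of_apply, h, Pi.single_apply, Matrix.one_apply]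

/-- The matrix as an invertible matrix. -/
noncomputable def psiGL : ↥NC →* Matrix.GeneralLinearGroup (Fin 4 ⊕ Fin 4) (ZMod 2) where
  toFun g :=
    { val := matOf (Ph8 g.1)
      inv := matOf (Ph8 (g⁻¹).1)
      val_inv := by
        rw [matOf_mul (Ph8_add g.2) (Ph8_add (g⁻¹).2)]
        apply matOf_id
        intro x
        rw [← Ph8_mul g.2 (g⁻¹).2]
        show Ph8 (g * g⁻¹).1 x = x
        rw [mul_inv_cancel]
        exact Ph8_one x
      inv_val := by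
        rw [matOf_mul (Ph8_add (g⁻¹).2) (Ph8_add g.2)]
        apply matOf_id
        intro x
        rw [← Ph8_mul (g⁻¹).2 g.2]
        show Ph8 (g⁻¹ * g).1 x = x
        rw [inv_mul_cancel]
        exact Ph8_one x }
  map_one' := by
    apply Units.ext
    exact matOf_id (fun x => Ph8_one x)
  map_mul' g h := by
    apply Units.ext
    show matOf (Ph8 (g * h).1) = matOf (Ph8 g.1) * matOf (Ph8 h.1)
    rw [matOf_mul (Ph8_add g.2) (Ph8_add h.2)]
    congr 1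
    funext x
    exact Ph8_mul g.2 h.2 x

theorem psiGL_mulVec (g : ↥NC) (x : V8) :
    ((psiGL g : Matrix.GeneralLinearGroup (Fin 4 ⊕ Fin 4) (ZMod 2)) : Matrix (Fin 4 ⊕ Fin 4) (Fin 4 ⊕ Fin 4) (ZMod 2)) *ᵥ x
      = Ph8 g.1 x :=
  mulVec_matOf (Ph8_add g.2) x

theorem psiGL_mem (g : ↥NC) : psiGL g ∈ isometryGroup (ZMod 2) (quadFormPlus 4 (ZMod 2)) := by
  intro u v
  show quadFormPlus 4 (ZMod 2) (((psiGL g : Matrix.GeneralLinearGroup (Fin 4 ⊕ Fin 4) (ZMod 2)) : Matrix (Fin 4 ⊕ Fin 4) (Fin 4 ⊕ Fin 4) (ZMod 2)) *ᵥ u) = quadFormPlus 4 (ZMod 2) u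
  rw [psiGL_mulVec, Ph8_q g.2]

/-- The map to the isometry group. -/
noncomputable def psi : ↥NC →* isometryGroup (ZMod 2) (quadFormPlus 4 (ZMod 2)) :=
  psiGL.codRestrict _ psiGL_mem

theorem psi_mulVec (g : ↥NC) (x : V8) :
    (((psi g).1 : Matrix.GeneralLinearGroup (Fin 4 ⊕ Fin 4) (ZMod 2)) : Matrix (Fin 4 ⊕ Fin 4) (Fin 4 ⊕ Fin 4) (ZMod 2)) *ᵥ x
      = Ph8 g.1 x :=
  psiGL_mulVec g x

theorem psi_eq_one_iff (g : ↥NC) : psi g = 1 ↔ ∀ x, Ph8 g.1 x = x := by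
  constructor
  · intro h x
    rw [← psi_mulVec, h]
    simp
  · intro h
    apply Subtype.ext
    apply Units.ext
    exact matOf_id h

end Cfsg.Agent.Lib.Leech.C1iPsi
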