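import Cfsg.Agent.Lib.Leech.C1iOrb
import Cfsg.Agent.Lib.Leech.C1iOmega

/-!
# The image of the centraliser of the involution in the orthogonal group
-/

set_option autoImplicit false

namespace Cfsg.Agent.Lib.Leech.C1iRange

open Cfsg Cfsg.Spor Matrix Cfsg.Agent.Lib.Golay.Core
  Cfsg.Agent.Lib.Leech.Lat Cfsg.Agent.Lib.Leech.C2iSp Cfsg.Agent.Lib.Leech.C2iRoot Cfsg.Agent.Lib.Leech.C2iKer
  Cfsg.Agent.Lib.Leech.C2iGen Cfsg.Agent.Lib.Leech.C1iForm Cfsg.Agent.Lib.Leech.C1iPsi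
  Cfsg.Agent.Lib.Leech.C1iKer Cfsg.Agent.Lib.Leech.C1iOrb Cfsg.Agent.Lib.Leech.C1iOmega

/-- The matrix of an isometry. -/
abbrev mat (A : O8) : Matrix (Fin 4 ⊕ Fin 4) (Fin 4 ⊕ Fin 4) (ZMod 2) :=
  ((A.1 : Matrix.GeneralLinearGroup (Fin 4 ⊕ Fin 4) (ZMod 2)) : Matrix (Fin 4 ⊕ Fin 4) (Fin 4 ⊕ Fin 4) (ZMod 2))

/-- The action of the isometry group on the space. -/
noncomputable instance actO8 : MulAction O8 V8 where
  smul A v := mat A *ᵥ v
  one_smul v := by
    exact Matrix.one_mulVec v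
  mul_smul A B v := by
    show mat (A * B) *ᵥ v = mat A *ᵥ (mat B *ᵥ v)
    rw [Matrix.mulVec_mulVec]
    rfl

theorem O8_smul (A : O8) (v : V8) : A • v = mat A *ᵥ v := rfl

theorem O8_q (A : O8) (v : V8) : quadFormPlus 4 (ZMod 2) (A • v) = quadFormPlus 4 (ZMod 2) v :=
  A.2 v 0

theorem psi_smul (g : ↥NC) (v : V8) : psi g • v = Ph8 g.1 v := psi_mulVec g v

theorem C0_le_NC : C0 ≤ NC := fun _ h => mem_NC.2 h.1

/-- The stabiliser of the given vector, mapped to the orthogonal group. -/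
noncomputable def rho : ↥C0 →* O8 := psi.comp (Subgroup.inclusion C0_le_NC)

theorem rho_ker : rho.ker = psi0.ker := by
  ext g
  rw [MonoidHom.mem_ker, MonoidHom.mem_ker, psi0_eq_one_iff]
  show psi ⟨g.1, C0_le_NC g.2⟩ = 1 ↔ _
  rw [psi_ker_C0 g.2]
  constructor
  · intro h
    exact (ker_iff.2 h).2
  · intro h
    exact ker_iff.1 ⟨g.2, h⟩

theorem card_rho : Nat.card rho.range = 1451520 := by
  rw [← Nat.card_congr (QuotientGroup.quotientKerEquivRange rho).toEquiv,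
    Nat.card_congr (QuotientGroup.quotientMulEquivOfEq rho_ker).toEquiv,
    Nat.card_congr (QuotientGroup.quotientKerEquivOfSurjective psi0 psi0_surj).toEquiv, card_SpG]

theorem psi_negG : psi ⟨negG, negG_mem_NC⟩ = 1 := by
  rw [psi_ker_iff]
  right
  show Qel (negG * negG)
  rw [negG_sq]
  exact ker_iff.1 ⟨C0.one_mem, fun z => Ph_one z⟩

/-- The word of the given vector. -/
noncomputable def u0 : V8 := th leechU

theorem orbit_u0 : MulAction.orbit (↥psi.range) u0 = {v | quadFormPlus 4 (ZMod 2) v = 1} := by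
  ext v
  constructor
  · rintro ⟨⟨A, g, rfl⟩, rfl⟩
    show quadFormPlus 4 (ZMod 2) (psi g • u0) = 1
    rw [O8_q]
    exact q_th_U
  · intro hv
    obtain ⟨g, hg⟩ := exists_orbit v hv
    refine ⟨⟨psi g, g, rfl⟩, ?_⟩
    show psi g • u0 = v
    rw [psi_smul]
    exact hg

theorem ncard_orbit : (MulAction.orbit (↥psi.range) u0).ncard = 120 := by
  rw [orbit_u0, ← card_nonsing, ← Set.ncard_coe_finset]
  congr 1
  ext v
  simp

theorem stab_map : (MulAction.stabilizer (↥psi.range) u0).map psi.range.subtype = rho.range := by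
  ext A
  constructor
  · rintro ⟨⟨B, g, rfl⟩, hB, rfl⟩
    have h1 : psi g • u0 = u0 := hB
    rw [psi_smul] at h1
    rcases stab_U g.2 h1 with h | h
    · have hC : g.1 ∈ C0 := ⟨mem_NC.1 g.2, h⟩
      exact ⟨⟨g.1, hC⟩, rfl⟩
    · have hC : negG * g.1 ∈ C0 := by
        refine ⟨mem_NC.1 (neg_mul_mem_NC g.2), ?_⟩
        rw [negG_mul_smul, h, neg_neg]
      refine ⟨⟨negG * g.1, hC⟩, ?_⟩
      show psi (⟨negG, negG_mem_NC⟩ * g) = psi g
      rw [map_mul, psi_negG, one_mul]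
  · rintro ⟨g, rfl⟩
    refine ⟨⟨psi ⟨g.1, C0_le_NC g.2⟩, _, rfl⟩, ?_, rfl⟩
    show psi ⟨g.1, C0_le_NC g.2⟩ • u0 = u0
    rw [psi_smul]
    show Ph8 g.1 (th leechU) = th leechU
    rw [Ph8_th (C0_le_NC g.2) LP_U, g.2.2]

theorem card_range : Nat.card psi.range = 174182400 := by
  have h1 := Subgroup.card_mul_index (MulAction.stabilizer (↥psi.range) u0)
  rw [MulAction.index_stabilizer, ncard_orbit] at h1
  have h2 : Nat.card (MulAction.stabilizer (↥psi.range) u0) = 1451520 := by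
    rw [← card_rho, ← stab_map]
    exact Nat.card_congr (Subgroup.equivMapOfInjective _ _ (Subgroup.subtype_injective _)).toEquiv
  rw [h2] at h1
  omega

/-- **The image**. -/
theorem psi_range : psi.range = Om8 := eq_Om8_of_card _ card_range

end Cfsg.Agent.Lib.Leech.C1iRange
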