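import Cfsg.Agent.Lib.Leech.C2iKer
import Cfsg.Agent.Lib.PGroups.Special

/-!
# The kernel is extraspecial
-/

set_option autoImplicit false
set_option linter.unusedSectionVars false

namespace Cfsg.Agent.Lib.Leech.C2iExtra

open Cfsg Cfsg.Spor Cfsg.Agent.Lib.Golay.Core Cfsg.Agent.Lib.Golay.Perm Cfsg.Agent.Lib.Golay.M24
  Cfsg.Agent.Lib.Golay.Stab Cfsg.Agent.Lib.Golay.Chain Cfsg.Agent.Lib.Leech.Basic Cfsg.Agent.Lib.Leech.Lat
  Cfsg.Agent.Lib.Leech.Mon Cfsg.Agent.Lib.Leech.Packed Cfsg.Agent.Lib.Leech.Vec Cfsg.Agent.Lib.Leech.Cert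
  Cfsg.Agent.Lib.Leech.Order Cfsg.Agent.Lib.Leech.Word Cfsg.Agent.Lib.Leech.Co1
  Cfsg.Agent.Lib.Leech.Reach Cfsg.Agent.Lib.Leech.NFBase Cfsg.Agent.Lib.Leech.OutCo1Base
  Cfsg.Agent.Lib.Leech.C2iData Cfsg.Agent.Lib.Leech.C2iSp Cfsg.Agent.Lib.Leech.C2iTab
  Cfsg.Agent.Lib.Leech.C2iRoot Cfsg.Agent.Lib.Leech.C2iKer Cfsg.Agent.Lib.PGroups.Special
open scoped Pointwise

theorem T6_comm : ∀ P ∈ T6, ∀ Q ∈ T6, ∀ i < 24, img P (img Q i) = img Q (img P i) := by decide +kernel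
theorem delta : ∀ P ∈ T6, ∀ a ∈ Dl, a ^^^ mapMask P a = 0 ∨ a ^^^ mapMask P a = Oc := by decide +kernel
theorem Pid_T6 : Pid ∈ T6 := by decide +kernel
theorem Oc_Dl : Oc ∈ Dl := by decide +kernel
theorem zero_Dl : 0 ∈ Dl := by decide +kernel
theorem map_zero : ∀ P ∈ T6, mapMask P 0 = 0 := by decide +kernel
theorem map_Pid : ∀ c ∈ Dl, mapMask Pid c = c := by decide +kernel
theorem faith_T : ∀ P ∈ T6, (∀ d ∈ Dl, mapMask P d = d) → P = Pid := by decide +kernel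
theorem trans_T : ∀ c ∈ Dl, (∀ P ∈ T6, mapMask P c = c) → c = 0 ∨ c = Oc := by decide +kernel
theorem noncomm_T : ∃ P ∈ T6, ∃ c ∈ Dl, mapMask P c ≠ c := by decide +kernel
theorem T6_nodup : T6.Nodup := by decide +kernel
theorem Dl_nodup : Dl.Nodup := by decide +kernel
theorem T6_len : T6.length = 16 := by decide +kernel
theorem Dl_len : Dl.length = 32 := by decide +kernel
theorem map_lt : ∀ P ∈ T6, ∀ c ∈ Dl, mapMask P c < 2 ^ 24 := by decide +kernel
theorem T6_lt : ∀ P ∈ T6, P < 2 ^ 120 := by decide +kernel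

theorem monG_congr {σ σ' : Equiv.Perm GolayPt} {hσ : σ ∈ M24} {hσ' : σ' ∈ M24} {c c' : Finset GolayPt}
    {hc : c ∈ Sup} {hc' : c' ∈ Sup} (h1 : σ = σ') (h2 : c = c') : monG σ hσ c hc = monG σ' hσ' c' hc' := by
  subst h1 h2
  rfl

theorem g_comm {P Q : ℕ} (hP : P ∈ T6) (hQ : Q ∈ T6) : g P * g Q = g Q * g P := by
  have hvP := T6_valid hP
  have hvQ := T6_valid hQ
  ext p
  rw [Equiv.Perm.mul_apply, Equiv.Perm.mul_apply, g_apply hvQ, g_apply hvP, g_apply hvP, g_apply hvQ,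
    idx_pt (valid_img_lt hvQ (idx_lt p)), idx_pt (valid_img_lt hvP (idx_lt p)),
    T6_comm P hP Q hQ _ (idx_lt p)]

theorem g_sq {P : ℕ} (hP : P ∈ T6) : g P * g P = 1 := by
  have hv := T6_valid hP
  ext p
  rw [Equiv.Perm.mul_apply, g_apply hv, g_apply hv, idx_pt (valid_img_lt hv (idx_lt p)),
    (T6_props P hP).2 _ (idx_lt p), pt_idx]
  rfl

theorem setOf_sd {P a b : ℕ} (hP : P ∈ T6) :
    symmDiff (setOf a) (g P • setOf b) = setOf (a ^^^ mapMask P b) := by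
  rw [smul_setOf (T6_valid hP), setOf_xor]

theorem xor_case {a b p q O : ℕ} (h1 : a ^^^ p = 0 ∨ a ^^^ p = O) (h2 : b ^^^ q = 0 ∨ b ^^^ q = O) :
    a ^^^ q = b ^^^ p ∨ a ^^^ q = O ^^^ (b ^^^ p) := by
  have hp : p = a ^^^ (a ^^^ p) := by
    rw [← Nat.xor_assoc, Nat.xor_self, Nat.zero_xor]
  have hq : q = b ^^^ (b ^^^ q) := by
    rw [← Nat.xor_assoc, Nat.xor_self, Nat.zero_xor]
  rcases h1 with h1 | h1 <;> rcases h2 with h2 | h2 <;> rw [h1] at hp <;> rw [h2] at hq <;> subst hp <;> subst hq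
  all_goals first
    | (left
       apply Nat.eq_of_testBit_eq
       intro i
       simp only [Nat.testBit_xor, Nat.zero_testBit]
       cases a.testBit i <;> cases b.testBit i <;> cases O.testBit i <;> rfl)
    | (right
       apply Nat.eq_of_testBit_eq
       intro i
       simp only [Nat.testBit_xor, Nat.zero_testBit]
       cases a.testBit i <;> cases b.testBit i <;> cases O.testBit i <;> rfl)

theorem xor_cancel {a x y : ℕ} (h : a ^^^ x = a ^^^ y) : x = y := by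
  have h3 := congrArg (fun t => a ^^^ t) h
  simpa [← Nat.xor_assoc, Nat.xor_self] using h3

theorem tG_eq : tG = monG 1 M24.one_mem (setOf Oc) (setOf_mem_of_isCode cOc.1 cOc.2) := rfl

theorem comm_or {P Q a b : ℕ} (hP : P ∈ T6) (hQ : Q ∈ T6) (ha : a ∈ Dl) (hb : b ∈ Dl) :
    opG (P, a) * opG (Q, b) = opG (Q, b) * opG (P, a) ∨
      opG (P, a) * opG (Q, b) = tG * (opG (Q, b) * opG (P, a)) := by
  rw [opG_eq hP ha, opG_eq hQ hb, monG_mul, monG_mul, tG_eq, monG_mul]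
  rcases xor_case (delta Q hQ a ha) (delta P hP b hb) with h | h
  · left
    exact monG_congr (g_comm hP hQ) (by rw [setOf_sd hP, setOf_sd hQ, h])
  · right
    refine monG_congr (by rw [one_mul, g_comm hP hQ]) ?_
    rw [one_smul, setOf_sd hP, setOf_sd hQ, ← setOf_xor, h]

theorem sq_or {P a : ℕ} (hP : P ∈ T6) (ha : a ∈ Dl) :
    opG (P, a) * opG (P, a) = 1 ∨ opG (P, a) * opG (P, a) = tG := by
  rw [opG_eq hP ha, monG_mul]
  rcases delta P hP a ha with h | h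
  · left
    rw [← eps_empty]
    exact monG_congr (g_sq hP) (by rw [setOf_sd hP, h, setOf_zero])
  · right
    rw [tG_eq]
    exact monG_congr (g_sq hP) (by rw [setOf_sd hP, h])

theorem comm_eq {P Q a b : ℕ} (hP : P ∈ T6) (hQ : Q ∈ T6) (ha : a ∈ Dl) (hb : b ∈ Dl)
    (h : opG (P, a) * opG (Q, b) = opG (Q, b) * opG (P, a)) :
    a ^^^ mapMask P b = b ^^^ mapMask Q a := by
  rw [opG_eq hP ha, opG_eq hQ hb, monG_mul, monG_mul] at h
  have h1 := (monG_inj h).2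
  rw [setOf_sd hP, setOf_sd hQ] at h1
  exact (setOf_injOn (Nat.xor_lt_two_pow (Dl_ok a ha).1 (map_lt P hP b hb))
    (Nat.xor_lt_two_pow (Dl_ok b hb).1 (map_lt Q hQ a ha))).1 h1

theorem opG_inj {P Q a b : ℕ} (hP : P ∈ T6) (hQ : Q ∈ T6) (ha : a ∈ Dl) (hb : b ∈ Dl)
    (h : opG (P, a) = opG (Q, b)) : P = Q ∧ a = b := by
  rw [opG_eq hP ha, opG_eq hQ hb] at h
  obtain ⟨h1, h2⟩ := monG_inj h
  refine ⟨?_, (setOf_injOn (Dl_ok a ha).1 (Dl_ok b hb).1).1 h2⟩
  apply eq_of_img (T6_lt P hP) (T6_lt Q hQ)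
  intro i hi
  have h3 : g P (pt i) = g Q (pt i) := by rw [h1]
  rw [g_pt (T6_valid hP) hi, g_pt (T6_valid hQ) hi] at h3
  exact pt_injOn (valid_img_lt (T6_valid hP) hi) (valid_img_lt (T6_valid hQ) hi) h3

theorem tG_eq_opG : tG = opG (Pid, Oc) := (opG_eps cOc.1 cOc.2).symm

theorem one_eq_opG : (1 : Co0) = opG (Pid, 0) := by
  rw [opG_eq Pid_T6 zero_Dl, ← eps_empty]
  exact monG_congr g_Pid.symm setOf_zero.symm

theorem tG_ne_one : tG ≠ 1 := by
  intro h
  rw [tG_eq_opG, one_eq_opG] at h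
  have := (opG_inj Pid_T6 Pid_T6 Oc_Dl zero_Dl h).2
  exact absurd this (by decide +kernel)

theorem card_Qel : Nat.card {g : Co0 // Qel g} = 512 := by
  have h1 : {g : Co0 | Qel g} = (fun p : ℕ × ℕ => opG p) '' ((T6.toFinset ×ˢ Dl.toFinset : Finset (ℕ × ℕ)) : Set (ℕ × ℕ)) := by
    ext g
    constructor
    · rintro ⟨P, hP, c, hc, rfl⟩
      exact ⟨(P, c), by simp [hP, hc], rfl⟩
    · rintro ⟨⟨P, c⟩, h, rfl⟩
      simp only [Finset.coe_product, Set.mem_prod, Finset.mem_coe, List.mem_toFinset] at h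
      exact ⟨P, h.1, c, h.2, rfl⟩
  have h2 : Set.InjOn (fun p : ℕ × ℕ => opG p) ((T6.toFinset ×ˢ Dl.toFinset : Finset (ℕ × ℕ)) : Set (ℕ × ℕ)) := by
    rintro ⟨P, a⟩ h3 ⟨Q, b⟩ h4 h5
    simp only [Finset.coe_product, Set.mem_prod, Finset.mem_coe, List.mem_toFinset] at h3 h4
    obtain ⟨h6, h7⟩ := opG_inj h3.1 h4.1 h3.2 h4.2 h5
    rw [h6, h7]
  have h3 : Nat.card {g : Co0 // Qel g} = ({g : Co0 | Qel g}).ncard := (Nat.card_coe_set_eq _)
  rw [h3, h1, h2.ncard_image, Set.ncard_coe_finset, Finset.card_product,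
    List.toFinset_card_of_nodup T6_nodup, List.toFinset_card_of_nodup Dl_nodup, T6_len, Dl_len]

section Abs

variable {K : Type*} [Group K] (φ : K →* Co0) (hφ : Function.Injective φ) (hR : ∀ g, (∃ k, φ k = g) ↔ Qel g)

include hφ hR

theorem card_K : Nat.card K = 512 := by
  rw [← card_Qel]
  apply Nat.card_congr
  refine Equiv.ofBijective (fun k => ⟨φ k, (hR _).1 ⟨k, rfl⟩⟩) ⟨?_, ?_⟩
  · intro a b h
    exact hφ (congrArg Subtype.val h)
  · rintro ⟨g, hg⟩
    obtain ⟨k, rfl⟩ := (hR g).2 hg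
    exact ⟨k, rfl⟩

theorem exists_z : ∃ z : K, φ z = tG := by
  rw [hR]
  exact ⟨Pid, Pid_T6, Oc, Oc_Dl, tG_eq_opG⟩

theorem exists_pair (k : K) : ∃ P ∈ T6, ∃ a ∈ Dl, φ k = opG (P, a) := (hR _).1 ⟨k, rfl⟩

theorem z_central {z : K} (hz : φ z = tG) (x : K) : z * x = x * z := by
  apply hφ
  obtain ⟨P, hP, a, ha, h⟩ := exists_pair φ hφ hR x
  rw [map_mul, map_mul, hz, h]
  exact (opG_comm_tG hP ha).symm

theorem central_eq {z y : K} (hz : φ z = tG) (hy : ∀ x, y * x = x * y) : y = 1 ∨ y = z := by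
  obtain ⟨P, hP, a, ha, h⟩ := exists_pair φ hφ hR y
  have hcomm : ∀ Q ∈ T6, ∀ b ∈ Dl, a ^^^ mapMask P b = b ^^^ mapMask Q a := by
    intro Q hQ b hb
    obtain ⟨k, hk⟩ := (hR (opG (Q, b))).2 ⟨Q, hQ, b, hb, rfl⟩
    have h1 := congrArg φ (hy k)
    rw [map_mul, map_mul, h, hk] at h1
    exact comm_eq hP hQ ha hb h1
  have h1 : P = Pid := by
    apply faith_T P hP
    intro d hd
    have h2 := hcomm Pid Pid_T6 d hd
    rw [map_Pid a ha, Nat.xor_comm d a] at h2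
    exact xor_cancel h2
  have h2 : a = 0 ∨ a = Oc := by
    apply trans_T a ha
    intro Q hQ
    have h3 := hcomm Q hQ 0 zero_Dl
    rw [map_zero P hP, Nat.xor_zero, Nat.zero_xor] at h3
    exact h3.symm
  subst h1
  rcases h2 with rfl | rfl
  · left
    apply hφ
    rw [h, map_one, one_eq_opG]
  · right
    apply hφ
    rw [h, hz, tG_eq_opG]

theorem card_center_K : Nat.card (Subgroup.center K) = 2 := by
  obtain ⟨z, hz⟩ := exists_z φ hφ hR
  have hz1 : z ≠ 1 := by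
    rintro rfl
    rw [map_one] at hz
    exact tG_ne_one hz.symm
  have hzc : z ∈ Subgroup.center K := Subgroup.mem_center_iff.2 fun x => (z_central φ hφ hR hz x).symm
  rw [Nat.card_eq_two_iff]
  refine ⟨1, ⟨z, hzc⟩, ?_, ?_⟩
  · intro h
    exact hz1 (congrArg Subtype.val h).symm
  · ext ⟨y, hy⟩
    simp only [Set.mem_insert_iff, Set.mem_singleton_iff, Set.mem_univ, iff_true]
    have h1 : ∀ x, y * x = x * y := fun x => (Subgroup.mem_center_iff.1 hy x).symm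
    rcases central_eq φ hφ hR hz h1 with h | h
    · left
      exact Subtype.ext h
    · right
      exact Subtype.ext h

theorem mem_center_of_eq {z y : K} (hz : φ z = tG) (h : y = 1 ∨ y = z) : y ∈ Subgroup.center K := by
  rcases h with rfl | rfl
  · exact one_mem _
  · exact Subgroup.mem_center_iff.2 fun x => (z_central φ hφ hR hz x).symm

theorem extraLike_K : ExtraLike 2 K := by
  obtain ⟨z, hz⟩ := exists_z φ hφ hR
  have hc := card_K φ hφ hR
  refine ⟨IsPGroup.of_card (n := 9) (by rw [hc]; norm_num), card_center_K φ hφ hR, ?_, ?_⟩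
  · intro x y
    apply mem_center_of_eq φ hφ hR hz
    obtain ⟨P, hP, a, ha, h⟩ := exists_pair φ hφ hR x
    obtain ⟨Q, hQ, b, hb, h'⟩ := exists_pair φ hφ hR y
    rcases comm_or hP hQ ha hb with h1 | h1
    · left
      have h2 : x * y = y * x := by
        apply hφ
        rw [map_mul, map_mul, h, h', h1]
      rw [commutatorElement_def, h2]
      group
    · right
      have h2 : x * y = z * (y * x) := by
        apply hφ
        rw [map_mul, map_mul, map_mul, h, h', hz, h1]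
      rw [commutatorElement_def, h2]
      group
  · intro x
    apply mem_center_of_eq φ hφ hR hz
    obtain ⟨P, hP, a, ha, h⟩ := exists_pair φ hφ hR x
    rcases sq_or hP ha with h1 | h1
    · left
      apply hφ
      rw [pow_two, map_mul, h, h1, map_one]
    · right
      apply hφ
      rw [pow_two, map_mul, h, h1, hz]

theorem not_comm_K : ¬ IsMulCommutative K := by
  intro hc
  obtain ⟨P, hP, c, hc', hne⟩ := noncomm_T
  obtain ⟨x, hx⟩ := (hR (opG (P, 0))).2 ⟨P, hP, 0, zero_Dl, rfl⟩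
  obtain ⟨y, hy⟩ := (hR (opG (Pid, c))).2 ⟨Pid, Pid_T6, c, hc', rfl⟩
  have h1 : x * y = y * x := hc.is_comm.comm x y
  have h2 := congrArg φ h1
  rw [map_mul, map_mul, hx, hy] at h2
  have h3 := comm_eq hP Pid_T6 zero_Dl hc' h2
  rw [Nat.zero_xor, map_Pid 0 zero_Dl, Nat.xor_zero] at h3
  exact hne h3

theorem isExtraspecial_K : IsExtraspecial 2 K := by
  have hc := card_K φ hφ hR
  have : Finite K := Nat.finite_of_card_ne_zero (by rw [hc]; norm_num)
  exact (extraLike_K φ hφ hR).isExtraspecial (not_comm_K φ hφ hR)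

end Abs

end Cfsg.Agent.Lib.Leech.C2iExtra
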