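import Cfsg.Agent.Lib.Leech.C2iGen

/-!
# The centraliser of the involution in the stabiliser of a minimal vector
-/

set_option autoImplicit false

namespace Cfsg.Agent.Lib.Leech.C2iFinal

open Cfsg Cfsg.Spor Cfsg.Agent.Lib.Golay.Core Cfsg.Agent.Lib.Leech.Lat Cfsg.Agent.Lib.Leech.Mon
  Cfsg.Agent.Lib.Leech.Co1 Cfsg.Agent.Lib.Leech.Order
  Cfsg.Agent.Lib.Leech.C2iData Cfsg.Agent.Lib.Leech.C2iSp Cfsg.Agent.Lib.Leech.C2iTab
  Cfsg.Agent.Lib.Leech.C2iRoot Cfsg.Agent.Lib.Leech.C2iKer Cfsg.Agent.Lib.Leech.C2iExtra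
  Cfsg.Agent.Lib.Leech.C2iGen

theorem tG_U : tG • leechU = leechU := tG_fix U_supp

/-- The involution. -/
noncomputable def tC : ↥Spor.Co2 := ⟨tG.1, ⟨tG.2, tG_U⟩⟩

theorem orderOf_tC : orderOf tC = 2 := by
  have h1 : tG * tG = 1 := eps_sq _ _
  apply orderOf_eq_prime
  · apply Subtype.ext
    rw [pow_two]
    exact congrArg (fun y : Co0 => y.1) h1
  · intro h
    apply tG_ne_one
    apply Subtype.ext
    exact congrArg (fun y : ↥Spor.Co2 => y.1) h

/-- The centraliser. -/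
abbrev CC : Subgroup ↥Spor.Co2 := Subgroup.centralizer ({tC} : Set ↥Spor.Co2)

/-- The centraliser as a subgroup of the automorphism group. -/
noncomputable def eC : ↥CC ≃* C0 where
  toFun g := ⟨⟨g.1.1, g.1.2.1⟩, by
    refine ⟨?_, g.1.2.2⟩
    have h := Subgroup.mem_centralizer_singleton_iff.1 g.2
    apply Subtype.ext
    exact congrArg (fun y : ↥Spor.Co2 => y.1) h⟩
  invFun x := ⟨⟨x.1.1, ⟨x.1.2, x.2.2⟩⟩, by
    rw [Subgroup.mem_centralizer_singleton_iff]
    apply Subtype.ext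
    exact congrArg (fun y : Co0 => y.1) x.2.1⟩
  left_inv _ := rfl
  right_inv _ := rfl
  map_mul' _ _ := rfl

instance : Finite Co0 := Nat.finite_of_card_ne_zero (by rw [card_Co0]; norm_num)

instance : Finite ↥CC := Finite.of_equiv _ eC.symm.toEquiv

/-- The map to the symplectic group. -/
noncomputable def psiC : ↥CC →* SpG := psi0.comp eC.toMonoidHom

theorem psiC_surj : Function.Surjective psiC := psi0_surj.comp eC.surjective

/-- The map from the kernel to the automorphism group. -/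
noncomputable def phiK : ↥psiC.ker →* Co0 :=
  C0.subtype.comp (eC.toMonoidHom.comp psiC.ker.subtype)

theorem phiK_inj : Function.Injective phiK := by
  intro a b h
  exact Subtype.ext (eC.injective (Subtype.ext h))

theorem phiK_range (g : Co0) : (∃ k, phiK k = g) ↔ Qel g := by
  constructor
  · rintro ⟨k, rfl⟩
    have h1 : psi0 (eC k.1) = 1 := k.2
    exact ker_iff.1 ⟨(eC k.1).2, (psi0_eq_one_iff _).1 h1⟩
  · intro h
    obtain ⟨h1, h2⟩ := ker_iff.2 h
    have h3 : psi0 ⟨g, h1⟩ = 1 := (psi0_eq_one_iff _).2 h2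
    have h4 : eC.symm ⟨g, h1⟩ ∈ psiC.ker := by
      show psi0 (eC (eC.symm ⟨g, h1⟩)) = 1
      rw [MulEquiv.apply_symm_apply]
      exact h3
    refine ⟨⟨_, h4⟩, ?_⟩
    show ((eC (eC.symm ⟨g, h1⟩) : C0) : Co0) = g
    rw [MulEquiv.apply_symm_apply]

theorem main : ∃ t : ↥Spor.Co2, orderOf t = 2 ∧
    IsExtraspecial 2 (pCore 2 ↥(Subgroup.centralizer ({t} : Set ↥Spor.Co2))) ∧
    Nat.card (pCore 2 ↥(Subgroup.centralizer ({t} : Set ↥Spor.Co2))) = 2 ^ 9 ∧
    Nonempty (↥(Subgroup.centralizer ({t} : Set ↥Spor.Co2)) ⧸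
      pCore 2 ↥(Subgroup.centralizer ({t} : Set ↥Spor.Co2)) ≃* Matrix.symplecticGroup (Fin 3) (ZMod 2)) := by
  have hE := isExtraspecial_K phiK phiK_inj phiK_range
  have hc := card_K phiK phiK_inj phiK_range
  have hcore : pCore 2 ↥CC = psiC.ker := pCore_eq_ker psiC psiC_surj hE.1.1
  refine ⟨tC, orderOf_tC, ?_, ?_, ?_⟩
  · show IsExtraspecial 2 (pCore 2 ↥CC)
    rw [hcore]
    exact hE
  · show Nat.card (pCore 2 ↥CC) = 2 ^ 9
    rw [hcore, hc]
    norm_num
  · exact ⟨(QuotientGroup.quotientMulEquivOfEq hcore).trans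
      (QuotientGroup.quotientKerEquivOfSurjective psiC psiC_surj)⟩

end Cfsg.Agent.Lib.Leech.C2iFinal
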