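import Cfsg.Agent.Lib.Leech.C2iExtra

/-!
# The action on the 63 pairs is onto
-/

set_option autoImplicit false

namespace Cfsg.Agent.Lib.Leech.C2iGen

open Cfsg Cfsg.Spor Matrix Cfsg.Agent.Lib.Golay.Core Cfsg.Agent.Lib.Golay.Perm Cfsg.Agent.Lib.Golay.M24
  Cfsg.Agent.Lib.Leech.Basic Cfsg.Agent.Lib.Leech.Lat
  Cfsg.Agent.Lib.Leech.Mon Cfsg.Agent.Lib.Leech.Packed Cfsg.Agent.Lib.Leech.Vec Cfsg.Agent.Lib.Leech.Cert
  Cfsg.Agent.Lib.Leech.Order Cfsg.Agent.Lib.Leech.Word Cfsg.Agent.Lib.Leech.Co1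
  Cfsg.Agent.Lib.Leech.Reach Cfsg.Agent.Lib.Leech.OutCo1Base
  Cfsg.Agent.Lib.Leech.C2iData Cfsg.Agent.Lib.Leech.C2iSp Cfsg.Agent.Lib.Leech.C2iTab
  Cfsg.Agent.Lib.Leech.C2iRoot Cfsg.Agent.Lib.Leech.C2iKer Cfsg.Agent.Lib.Leech.C2iExtra
open Cfsg.Agent.Lib.PermComp

def C1 : ℕ := nat_lit 0xaabe3938f71dc318a35151877de34cefaa681445d6860cf261928bf3dbaf0834119a7d35b6cffe2486dadf69644d2040
def C2 : ℕ := nat_lit 0x4ed7a0998ad5c0ef4317b23627713af02c4fa949d97e14acfc1c8c2b41f972246fa5791a95ba1642e7631b82f5ccdf80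

/-- The packed given vector. -/
def nU : ℕ := 852206658587909773353650494292640276

theorem nU_dec : dec nU = vecU := by
  funext p
  have h : ∀ i < 24, dec nU (pt i) = vecU (pt i) := by decide +kernel
  have h1 := h (idx p) (idx_lt p)
  rwa [pt_idx] at h1

/-- The sign change as an operation. -/
def oT : ℕ × ℕ := (Pid, Oc)

theorem opG_oT : opG oT = tG := tG_eq_opG.symm

theorem w_mem {w : List (ℕ × ℕ)} (h1 : eqW (w ++ [oT]) ([oT] ++ w) = true) (h2 : runW w nU nU = true) :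
    wG w ∈ C0 := by
  refine ⟨?_, ?_⟩
  · have h3 := wG_eq h1
    rw [wG_append, wG_append] at h3
    simp only [wG_cons, wG_nil, one_mul, opG_oT] at h3
    exact h3.symm
  · have hn : dec nU ∈ leechLattice := by
      rw [nU_dec]
      exact leechU.2
    have h3 := wG_smul w h2 hn
    apply Subtype.ext
    have h4 : (⟨dec nU, hn⟩ : L) = leechU := Subtype.ext nU_dec
    rw [h4] at h3
    rw [h3, nU_dec]
    rfl

theorem w1_c1 : eqW (w1 ++ [oT]) ([oT] ++ w1) = true := by decide +kernel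
theorem w1_c2 : runW w1 nU nU = true := by decide +kernel
theorem w2_c1 : eqW (w2 ++ [oT]) ([oT] ++ w2) = true := by decide +kernel
theorem w2_c2 : runW w2 nU nU = true := by decide +kernel

theorem w1_tab : ∀ k < 64, runW w1 (rn k) (rn (Core.app 6 63 C1 k)) = true ∨
    runW w1 (rn k) (rm (Core.app 6 63 C1 k)) = true := by decide +kernel

theorem w2_tab : ∀ k < 64, runW w2 (rn k) (rn (Core.app 6 63 C2 k)) = true ∨
    runW w2 (rn k) (rm (Core.app 6 63 C2 k)) = true := by decide +kernel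

theorem C1_lt : ∀ k < 64, Core.app 6 63 C1 k < 64 := by decide +kernel
theorem C2_lt : ∀ k < 64, Core.app 6 63 C2 k < 64 := by decide +kernel

theorem rv_bt {k : ℕ} (hk : k < 64) : rv (bt k) = ⟨dec (rn k), mem_of_inL (rn_inL k hk)⟩ := by
  apply Subtype.ext
  rw [rv_val, kOf_bt hk]

theorem Ph_tab {w : List (ℕ × ℕ)} {c : ℕ} (hC : wG w ∈ C0)
    (hr : ∀ k < 64, runW w (rn k) (rn (Core.app 6 63 c k)) = true ∨ runW w (rn k) (rm (Core.app 6 63 c k)) = true)
    (hlt : ∀ k < 64, Core.app 6 63 c k < 64) {k : ℕ} (hk : k < 64) :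
    Ph (wG w) (bt k) = bt (Core.app 6 63 c k) := by
  apply Ph_eq hC
  rw [rv_bt hk, rv_bt (hlt k hk)]
  rcases hr k hk with h | h
  · left
    apply Subtype.ext
    exact wG_smul w h _
  · right
    apply Subtype.ext
    have h1 := wG_smul w h (mem_of_inL (rn_inL k hk))
    rw [dec_rm (hlt k hk)] at h1
    exact h1

/-- The permutation representation of the symplectic group. -/
noncomputable def sp2perm : SpG →* Equiv.Perm V where
  toFun A := (Cfsg.Agent.Lib.Classical.SympForm.spHom A).toEquiv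
  map_one' := by
    ext x : 1
    simp
  map_mul' A B := by
    ext x : 1
    simp [Equiv.Perm.mul_apply, Matrix.mulVec_mulVec]

theorem sp2perm_apply (A : SpG) (x : V) : sp2perm A x = A.1 *ᵥ x := rfl

/-- The two elements. -/
theorem rep_of {w : List (ℕ × ℕ)} {c : ℕ} (hC : wG w ∈ C0)
    (hr : ∀ k < 64, runW w (rn k) (rn (Core.app 6 63 c k)) = true ∨ runW w (rn k) (rm (Core.app 6 63 c k)) = true)
    (hlt : ∀ k < 64, Core.app 6 63 c k < 64) :
    Core.Rep 6 63 e64.symm c (sp2perm (psi0 ⟨wG w, hC⟩)) := by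
  intro a
  show Core.app 6 63 c (kOf a) = kOf (sp2perm (psi0 ⟨wG w, hC⟩) a)
  rw [sp2perm_apply, psi0_mulVec]
  show _ = kOf (Ph (wG w) a)
  conv_rhs => rw [← bt_kOf a]
  rw [Ph_tab hC hr hlt (kOf_lt a), kOf_bt (hlt _ (kOf_lt a))]

theorem psi0_surj : Function.Surjective psi0 := by
  have hC1 := w_mem w1_c1 w1_c2
  have hC2 := w_mem w2_c1 w2_c2
  have hr1 := rep_of hC1 w1_tab C1_lt
  have hr2 := rep_of hC2 w2_tab C2_lt
  have hT : ∀ c ∈ c2c_T, ∃ g, Core.Rep 6 63 e64.symm c g := by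
    intro c hc
    have h : c2c_T = [C1, C2] := rfl
    rw [h] at hc
    simp only [List.mem_cons, List.not_mem_nil, or_false] at hc
    rcases hc with rfl | rfl
    · exact ⟨_, hr1⟩
    · exact ⟨_, hr2⟩
  have h4 := Core.main_of_checkAll (n := 64) (w := 6) (mask := 63) (e := e64.symm) hT c2c_check
  have h5 := h4.2.2.2.2.2
  rw [c2c_order] at h5
  have h6 : Core.H 6 63 e64.symm c2c_T ≤ psi0.range.map sp2perm := by
    apply (Subgroup.closure_le _).2
    rintro g ⟨c, hc, hg⟩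
    have h : c2c_T = [C1, C2] := rfl
    rw [h] at hc
    simp only [List.mem_cons, List.not_mem_nil, or_false] at hc
    have hm : (63 : ℕ) = 2 ^ 6 - 1 := by norm_num
    rcases hc with rfl | rfl
    · rw [hg.unique hr1]
      exact ⟨_, ⟨_, rfl⟩, rfl⟩
    · rw [hg.unique hr2]
      exact ⟨_, ⟨_, rfl⟩, rfl⟩
  have h7 : Nat.card (Core.H 6 63 e64.symm c2c_T) ≤ Nat.card (psi0.range.map sp2perm) :=
    Subgroup.card_le_of_le h6
  have h8 : Nat.card (psi0.range.map sp2perm) ≤ Nat.card psi0.range :=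
    Nat.card_le_card_of_surjective (sp2perm.subgroupMap psi0.range) (sp2perm.subgroupMap_surjective _)
  have h9 : Nat.card psi0.range = Nat.card SpG := by
    apply le_antisymm
    · exact Subgroup.card_le_card_group _
    · rw [card_SpG]
      omega
  have h10 := Subgroup.eq_top_of_card_eq _ h9
  exact MonoidHom.range_eq_top.1 h10

end Cfsg.Agent.Lib.Leech.C2iGen
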