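import Cfsg.Agent.Lib.Leech.C2iRoot

/-!
# The kernel of the action on the 63 pairs

An element of the centraliser of the involution acting trivially on the pairs is monomial, its permutation fixes the
octad pointwise, and its sign set is disjoint from the octad.
-/

set_option autoImplicit false

namespace Cfsg.Agent.Lib.Leech.C2iKer

open Cfsg Cfsg.Spor Matrix Cfsg.Agent.Lib.Golay.Core Cfsg.Agent.Lib.Golay.Perm Cfsg.Agent.Lib.Golay.M24
  Cfsg.Agent.Lib.Golay.Stab Cfsg.Agent.Lib.Golay.Chain Cfsg.Agent.Lib.Leech.Basic Cfsg.Agent.Lib.Leech.Lat Cfsg.Agent.Lib.Leech.Mon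
  Cfsg.Agent.Lib.Leech.Packed Cfsg.Agent.Lib.Leech.Vec Cfsg.Agent.Lib.Leech.Cert
  Cfsg.Agent.Lib.Leech.Order Cfsg.Agent.Lib.Leech.Word Cfsg.Agent.Lib.Leech.Co1
  Cfsg.Agent.Lib.Leech.Reach Cfsg.Agent.Lib.Leech.NFBase Cfsg.Agent.Lib.Leech.OutCo1Base
  Cfsg.Agent.Lib.Leech.C2iData Cfsg.Agent.Lib.Leech.C2iSp Cfsg.Agent.Lib.Leech.C2iTab
  Cfsg.Agent.Lib.Leech.C2iRoot
open scoped Pointwise

/-! ### Elements of the table -/

theorem T6_aut : ∀ P ∈ T6, checkAut P = true ∧ P ≠ 0 := by decide +kernel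
theorem Dl_ok : ∀ c ∈ Dl, c < 2 ^ 24 ∧ isCode c = true ∧ Nat.land c O0 = 0 := by decide +kernel
theorem T6_Oc : ∀ P ∈ T6, mapMask P Oc = Oc := by decide +kernel
/-- The test for the list of code words. -/
def dlChk (m : ℕ) : Bool := cond (Nat.beq (Nat.land (code m) O0) 0) (decide (code m ∈ Dl)) true

theorem dlChk_all : allUpTo dlChk 4096 = true := by decide +kernel

theorem Dl_cover {m : ℕ} (hm : m < 4096) (h : Nat.land (code m) O0 = 0) : code m ∈ Dl := by
  have h1 := allUpTo_iff.1 dlChk_all m hm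
  unfold dlChk at h1
  rw [Vec.beq_of_eq h, cond_true] at h1
  exact of_decide_eq_true h1

/-- The elements of the kernel. -/
def Qel (g : Co0) : Prop := ∃ P ∈ T6, ∃ c ∈ Dl, g = opG (P, c)

theorem opG_eq {P c : ℕ} (hP : P ∈ T6) (hc : c ∈ Dl) :
    opG (P, c) = monG (g P) (g_mem_M24 (T6_aut P hP).1) (setOf c)
      (setOf_mem_of_isCode (Dl_ok c hc).1 (Dl_ok c hc).2.1) :=
  opG_mon (T6_aut P hP).2 (T6_aut P hP).1 (Dl_ok c hc).1 (Dl_ok c hc).2.1

theorem T6_valid {P : ℕ} (hP : P ∈ T6) : validPerm P = true := checkAut_valid (T6_aut P hP).1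

/-- The permutations of the table fix the octad. -/
theorem g_fix {P : ℕ} (hP : P ∈ T6) {i : ℕ} (hi : i < 24) (hb : O0.testBit i = true) :
    g P (pt i) = pt i := by
  rw [g_pt (T6_valid hP) hi, (T6_props P hP).1 i hi hb]

theorem O0_or_Oc : ∀ i < 24, (O0.testBit i = true ∧ Oc.testBit i = false) ∨
    (O0.testBit i = false ∧ Oc.testBit i = true) := by decide +kernel

/-- The elements act trivially on vectors supported on the octad. -/
theorem opG_smul_fix {P c : ℕ} (hP : P ∈ T6) (hc : c ∈ Dl) {y : L}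
    (hy : ∀ i < 24, Oc.testBit i = true → y.1 (pt i) = 0) : opG (P, c) • y = y := by
  rw [opG_eq hP hc]
  apply Subtype.ext
  funext p
  rw [monG_smul, signedPerm_apply]
  have hv := T6_valid hP
  have hi := idx_lt p
  have hpp := pt_idx p
  rcases O0_or_Oc _ hi with ⟨h1, h2⟩ | ⟨h1, h2⟩
  · -- in the octad
    have h3 : g P p = p := by
      have := g_fix hP hi h1
      rwa [hpp] at this
    have h4 : (g P).symm p = p := by
      rw [Equiv.symm_apply_eq, h3]
    have h5 : p ∉ setOf c := by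
      intro h6
      have h6' := mem_setOf.1 h6
      have h7 : (Nat.land c O0).testBit (idx p) = true := by
        show (c &&& O0).testBit (idx p) = true
        rw [Nat.testBit_land, h6', h1]
        rfl
      rw [(Dl_ok c hc).2.2] at h7
      simp at h7
    rw [if_neg h5, h4]
  · -- out of the octad
    have h3 : y.1 p = 0 := by
      have := hy _ hi h2
      rwa [hpp] at this
    have h4 : idx ((g P).symm p) < 24 := idx_lt _
    have h5 : Oc.testBit (idx ((g P).symm p)) = true := by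
      rcases O0_or_Oc _ h4 with ⟨h6, _⟩ | ⟨_, h6⟩
      · exfalso
        have h7 := g_fix hP h4 h6
        rw [pt_idx, Equiv.apply_symm_apply] at h7
        have h8 : (g P).symm p = p := h7.symm
        rw [h8, h1] at h6
        exact absurd h6 (by simp)
      · exact h6
    have h6 := hy _ h4 h5
    rw [pt_idx] at h6
    rw [h6, h3]
    simp

theorem U_supp : ∀ i < 24, Oc.testBit i = true → vecU (pt i) = 0 := by decide +kernel

theorem opG_smul_U {P c : ℕ} (hP : P ∈ T6) (hc : c ∈ Dl) : opG (P, c) • leechU = leechU :=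
  opG_smul_fix hP hc U_supp

/-- The sign change on the code word `Oc` commutes with the elements. -/
theorem opG_comm_tG {P c : ℕ} (hP : P ∈ T6) (hc : c ∈ Dl) : opG (P, c) * tG = tG * opG (P, c) := by
  have hv := T6_valid hP
  rw [opG_eq hP hc]
  unfold tG eps
  rw [monG_mul, monG_mul]
  have h1 : g P • setOf Oc = setOf Oc := by
    rw [smul_setOf hv, T6_Oc P hP]
  have h2 : (1 : Equiv.Perm GolayPt) • setOf c = setOf c := one_smul _ _
  have h3 : symmDiff (setOf c) (g P • setOf Oc) = symmDiff (setOf Oc) ((1 : Equiv.Perm GolayPt) • setOf c) := by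
    rw [h1, h2, symmDiff_comm]
  congr 1

theorem Qel_mem_C0 {x : Co0} (hx : Qel x) : x ∈ C0 := by
  obtain ⟨P, hP, c, hc, rfl⟩ := hx
  exact ⟨opG_comm_tG hP hc, opG_smul_U hP hc⟩

theorem Qel_Ph {x : Co0} (hx : Qel x) (z : V) : Ph x z = z := by
  have hC := Qel_mem_C0 hx
  obtain ⟨P, hP, c, hc, rfl⟩ := hx
  exact Ph_eq hC (Or.inl (opG_smul_fix hP hc (rt_rv z).supp))

/-! ### The converse -/

/-- The vectors `4 e_i + 4 e_j`. -/
def nP (i j : ℕ) : ℕ := pack (fun r => if r = i ∨ r = j then 20 else 16) 24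

/-- The vectors `4 e_i - 4 e_j`. -/
def nQ (i j : ℕ) : ℕ := pack (fun r => if r = i then 20 else if r = j then 12 else 16) 24

/-- The six points. -/
def Al : List ℕ := [1, 2, 3, 5, 14, 17]

theorem pair_ok : ∀ i ∈ Al, ∀ j ∈ Al, i ≠ j → inL (nP i j) = true ∧ inL (nQ i j) = true ∧
    dotIs (nP i j) (nP i j) 32 0 = true ∧ dotIs (nQ i j) (nQ i j) 32 0 = true ∧
    (∀ r < 24, Oc.testBit r = true → img (nP i j) r = 16 ∧ img (nQ i j) r = 16) ∧
    img (nP i j) 23 = 16 ∧ img (nP i j) 0 = 16 ∧ img (nQ i j) 23 = 16 ∧ img (nQ i j) 0 = 16 ∧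
    (∀ r < 24, img (nP i j) r + img (nQ i j) r = if r = i then 40 else 32) ∧
    (∀ r < 24, img (nP i j) r = img (nQ i j) r + if r = j then 8 else 0) ∧ i < 24 ∧ j < 24 := by
  decide +kernel

section Pairs

variable {x : Co0} (hx : x ∈ C0) (hk : ∀ z, Ph x z = z)

include hx hk

/-- Every vector of our family is sent to itself or its opposite. -/
theorem smul_rt {y : L} (hy : Rt y) : x • y = y ∨ x • y = - y := by
  obtain ⟨z, hz⟩ := exists_rep hy
  have h1 := Ph_spec hx z
  rw [hk z] at h1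
  rcases hz with rfl | rfl
  · exact h1
  · rcases h1 with h1 | h1
    · left
      rw [smul_neg, h1]
    · right
      rw [smul_neg, h1]

theorem cross_pair {i j : ℕ} (hi : i ∈ Al) (hj : j ∈ Al) (hij : i ≠ j) :
    x • e8L (pt i) = e8L (pt i) ∨ x • e8L (pt i) = - e8L (pt i) ∨
      x • e8L (pt i) = e8L (pt j) ∨ x • e8L (pt i) = - e8L (pt j) := by
  obtain ⟨h1, h2, h3, h4, h5, h6, h7, h8, h9, h10, h11, hi24, hj24⟩ := pair_ok i hi j hj hij
  let P : L := ⟨dec (nP i j), mem_of_inL h1⟩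
  let Q : L := ⟨dec (nQ i j), mem_of_inL h2⟩
  have rP : Rt P := by
    refine ⟨fun r hr hb => ?_, ?_, Or.inl ?_⟩
    · show dec (nP i j) (pt r) = 0
      rw [dec_pt _ hr, (h5 r hr hb).1]
      norm_num
    · show dec (nP i j) (pt 23) + dec (nP i j) (pt 0) = 0
      rw [dec_pt _ (by norm_num), dec_pt _ (by norm_num), h6, h7]
      norm_num
    · show sqNorm (dec (nP i j)) = 32
      rw [← dotInt_self, dotIs_iff.1 h3]
      norm_num
  have rQ : Rt Q := by
    refine ⟨fun r hr hb => ?_, ?_, Or.inl ?_⟩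
    · show dec (nQ i j) (pt r) = 0
      rw [dec_pt _ hr, (h5 r hr hb).2]
      norm_num
    · show dec (nQ i j) (pt 23) + dec (nQ i j) (pt 0) = 0
      rw [dec_pt _ (by norm_num), dec_pt _ (by norm_num), h8, h9]
      norm_num
    · show sqNorm (dec (nQ i j)) = 32
      rw [← dotInt_self, dotIs_iff.1 h4]
      norm_num
  have e1 : e8L (pt i) = P + Q := by
    apply Subtype.ext
    funext p
    have hp := pt_idx p
    have hr := idx_lt p
    generalize idx p = r at hp hr
    subst hp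
    show e8 (pt i) (pt r) = dec (nP i j) (pt r) + dec (nQ i j) (pt r)
    rw [dec_pt _ hr, dec_pt _ hr]
    have h12 := h10 r hr
    unfold e8
    by_cases hir : r = i
    · subst hir
      rw [if_pos rfl] at h12
      simp only [Pi.single_eq_same]
      omega
    · rw [if_neg hir] at h12
      have : pt r ≠ pt i := fun h => hir (pt_injOn hr hi24 h)
      rw [Pi.single_eq_of_ne this]
      omega
  have e2 : e8L (pt j) = P - Q := by
    apply Subtype.ext
    funext p
    have hp := pt_idx p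
    have hr := idx_lt p
    generalize idx p = r at hp hr
    subst hp
    show e8 (pt j) (pt r) = dec (nP i j) (pt r) - dec (nQ i j) (pt r)
    rw [dec_pt _ hr, dec_pt _ hr]
    have h12 := h11 r hr
    unfold e8
    by_cases hjr : r = j
    · subst hjr
      rw [if_pos rfl] at h12
      simp only [Pi.single_eq_same]
      omega
    · rw [if_neg hjr] at h12
      have : pt r ≠ pt j := fun h => hjr (pt_injOn hr hj24 h)
      rw [Pi.single_eq_of_ne this]
      omega
  rw [e1, Lat.smul_add, e2]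
  rcases smul_rt hx hk rP with a | a <;> rcases smul_rt hx hk rQ with b | b <;> rw [a, b]
  · exact Or.inl rfl
  · exact Or.inr (Or.inr (Or.inl (sub_eq_add_neg _ _).symm))
  · exact Or.inr (Or.inr (Or.inr (by abel)))
  · exact Or.inr (Or.inl (by abel))

theorem e8L_smul_mem {i j : ℕ} (hi : i ∈ Al) (hj : j ∈ Al) (hij : i ≠ j) :
    ((x • e8L (pt i) : L) : GolayPt → ℤ) ∈ stdCross := by
  have key : ∀ (p : GolayPt), (e8L p).1 ∈ stdCross ∧ (- e8L p : L).1 ∈ stdCross := by
    intro p
    exact ⟨⟨p, 8, Or.inl rfl, rfl⟩, ⟨p, -8, Or.inr rfl, by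
      show - Pi.single p 8 = _
      funext q
      simp only [Pi.neg_apply, Pi.single_apply]
      split_ifs <;> simp⟩⟩
  rcases cross_pair hx hk hi hj hij with h | h | h | h <;> rw [h]
  · exact (key _).1
  · exact (key _).2
  · exact (key _).1
  · exact (key _).2

theorem mem_NN_of_ker : x ∈ NN := by
  have h1 := e8L_smul_mem hx hk (i := 1) (j := 2) (by decide) (by decide) (by decide)
  have h2 : (x • e8L (pt 1)) ∈ {v : L | (v : GolayPt → ℤ) ∈ stdCross} := h1
  rw [← orbit_NN (pt 1)] at h2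
  obtain ⟨n, hn⟩ := MulAction.mem_orbit_iff.1 h2
  have hn' : (n : Co0) • e8L (pt 1) = x • e8L (pt 1) := hn
  have h3 : (n : Co0)⁻¹ * x ∈ MulAction.stabilizer Co0 (e8L (pt 1)) := by
    rw [MulAction.mem_stabilizer_iff, mul_smul', ← hn', ← mul_smul', inv_mul_cancel]
    rfl
  have h4 := stab_le_NN (pt 1) h3
  have h5 := NN.mul_mem n.2 h4
  rwa [mul_inv_cancel_left] at h5

/-! ### Monomial elements -/

omit hx hk in
theorem monG_e8 (σ : Equiv.Perm GolayPt) (hσ : σ ∈ M24) (d : Finset GolayPt) (hd : d ∈ Sup) (p : GolayPt) :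
    ((monG σ hσ d hd • e8L p : L) : GolayPt → ℤ) = Pi.single (σ p) (if σ p ∈ d then -8 else 8) := by
  rw [monG_smul]
  exact signedPerm_single σ d p 8

end Pairs

theorem sigma_pair {σ : Equiv.Perm GolayPt} {hσ : σ ∈ M24} {d : Finset GolayPt} {hd : d ∈ Sup}
    (hx : monG σ hσ d hd ∈ C0) (hk : ∀ z, Ph (monG σ hσ d hd) z = z) {i j : ℕ} (hi : i ∈ Al) (hj : j ∈ Al)
    (hij : i ≠ j) : σ (pt i) = pt i ∨ σ (pt i) = pt j := by
  have h1 := cross_pair hx hk hi hj hij
  have h2 := monG_e8 σ hσ d hd (pt i)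
  have h3 := congrFun h2 (σ (pt i))
  rw [Pi.single_eq_same] at h3
  have h4 : (if σ (pt i) ∈ d then (-8 : ℤ) else 8) ≠ 0 := by
    split_ifs <;> norm_num
  by_contra hne
  push_neg at hne
  have hv : ∀ q, q = pt i ∨ q = pt j → e8 q (σ (pt i)) = 0 := by
    rintro q (rfl | rfl)
    · exact Pi.single_eq_of_ne hne.1 _
    · exact Pi.single_eq_of_ne hne.2 _
  rcases h1 with h | h | h | h <;> rw [h] at h3
  · exact h4 (h3.symm.trans (hv _ (Or.inl rfl)))
  · have h5 : ((- e8L (pt i) : L) : GolayPt → ℤ) (σ (pt i)) = - e8 (pt i) (σ (pt i)) := rfl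
    rw [h5, hv _ (Or.inl rfl)] at h3
    apply h4
    rw [← h3]
    simp
  · exact h4 (h3.symm.trans (hv _ (Or.inr rfl)))
  · have h5 : ((- e8L (pt j) : L) : GolayPt → ℤ) (σ (pt i)) = - e8 (pt j) (σ (pt i)) := rfl
    rw [h5, hv _ (Or.inr rfl)] at h3
    apply h4
    rw [← h3]
    simp

theorem Al_lt : ∀ i ∈ Al, i < 24 := by decide

theorem two_others : ∀ i ∈ Al, ∃ j ∈ Al, ∃ k ∈ Al, i ≠ j ∧ i ≠ k ∧ j ≠ k := by decide

theorem sigma_fix {σ : Equiv.Perm GolayPt} {hσ : σ ∈ M24} {d : Finset GolayPt} {hd : d ∈ Sup}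
    (hx : monG σ hσ d hd ∈ C0) (hk : ∀ z, Ph (monG σ hσ d hd) z = z) {i : ℕ} (hi : i ∈ Al) :
    σ (pt i) = pt i := by
  obtain ⟨j, hj, l, hl, h1, h2, h3⟩ := two_others i hi
  rcases sigma_pair hx hk hi hj h1 with h4 | h4
  · exact h4
  · rcases sigma_pair hx hk hi hl h2 with h5 | h5
    · exact h5
    · exact absurd (pt_injOn (Al_lt j hj) (Al_lt l hl) (h4.symm.trans h5)) h3

theorem cPm : checkAut Pm = true := by decide +kernel

theorem Pm_tab : ∀ b ∈ [5, 3, 2, 1, 0, 23], img Pm b ∈ Al := by decide +kernel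

theorem Pm_14 : img Pm 14 = 0 := by decide +kernel

theorem Pm_17 : img Pm 17 = 23 := by decide +kernel

theorem O0_14 : O0.testBit 14 = true := by decide +kernel

theorem O0_17 : O0.testBit 17 = true := by decide +kernel

/-- The permutation fixes the two other points of the octad. -/
theorem sigma_fix_two {σ : Equiv.Perm GolayPt} (hσ : σ ∈ M24) (h : ∀ i ∈ Al, σ (pt i) = pt i) :
    σ (pt 0) = pt 0 ∧ σ (pt 23) = pt 23 := by
  have hv : validPerm Pm = true := checkAut_valid cPm
  have hm : g Pm ∈ M24 := g_mem_M24 cPm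
  have h1 : (g Pm)⁻¹ * σ * g Pm ∈ Fix [5, 3, 2, 1, 0, 23] := by
    refine ⟨M24.mul_mem (M24.mul_mem (M24.inv_mem hm) hσ) hm, fun x hx => ?_⟩
    have hx24 : x < 24 := by
      have : ∀ x ∈ [5, 3, 2, 1, 0, 23], x < 24 := by decide
      exact this x hx
    show (g Pm)⁻¹ (σ (g Pm (pt x))) = pt x
    rw [g_pt hv hx24, h _ (Pm_tab x hx), ← g_pt hv hx24]
    simp
  have h2 := (fix_O0_iff.2 h1).2
  have key : ∀ i < 24, O0.testBit i = true → σ (g Pm (pt i)) = g Pm (pt i) := by
    intro i hi hb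
    have h3 := (mem_fixingSubgroup_iff _).1 h2 (pt i) (by
      rw [Finset.mem_coe, mem_setOf, idx_pt hi]
      exact hb)
    rw [Equiv.Perm.smul_def] at h3
    have h4 : (g Pm)⁻¹ (σ (g Pm (pt i))) = pt i := h3
    rw [Equiv.Perm.inv_eq_iff_eq] at h4
    exact h4
  constructor
  · have := key 14 (by norm_num) O0_14
    rwa [g_pt hv (by norm_num), Pm_14] at this
  · have := key 17 (by norm_num) O0_17
    rwa [g_pt hv (by norm_num), Pm_17] at this

/-- Number of a representative with all coordinates on the octad nonzero. -/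
def kS : ℕ := 8

theorem kS_tab : kS < 64 ∧ ∀ i < 24, O0.testBit i = true → img (rn kS) i ≠ 16 := by decide +kernel

theorem O0_pt : ∀ i ∈ [5, 3, 2, 1, 0, 23], i ∈ Al ∨ i = 0 ∨ i = 23 := by decide

theorem qel_of_ker {x : Co0} (hx : x ∈ C0) (hk : ∀ z, Ph x z = z) : Qel x := by
  obtain ⟨σ, hσ, d, hd, rfl⟩ := presCross_eq_monG (mem_NN_of_ker hx hk)
  have h1 : ∀ i ∈ Al, σ (pt i) = pt i := fun i hi => sigma_fix hx hk hi
  obtain ⟨h0, h23⟩ := sigma_fix_two hσ h1
  have hF : σ ∈ Fix [5, 3, 2, 1, 0, 23] := by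
    refine ⟨hσ, fun y hy => ?_⟩
    rcases O0_pt y hy with h | h | h
    · exact h1 y h
    · rw [h]
      exact h0
    · rw [h]
      exact h23
  obtain ⟨P, hP, rfl⟩ := mem_T6 hF
  have hvP := T6_valid hP
  -- the signs on the two points
  have hU := hx.2
  have hsymm : ∀ {i : ℕ}, i < 24 → O0.testBit i = true → (g P).symm (pt i) = pt i := by
    intro i hi hb
    rw [Equiv.symm_apply_eq, g_fix hP hi hb]
  have hsign : ∀ i < 24, O0.testBit i = true → pt i ∉ d := by
    have hval : ∀ (y : L), ∀ {i : ℕ}, i < 24 → O0.testBit i = true →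
        ((monG (g P) hσ d hd • y : L) : GolayPt → ℤ) (pt i) = if pt i ∈ d then - y.1 (pt i) else y.1 (pt i) := by
      intro y i hi hb
      rw [monG_smul, signedPerm_apply, hsymm hi hb]
    have h23' : pt 23 ∉ d := by
      intro hm
      have h2 := hval leechU (i := 23) (by norm_num) (by decide +kernel)
      rw [hU, if_pos hm] at h2
      have h3 : (leechU : L).1 (pt 23) = 4 := vecU_pt23
      rw [h3] at h2
      norm_num at h2
    have hr := Ph_spec hx (bt kS)
    rw [hk] at hr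
    have hnz : ∀ i < 24, O0.testBit i = true → (rv (bt kS)).1 (pt i) ≠ 0 := by
      intro i hi hb
      rw [rv_val, kOf_bt kS_tab.1, dec_pt _ hi]
      have := kS_tab.2 i hi hb
      omega
    have hfix : monG (g P) hσ d hd • rv (bt kS) = rv (bt kS) := by
      rcases hr with hr | hr
      · exact hr
      · exfalso
        have h2 := hval (rv (bt kS)) (i := 23) (by norm_num) (by decide +kernel)
        rw [hr, if_neg h23'] at h2
        have h3 : ((- rv (bt kS) : L) : GolayPt → ℤ) (pt 23) = - (rv (bt kS)).1 (pt 23) := rfl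
        rw [h3] at h2
        have := hnz 23 (by norm_num) (by decide +kernel)
        omega
    intro i hi hb hm
    have h2 := hval (rv (bt kS)) hi hb
    rw [hfix, if_pos hm] at h2
    have := hnz i hi hb
    omega
  -- the code word
  obtain ⟨m, hm, rfl⟩ := mem_supports_iff'.1 hd
  have hland : Nat.land (code m) O0 = 0 := by
    apply Nat.eq_of_testBit_eq
    intro i
    show ((code m) &&& O0).testBit i = (0 : ℕ).testBit i
    rw [Nat.testBit_land, Nat.zero_testBit]
    by_cases hi : i < 24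
    · by_cases hb : O0.testBit i = true
      · have h2 := hsign i hi hb
        rw [mem_setOf, idx_pt hi] at h2
        rw [hb]
        simpa using h2
      · simp [hb]
    · have h2 : (code m).testBit i = false := by
        apply Nat.testBit_lt_two_pow
        exact (code_lt hm).trans_le (Nat.pow_le_pow_right (by norm_num) (by omega))
      rw [h2]
      rfl
  have hD := Dl_cover hm hland
  exact ⟨P, hP, code m, hD, (opG_eq hP hD).symm⟩

theorem ker_iff {x : Co0} : (x ∈ C0 ∧ ∀ z, Ph x z = z) ↔ Qel x :=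
  ⟨fun h => qel_of_ker h.1 h.2, fun h => ⟨Qel_mem_C0 h, Qel_Ph h⟩⟩

end Cfsg.Agent.Lib.Leech.C2iKer
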