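import Cfsg.Agent.Lib.Leech.C2iTab

/-!
# The 63 pairs of minimal vectors and the action on them

Minimal vectors supported on the octad and orthogonal to the given minimal vector come in 63 pairs, numbered by the
nonzero binary words of length 6; the inner products modulo 32 give the standard symplectic form, so the centraliser
of the involution maps to the symplectic group.
-/

set_option autoImplicit false

namespace Cfsg.Agent.Lib.Leech.C2iRoot

open Cfsg Cfsg.Spor Matrix Cfsg.Agent.Lib.Golay.Core Cfsg.Agent.Lib.Golay.Perm Cfsg.Agent.Lib.Golay.M24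
  Cfsg.Agent.Lib.Leech.Basic Cfsg.Agent.Lib.Leech.Lat Cfsg.Agent.Lib.Leech.Mon
  Cfsg.Agent.Lib.Leech.Packed Cfsg.Agent.Lib.Leech.Vec Cfsg.Agent.Lib.Leech.Cert
  Cfsg.Agent.Lib.Leech.Order Cfsg.Agent.Lib.Leech.Word Cfsg.Agent.Lib.Leech.Co1
  Cfsg.Agent.Lib.Leech.NFBase Cfsg.Agent.Lib.Leech.OutCo1Base Cfsg.Agent.Lib.Leech.C2iData
  Cfsg.Agent.Lib.Leech.C2iSp Cfsg.Agent.Lib.Classical.SympForm Cfsg.Agent.Lib.Leech.C2iTab

theorem chk_all {a b1 b2 b3 b5 b14 b17 : ℕ} (h1 : a < 5) (h2 : b1 < 5) (h3 : b2 < 5) (h4 : b3 < 5)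
    (h5 : b5 < 5) (h6 : b14 < 5) (h7 : b17 < 5) : chk a b1 b2 b3 b5 b14 b17 = true := by
  have h := enumAll_true
  unfold enumAll at h
  exact allUpTo_iff.1 (allUpTo_iff.1 (allUpTo_iff.1 (allUpTo_iff.1 (allUpTo_iff.1 (allUpTo_iff.1
    (allUpTo_iff.1 h _ h1) _ h2) _ h3) _ h4) _ h5) _ h6) _ h7

theorem cond_use {c1 c2 A : Bool} (h : cond c1 (cond c2 A true) true = true) (h1 : c1 = true)
    (h2 : c2 = true) : A = true := by
  subst h1 h2
  exact h

theorem chk_spec {a b1 b2 b3 b5 b14 b17 : ℕ} (h1 : a < 5) (h2 : b1 < 5) (h3 : b2 < 5) (h4 : b3 < 5)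
    (h5 : b5 < 5) (h6 : b14 < 5) (h7 : b17 < 5)
    (hnorm : Nat.add (Nat.mul 2 (sqD a)) (Nat.add (sqD b1) (Nat.add (sqD b2) (Nat.add (sqD b3)
      (Nat.add (sqD b5) (Nat.add (sqD b14) (sqD b17)))))) = 32)
    (hin : inL (pack (digF a b1 b2 b3 b5 b14 b17) 24) = true) :
    ∃ k < 64, pack (digF a b1 b2 b3 b5 b14 b17) 24 = rn k ∨ pack (digF a b1 b2 b3 b5 b14 b17) 24 = rm k := by
  have hchk := chk_all h1 h2 h3 h4 h5 h6 h7
  have h' : cond (Nat.beq (Nat.add (Nat.mul 2 (sqD a)) (Nat.add (sqD b1) (Nat.add (sqD b2) (Nat.add (sqD b3)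
      (Nat.add (sqD b5) (Nat.add (sqD b14) (sqD b17))))))) 32)
      (cond (inL (pack (digF a b1 b2 b3 b5 b14 b17) 24)) (anyR (pack (digF a b1 b2 b3 b5 b14 b17) 24) 64) true)
      true = true := hchk
  exact anyR_spec (cond_use h' (Vec.beq_of_eq hnorm) hin)

theorem Oc_cover : ∀ i < 24, (i = 23 ∨ i = 0 ∨ i = 1 ∨ i = 2 ∨ i = 3 ∨ i = 5 ∨ i = 14 ∨ i = 17) ∨
    Oc.testBit i = true := by decide +kernel

theorem exists_rep32 {y : L} (h1 : ∀ i < 24, Oc.testBit i = true → y.1 (pt i) = 0)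
    (h2 : y.1 (pt 23) + y.1 (pt 0) = 0) (h3 : sqNorm y.1 = 32) :
    ∃ k < 64, y.1 = dec (rn k) ∨ y.1 = dec (rm k) := by
  have hL := y.2
  rw [mem_leechLattice_iff, mem_leechSet_iff] at hL
  obtain ⟨m, hm, -, -⟩ := hL
  have h40 : y.1 (pt 4) = 0 := h1 4 (by norm_num) (by decide +kernel)
  have heven : ∀ p, (2 : ℤ) ∣ y.1 p := by
    have h5 := hm (pt 4)
    rw [h40] at h5
    intro p
    have h6 := hm p
    unfold Int.ModEq at h5 h6
    omega
  have hb : ∀ p, (y.1 p) ^ 2 ≤ 32 := fun p => by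
    rw [← h3]
    exact Finset.single_le_sum (f := fun q => (y.1 q) ^ 2) (fun _ _ => sq_nonneg _) (Finset.mem_univ p)
  have hd : ∀ p, ∃ d : ℕ, d < 5 ∧ y.1 p = 2 * (d : ℤ) - 4 := by
    intro p
    obtain ⟨c, hc⟩ := heven p
    have hb1 := hb p
    rw [hc] at hb1
    have h7 : -3 < c ∧ c < 3 := by constructor <;> nlinarith
    exact ⟨(c + 2).toNat, by omega, by omega⟩
  choose d hd5 hdy using hd
  have hd5' : ∀ i, d (pt i) < 5 := fun i => hd5 _
  have hdig : ∀ j < 24, digF (d (pt 23)) (d (pt 1)) (d (pt 2)) (d (pt 3)) (d (pt 5)) (d (pt 14))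
      (d (pt 17)) j < 32 := by
    intro j _
    have := hd5' 23
    have := hd5' 1
    have := hd5' 2
    have := hd5' 3
    have := hd5' 5
    have := hd5' 14
    have := hd5' 17
    unfold digF
    split_ifs <;> omega
  have hdec : dec (pack (digF (d (pt 23)) (d (pt 1)) (d (pt 2)) (d (pt 3)) (d (pt 5)) (d (pt 14))
      (d (pt 17))) 24) = y.1 := by
    funext p
    have hp := pt_idx p
    have hi := idx_lt p
    generalize idx p = i at hp hi
    subst hp
    rw [dec_pt _ hi, img_pack _ _ _ hdig hi]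
    unfold digF
    split_ifs with e1 e2 e3 e4 e5 e6 e7 e8
    · subst e1
      rw [hdy (pt 23)]
      push_cast
      ring
    · subst e2
      have h8 := hdy (pt 23)
      have h9 := hd5' 23
      have : y.1 (pt 0) = - y.1 (pt 23) := by linarith
      rw [this, h8]
      omega
    · subst e3
      rw [hdy (pt 1)]
      push_cast
      ring
    · subst e4
      rw [hdy (pt 2)]
      push_cast
      ring
    · subst e5
      rw [hdy (pt 3)]
      push_cast
      ring
    · subst e6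
      rw [hdy (pt 5)]
      push_cast
      ring
    · subst e7
      rw [hdy (pt 14)]
      push_cast
      ring
    · subst e8
      rw [hdy (pt 17)]
      push_cast
      ring
    · rw [h1 i hi ((Oc_cover i hi).resolve_left (by omega))]
      norm_num
  have hnorm : Nat.add (Nat.mul 2 (sqD (d (pt 23)))) (Nat.add (sqD (d (pt 1))) (Nat.add (sqD (d (pt 2)))
      (Nat.add (sqD (d (pt 3))) (Nat.add (sqD (d (pt 5))) (Nat.add (sqD (d (pt 14)))
      (sqD (d (pt 17)))))))) = 32 := by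
    have h3' : ∑ i ∈ Finset.range 24, (y.1 (pt i)) ^ 2 = 32 := by
      rw [← sum_golay (fun p => (y.1 p) ^ 2)]
      exact h3
    simp only [Finset.sum_range_succ, Finset.sum_range_zero] at h3'
    have z4 := h40
    have z6 := h1 6 (by norm_num) (by decide +kernel)
    have z7 := h1 7 (by norm_num) (by decide +kernel)
    have z8 := h1 8 (by norm_num) (by decide +kernel)
    have z9 := h1 9 (by norm_num) (by decide +kernel)
    have z10 := h1 10 (by norm_num) (by decide +kernel)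
    have z11 := h1 11 (by norm_num) (by decide +kernel)
    have z12 := h1 12 (by norm_num) (by decide +kernel)
    have z13 := h1 13 (by norm_num) (by decide +kernel)
    have z15 := h1 15 (by norm_num) (by decide +kernel)
    have z16 := h1 16 (by norm_num) (by decide +kernel)
    have z18 := h1 18 (by norm_num) (by decide +kernel)
    have z19 := h1 19 (by norm_num) (by decide +kernel)
    have z20 := h1 20 (by norm_num) (by decide +kernel)
    have z21 := h1 21 (by norm_num) (by decide +kernel)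
    have z22 := h1 22 (by norm_num) (by decide +kernel)
    rw [z4, z6, z7, z8, z9, z10, z11, z12, z13, z15, z16, z18, z19, z20, z21, z22] at h3'
    have e0 : y.1 (pt 0) = - y.1 (pt 23) := by linarith
    rw [e0, hdy (pt 1), hdy (pt 2), hdy (pt 3), hdy (pt 5), hdy (pt 14), hdy (pt 17), hdy (pt 23)] at h3'
    have s0 := sqD_eq (hd5' 23)
    have s1 := sqD_eq (hd5' 1)
    have s2 := sqD_eq (hd5' 2)
    have s3 := sqD_eq (hd5' 3)
    have s5 := sqD_eq (hd5' 5)
    have s14 := sqD_eq (hd5' 14)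
    have s17 := sqD_eq (hd5' 17)
    show 2 * sqD (d (pt 23)) + (sqD (d (pt 1)) + (sqD (d (pt 2)) + (sqD (d (pt 3)) + (sqD (d (pt 5)) +
      (sqD (d (pt 14)) + sqD (d (pt 17))))))) = 32
    have : ((2 * sqD (d (pt 23)) + (sqD (d (pt 1)) + (sqD (d (pt 2)) + (sqD (d (pt 3)) + (sqD (d (pt 5)) +
      (sqD (d (pt 14)) + sqD (d (pt 17))))))) : ℕ) : ℤ) = 32 := by
      push_cast
      rw [s0, s1, s2, s3, s5, s14, s17]
      linarith
    exact_mod_cast this
  have hin : inL (pack (digF (d (pt 23)) (d (pt 1)) (d (pt 2)) (d (pt 3)) (d (pt 5)) (d (pt 14))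
      (d (pt 17))) 24) = true := by
    apply inL_of_mem
    rw [hdec]
    exact y.2
  obtain ⟨k, hk, h8⟩ := chk_spec (hd5' 23) (hd5' 1) (hd5' 2) (hd5' 3) (hd5' 5) (hd5' 14) (hd5' 17) hnorm hin
  refine ⟨k, hk, ?_⟩
  rw [← hdec]
  rcases h8 with h8 | h8
  · exact Or.inl (by rw [h8])
  · exact Or.inr (by rw [h8])

/-! ### The involution -/

theorem cOc : Oc < 2 ^ 24 ∧ isCode Oc = true := by decide +kernel

/-- The involution. -/
noncomputable def tG : Co0 := eps (setOf Oc) (setOf_mem_of_isCode cOc.1 cOc.2)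

theorem tG_apply (y : L) (p : GolayPt) :
    ((tG • y : L) : GolayPt → ℤ) p = if p ∈ setOf Oc then - y.1 p else y.1 p := by
  show signedPerm 1 (setOf Oc) y.1 p = _
  rw [signedPerm_apply]
  rfl

theorem tG_fix {y : L} (h : ∀ i < 24, Oc.testBit i = true → y.1 (pt i) = 0) : tG • y = y := by
  apply Subtype.ext
  funext p
  rw [tG_apply]
  split_ifs with h1
  · have h2 := h (idx p) (idx_lt p) (mem_setOf.1 h1)
    rw [pt_idx] at h2
    rw [h2]
    simp
  · rfl

theorem of_tG_fix {y : L} (h : tG • y = y) : ∀ i < 24, Oc.testBit i = true → y.1 (pt i) = 0 := by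
  intro i hi hb
  have h1 := tG_apply y (pt i)
  rw [h, if_pos (mem_setOf.2 (by rwa [idx_pt hi]))] at h1
  omega

theorem vecU_pt23 : vecU (pt 23) = 4 := by decide +kernel
theorem vecU_pt0 : vecU (pt 0) = 4 := by decide +kernel

/-- The inner product with the given vector. -/
theorem dot_U (y : GolayPt → ℤ) : dotInt y vecU = 4 * (y (pt 23) + y (pt 0)) := by
  unfold dotInt
  rw [sum_golay]
  have : ∀ i ∈ Finset.range 24, y (pt i) * vecU (pt i) =
      (if i = 23 then 4 * y (pt 23) else 0) + (if i = 0 then 4 * y (pt 0) else 0) := by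
    have key : ∀ i < 24, i ≠ 23 → i ≠ 0 → vecU (pt i) = 0 := by decide +kernel
    intro i hi
    have hi' := Finset.mem_range.1 hi
    by_cases h1 : i = 23
    · subst h1
      rw [vecU_pt23]
      simp
      ring
    · by_cases h2 : i = 0
      · subst h2
        rw [vecU_pt0]
        simp
        ring
      · rw [key i hi' h1 h2]
        simp [h1, h2]
  rw [Finset.sum_congr rfl this, Finset.sum_add_distrib, Finset.sum_ite_eq', Finset.sum_ite_eq']
  simp
  ring

/-- The group. -/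
def C0 : Subgroup Co0 where
  carrier := {g | g * tG = tG * g ∧ g • leechU = leechU}
  mul_mem' := by
    rintro a b ⟨h1, h2⟩ ⟨h3, h4⟩
    refine ⟨by rw [mul_assoc, h3, ← mul_assoc, h1, mul_assoc], ?_⟩
    rw [mul_smul', h4, h2]
  one_mem' := ⟨by simp, rfl⟩
  inv_mem' := by
    rintro a ⟨h1, h2⟩
    refine ⟨?_, ?_⟩
    · exact (show Commute a tG from h1).inv_left
    · conv_lhs => rw [← h2]
      rw [← mul_smul', inv_mul_cancel]
      rfl

/-- The vectors we look at. -/
structure Rt (y : L) : Prop where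
  supp : ∀ i < 24, Oc.testBit i = true → y.1 (pt i) = 0
  sum : y.1 (pt 23) + y.1 (pt 0) = 0
  norm : sqNorm y.1 = 32 ∨ y = 0

theorem rt_rv (x : V) : Rt (rv x) := by
  refine ⟨fun i hi hb => ?_, ?_, ?_⟩
  · rw [rv_val, dec_pt _ hi, rn_supp _ (kOf_lt x) i hi hb]
    norm_num
  · have h1 := rn_sum _ (kOf_lt x)
    rw [rv_val, dec_pt _ (by norm_num), dec_pt _ (by norm_num)]
    omega
  · by_cases h0 : kOf x = 0
    · right
      apply Subtype.ext
      rw [rv_val, h0, dec_rn_zero]
      rfl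
    · left
      have h1 := dotIs_iff.1 (rn_norm _ (kOf_lt x) h0)
      rw [rv_val, ← dotInt_self, h1]
      norm_num

theorem Rt.smul {g : Co0} (hg : g ∈ C0) {y : L} (h : Rt y) : Rt (g • y) := by
  refine ⟨?_, ?_, ?_⟩
  · apply of_tG_fix
    rw [← mul_smul', ← hg.1, mul_smul', tG_fix h.supp]
  · have h1 := smul_dot g y leechU
    rw [hg.2] at h1
    have h2 := dot_U (g • y : L).1
    have h3 := dot_U y.1
    have h4 : (leechU : L).1 = vecU := rfl
    rw [h4] at h1
    have h5 := h.sum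
    rw [h2, h3, h5] at h1
    omega
  · rcases h.norm with h1 | h1
    · left
      rw [sqNorm_smul, h1]
    · right
      rw [h1, smul_zero']

theorem exists_rep {y : L} (h : Rt y) : ∃ x : V, y = rv x ∨ y = - rv x := by
  rcases h.norm with h1 | h1
  · obtain ⟨k, hk, h2⟩ := exists_rep32 h.supp h.sum h1
    refine ⟨bt k, ?_⟩
    rcases h2 with h2 | h2
    · left
      apply Subtype.ext
      rw [rv_val, kOf_bt hk, h2]
    · right
      apply Subtype.ext
      show y.1 = - (rv (bt k)).1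
      rw [rv_val, kOf_bt hk, h2, dec_rm hk]
  · refine ⟨bt 0, Or.inl ?_⟩
    apply Subtype.ext
    rw [h1, rv_val, kOf_bt (by norm_num), dec_rn_zero]
    rfl

/-! ### The action -/

/-- The action on words. -/
noncomputable def Ph (g : Co0) (x : V) : V :=
  Classical.epsilon fun z => g • rv x = rv z ∨ g • rv x = - rv z

theorem Ph_spec {g : Co0} (hg : g ∈ C0) (x : V) : g • rv x = rv (Ph g x) ∨ g • rv x = - rv (Ph g x) :=
  Classical.epsilon_spec (p := fun z => g • rv x = rv z ∨ g • rv x = - rv z)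
    (exists_rep ((rt_rv x).smul hg))

theorem Ph_eq {g : Co0} (hg : g ∈ C0) {x z : V} (h : g • rv x = rv z ∨ g • rv x = - rv z) : Ph g x = z := by
  apply rv_unique
  rcases Ph_spec hg x with h1 | h1 <;> rcases h with h2 | h2
  · exact Or.inl (h1.symm.trans h2)
  · exact Or.inr (h1.symm.trans h2)
  · exact Or.inr (by rw [← neg_eq_iff_eq_neg, ← h1, h2])
  · exact Or.inl (neg_injective (h1.symm.trans h2))

theorem Ph_one (x : V) : Ph 1 x = x := Ph_eq (C0.one_mem) (Or.inl rfl)

theorem Ph_mul {g h : Co0} (hg : g ∈ C0) (hh : h ∈ C0) (x : V) : Ph (g * h) x = Ph g (Ph h x) := by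
  apply Ph_eq (C0.mul_mem hg hh)
  rw [mul_smul']
  rcases Ph_spec hh x with h1 | h1 <;> rcases Ph_spec hg (Ph h x) with h2 | h2
  · left
    rw [h1, h2]
  · right
    rw [h1, h2]
  · right
    rw [h1, smul_neg, h2]
  · left
    rw [h1, smul_neg, h2, neg_neg]

theorem dot_neg_val_left (a b : L) : dotInt (-a).1 b.1 = - dotInt a.1 b.1 := by
  show dotInt (-(a.1)) b.1 = _
  exact dotInt_neg_left _ _

theorem dot_neg_val_right (a b : L) : dotInt a.1 (-b).1 = - dotInt a.1 b.1 := by
  show dotInt a.1 (-(b.1)) = _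
  exact dotInt_neg_right _ _

theorem Ph_form {g : Co0} (hg : g ∈ C0) (x z : V) :
    sympForm 3 (ZMod 2) (Ph g x) (Ph g z) = sympForm 3 (ZMod 2) x z := by
  apply form_eq
  have h1 := smul_dot g (rv x) (rv z)
  rcases Ph_spec hg x with h2 | h2 <;> rcases Ph_spec hg z with h3 | h3 <;> rw [h2, h3] at h1
  · exact Or.inl h1
  · right
    rw [dot_neg_val_right] at h1
    rw [← h1, neg_neg]
  · right
    rw [dot_neg_val_left] at h1
    rw [← h1, neg_neg]
  · left
    rw [dot_neg_val_left, dot_neg_val_right, neg_neg] at h1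
    exact h1

/-- The homomorphism to the symplectic group. -/
noncomputable def psi0 : C0 →* SpG :=
  spHom (fun g : C0 => Ph g.1) (fun x => Ph_one x) (fun g h x => Ph_mul g.2 h.2 x)
    (fun g x y => Ph_form g.2 x y)

theorem psi0_mulVec (g : C0) (x : V) : (psi0 g).1 *ᵥ x = Ph g.1 x :=
  spHom_mulVec _ _ _ _ g x

theorem psi0_eq_one_iff (g : C0) : psi0 g = 1 ↔ ∀ x, Ph g.1 x = x :=
  spHom_eq_one_iff _ _ _ _ g

end Cfsg.Agent.Lib.Leech.C2iRoot
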