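import Cfsg.Agent.Lib.Classical.SympForm
import Cfsg.Agent.Lib.Classical.SympCount
import Cfsg.Agent.Lib.Classical.SympSimple
import Cfsg.Agent.Lib.Core.Basic
import Cfsg.Prelude.Def_CaseTheorems
import Cfsg.Prelude.Def_Transfer
import Cfsg.Prelude.Def_Solvable

/-!
# The symplectic group of degree 6 over the field of two elements

Form preserving maps of the standard space are linear, so a group acting by such maps has a homomorphism
to the symplectic group.  Moreover the group has no nontrivial normal 2-subgroup: so the 2-core of a group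
mapping onto it is the kernel as soon as the kernel is a 2-group.
-/

set_option autoImplicit false

namespace Cfsg.Agent.Lib.Leech.C2iSp

open Cfsg Matrix Cfsg.Agent.Lib.Classical.SympForm

/-- The space. -/
abbrev V : Type := Fin 3 ⊕ Fin 3 → ZMod 2

/-- The group. -/
abbrev SpG : Type := Matrix.symplecticGroup (Fin 3) (ZMod 2)

/-- A form preserving surjection is additive. -/
theorem add_of_form {φ : V → V} (hs : Function.Surjective φ)
    (hf : ∀ x y, sympForm 3 (ZMod 2) (φ x) (φ y) = sympForm 3 (ZMod 2) x y) (x y : V) :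
    φ (x + y) = φ x + φ y := by
  have hnd := (sympBilin_nondegenerate (m := 3) (F := ZMod 2))
  have h1 : ∀ z : V, sympBilin 3 (ZMod 2) (φ (x + y) - φ x - φ y) z = 0 := by
    intro z
    obtain ⟨w, rfl⟩ := hs z
    have e1 : sympBilin 3 (ZMod 2) (x + y) w = sympBilin 3 (ZMod 2) x w + sympBilin 3 (ZMod 2) y w := by
      rw [map_add]
      rfl
    simp only [sympBilin_apply] at e1
    simp only [map_sub, LinearMap.sub_apply, sympBilin_apply, hf]
    rw [e1]
    ring
  have h2 : φ (x + y) - φ x - φ y = 0 := hnd.1 _ h1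
  have h3 : φ (x + y) - φ x = φ y := sub_eq_zero.1 h2
  rw [← h3]
  abel

/-- The matrix of a map. -/
def matOf (φ : V → V) : Matrix (Fin 3 ⊕ Fin 3) (Fin 3 ⊕ Fin 3) (ZMod 2) :=
  Matrix.of fun i j => φ (Pi.single j 1) i

theorem mulVec_matOf {φ : V → V} (hadd : ∀ x y, φ (x + y) = φ x + φ y) (x : V) :
    matOf φ *ᵥ x = φ x := by
  let f : V →+ V := AddMonoidHom.mk' φ hadd
  have hs : ∀ (c : ZMod 2) (v : V), φ (c • v) = c • φ v := by
    intro c v
    fin_cases c
    · show φ ((0 : ZMod 2) • v) = (0 : ZMod 2) • φ v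
      rw [zero_smul, zero_smul]
      exact f.map_zero
    · show φ ((1 : ZMod 2) • v) = (1 : ZMod 2) • φ v
      rw [one_smul, one_smul]
  have hx : x = ∑ j, x j • (Pi.single j 1 : V) := by
    funext i
    simp [Finset.sum_apply, Pi.single_apply]
  have h1 : φ x = ∑ j, x j • φ (Pi.single j 1 : V) := by
    conv_lhs => rw [hx]
    have := map_sum f (fun j => x j • (Pi.single j 1 : V)) Finset.univ
    simp only [f, AddMonoidHom.mk'_apply] at this
    rw [this]
    exact Finset.sum_congr rfl fun j _ => hs _ _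
  rw [h1]
  funext i
  simp only [Matrix.mulVec, dotProduct, matOf, Matrix.of_apply, Finset.sum_apply, Pi.smul_apply,
    smul_eq_mul]
  exact Finset.sum_congr rfl fun j _ => mul_comm _ _

theorem matOf_mem {φ : V → V} (hs : Function.Surjective φ)
    (hf : ∀ x y, sympForm 3 (ZMod 2) (φ x) (φ y) = sympForm 3 (ZMod 2) x y) :
    matOf φ ∈ Matrix.symplecticGroup (Fin 3) (ZMod 2) := by
  apply Cfsg.Agent.Lib.Classical.SympCount.mem_symplecticGroup_of_basis
  intro k l
  rw [mulVec_matOf (add_of_form hs hf), mulVec_matOf (add_of_form hs hf), hf,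
    Cfsg.Agent.Lib.Classical.SympCount.sympForm_single_single]

section Hom

variable {C : Type*} [Group C] (Φ : C → V → V) (h1 : ∀ x, Φ 1 x = x)
  (hmul : ∀ g h x, Φ (g * h) x = Φ g (Φ h x))
  (hf : ∀ g x y, sympForm 3 (ZMod 2) (Φ g x) (Φ g y) = sympForm 3 (ZMod 2) x y)

include h1 hmul in
theorem surj_Phi (g : C) : Function.Surjective (Φ g) := fun x =>
  ⟨Φ g⁻¹ x, by rw [← hmul, mul_inv_cancel, h1]⟩

/-- The homomorphism to the symplectic group. -/
noncomputable def spHom : C →* SpG where
  toFun g := ⟨matOf (Φ g), matOf_mem (surj_Phi Φ h1 hmul g) (hf g)⟩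
  map_one' := by
    apply Subtype.ext
    show matOf (Φ 1) = 1
    ext i j
    simp only [matOf, Matrix.of_apply, h1, Pi.single_apply, Matrix.one_apply]
  map_mul' g h := by
    apply Subtype.ext
    show matOf (Φ (g * h)) = matOf (Φ g) * matOf (Φ h)
    ext i j
    have h3 : (matOf (Φ g) * matOf (Φ h)) i j = (matOf (Φ g) *ᵥ (matOf (Φ h) *ᵥ Pi.single j 1)) i := by
      rw [Matrix.mulVec_mulVec]
      simp
    rw [h3, mulVec_matOf (add_of_form (surj_Phi Φ h1 hmul h) (hf h)),
      mulVec_matOf (add_of_form (surj_Phi Φ h1 hmul g) (hf g))]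
    simp only [matOf, Matrix.of_apply, hmul]

theorem spHom_mulVec (g : C) (x : V) : (spHom Φ h1 hmul hf g).1 *ᵥ x = Φ g x :=
  mulVec_matOf (add_of_form (surj_Phi Φ h1 hmul g) (hf g)) x

theorem spHom_eq_one_iff (g : C) : spHom Φ h1 hmul hf g = 1 ↔ ∀ x, Φ g x = x := by
  constructor
  · intro h x
    rw [← spHom_mulVec Φ h1 hmul hf g x, h]
    simp
  · intro h
    apply Subtype.ext
    show matOf (Φ g) = 1
    ext i j
    simp only [matOf, Matrix.of_apply, h, Pi.single_apply, Matrix.one_apply]

end Hom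

/-! ### Normal 2-subgroups -/

instance : Finite SpG := inferInstance

theorem card_ZMod2 : Nat.card (ZMod 2) = 2 := by
  simp [Nat.card_eq_fintype_card]

theorem card_SpG : Nat.card SpG = 1451520 := by
  have := Cfsg.Agent.Lib.Classical.SympCount.card_symplecticGroup (m := 3) card_ZMod2 (F := ZMod 2)
  rw [this]
  norm_num [Finset.prod_range_succ]

theorem center_SpG : Subgroup.center SpG = ⊥ := by
  rw [eq_bot_iff]
  intro A hA
  have h := (Cfsg.Agent.Lib.Classical.SympSimple.mem_center_symplecticGroup_iff (m := 3) (F := ZMod 2)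
    (by norm_num) A).1 hA
  rcases h with h | h
  · exact h
  · rw [Subgroup.mem_bot, h]
    apply Subtype.ext
    show (-1 : Matrix (Fin 3 ⊕ Fin 3) (Fin 3 ⊕ Fin 3) (ZMod 2)) = 1
    ext i j
    simp only [Matrix.neg_apply, Matrix.one_apply]
    split_ifs <;> decide

theorem simple_SpG : IsSimpleGroup SpG := by
  have h := Cfsg.Agent.Lib.Classical.SympSimple.isSimpleGroup_PSp (m := 3) (F := ZMod 2) (by norm_num)
    (by norm_num)
  have e : SpG ≃* Cfsg.PSp 3 (ZMod 2) :=
    (QuotientGroup.quotientBot (G := SpG)).symm.trans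
      (QuotientGroup.quotientMulEquivOfEq center_SpG.symm)
  exact e.isSimpleGroup

theorem normal_two (N : Subgroup SpG) (hN : N.Normal) (hp : IsPGroup 2 N) : N = ⊥ := by
  have := simple_SpG
  rcases hN.eq_bot_or_eq_top with h | h
  · exact h
  · exfalso
    rw [h] at hp
    obtain ⟨k, hk⟩ := IsPGroup.iff_card.1 hp
    rw [Subgroup.card_top, card_SpG] at hk
    have h3 : (3 : ℕ) ∣ 2 ^ k := by
      rw [← hk]
      norm_num
    have := Nat.Prime.dvd_of_dvd_pow Nat.prime_three h3
    norm_num at this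

/-- The 2-core of a group mapping onto the group. -/
theorem pCore_eq_ker {C : Type*} [Group C] [Finite C] (ψ : C →* SpG) (hs : Function.Surjective ψ)
    (hp : IsPGroup 2 ψ.ker) : Cfsg.pCore 2 C = ψ.ker := by
  apply le_antisymm
  · have h1 : (Cfsg.pCore 2 C).map ψ = ⊥ := by
      apply normal_two
      · exact Subgroup.Normal.map (Cfsg.pCore_normal 2 C) ψ hs
      · exact IsPGroup.map Cfsg.Agent.Lib.Core.Basic.pCore_isPGroup ψ
    exact (Subgroup.map_le_iff_le_comap.1 (le_of_eq h1)).trans (by
      intro x hx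
      simpa using hx)
  · exact Cfsg.Agent.Lib.Core.Basic.le_pCore inferInstance hp

end Cfsg.Agent.Lib.Leech.C2iSp
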