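import Cfsg.Agent.Lib.Leech.C2iData

/-!
# Tables for the 63 pairs of minimal vectors
-/

set_option autoImplicit false

namespace Cfsg.Agent.Lib.Leech.C2iTab

open Cfsg Cfsg.Spor Matrix Cfsg.Agent.Lib.Golay.Core Cfsg.Agent.Lib.Golay.Perm Cfsg.Agent.Lib.Golay.M24
  Cfsg.Agent.Lib.Leech.Basic Cfsg.Agent.Lib.Leech.Lat Cfsg.Agent.Lib.Leech.Mon
  Cfsg.Agent.Lib.Leech.Packed Cfsg.Agent.Lib.Leech.Vec Cfsg.Agent.Lib.Leech.Cert
  Cfsg.Agent.Lib.Leech.Order Cfsg.Agent.Lib.Leech.Word Cfsg.Agent.Lib.Leech.Co1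
  Cfsg.Agent.Lib.Leech.NFBase Cfsg.Agent.Lib.Leech.OutCo1Base Cfsg.Agent.Lib.Leech.C2iData
  Cfsg.Agent.Lib.Leech.C2iSp Cfsg.Agent.Lib.Classical.SympForm

/-! ### Tables -/

theorem rn_inL : ∀ k < 64, inL (rn k) = true := by decide +kernel
theorem rn_rm : ∀ k < 64, ∀ i < 24, img (rn k) i + img (rm k) i = 32 := by decide +kernel
theorem rn_zero : ∀ i < 24, img (rn 0) i = 16 := by decide +kernel
theorem rn_lt : ∀ k < 64, rn k < 2 ^ 120 ∧ rm k < 2 ^ 120 := by decide +kernel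
theorem rn_norm : ∀ k < 64, k ≠ 0 → dotIs (rn k) (rn k) 32 0 = true := by decide +kernel
theorem rn_supp : ∀ k < 64, ∀ i < 24, Oc.testBit i = true → img (rn k) i = 16 := by decide +kernel
theorem rn_sum : ∀ k < 64, img (rn k) 23 + img (rn k) 0 = 32 := by decide +kernel
theorem rn_dist : ∀ k < 64, ∀ l < 64, k ≠ l → rn k ≠ rn l ∧ rn k ≠ rm l := by decide +kernel

theorem dec_rm {k : ℕ} (hk : k < 64) : dec (rm k) = - dec (rn k) := by
  funext p
  have h1 := rn_rm k hk (idx p) (idx_lt p)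
  show ((img (rm k) (idx p) : ℕ) : ℤ) - 16 = -(((img (rn k) (idx p) : ℕ) : ℤ) - 16)
  omega

theorem dec_rn_zero : dec (rn 0) = 0 := by
  funext p
  have h1 := rn_zero (idx p) (idx_lt p)
  show ((img (rn 0) (idx p) : ℕ) : ℤ) - 16 = 0
  omega

/-! ### Binary words -/

/-- The word of a number. -/
def bt (k : ℕ) : V :=
  Sum.elim (fun i => ((bit k (i : ℕ) : ℕ) : ZMod 2)) (fun i => ((bit k ((i : ℕ) + 3) : ℕ) : ZMod 2))

/-- The number of a word. -/
def nm (x : V) : ℕ :=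
  (x (Sum.inl 0)).val + 2 * (x (Sum.inl 1)).val + 4 * (x (Sum.inl 2)).val +
    8 * (x (Sum.inr 0)).val + 16 * (x (Sum.inr 1)).val + 32 * (x (Sum.inr 2)).val

theorem nm_bt : ∀ k < 64, nm (bt k) = k := by decide +kernel

theorem bt_inj {k l : ℕ} (hk : k < 64) (hl : l < 64) (h : bt k = bt l) : k = l := by
  rw [← nm_bt k hk, ← nm_bt l hl, h]

theorem bt_bij : Function.Bijective (fun k : Fin 64 => bt k.1) := by
  rw [Fintype.bijective_iff_injective_and_card]
  refine ⟨fun a b h => Fin.ext (bt_inj a.2 b.2 h), ?_⟩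
  simp

/-- The words and the numbers. -/
noncomputable def e64 : Fin 64 ≃ V := Equiv.ofBijective _ bt_bij

/-- The number of a word. -/
noncomputable def kOf (x : V) : ℕ := (e64.symm x).1

theorem kOf_lt (x : V) : kOf x < 64 := (e64.symm x).2

theorem bt_kOf (x : V) : bt (kOf x) = x := e64.apply_symm_apply x

theorem kOf_bt {k : ℕ} (hk : k < 64) : kOf (bt k) = k :=
  bt_inj (kOf_lt _) hk (bt_kOf _)

theorem exists_bt (x : V) : ∃ k < 64, x = bt k := ⟨kOf x, kOf_lt x, (bt_kOf x).symm⟩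

/-- The form on numbers. -/
def omN (k l : ℕ) : ℕ :=
  (bit k 3 * bit l 0 + bit k 4 * bit l 1 + bit k 5 * bit l 2 + bit k 0 * bit l 3 + bit k 1 * bit l 4 +
    bit k 2 * bit l 5) % 2

theorem form_bt (k l : ℕ) : sympForm 3 (ZMod 2) (bt k) (bt l) = ((omN k l : ℕ) : ZMod 2) := by
  rw [sympForm_eq_sum, Fin.sum_univ_three]
  unfold omN
  rw [ZMod.natCast_mod]
  simp only [bt, Sum.elim_inl, Sum.elim_inr, Fin.val_zero, Fin.val_one, Fin.val_two]
  push_cast
  simp only [CharTwo.sub_eq_add]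
  ring

theorem omN_lt (k l : ℕ) : omN k l < 2 := Nat.mod_lt _ (by norm_num)

theorem val_form (k l : ℕ) : (sympForm 3 (ZMod 2) (bt k) (bt l)).val = omN k l := by
  rw [form_bt, ZMod.val_natCast, Nat.mod_eq_of_lt (omN_lt k l)]

theorem form_table : ∀ k < 64, ∀ l < 64,
    (dotV (rn k) (rn l) + 16 * (sumD (rn k) 24 + sumD (rn l) 24)) % 32 = 16 * omN k l := by
  decide +kernel

theorem dot_table {k l : ℕ} (hk : k < 64) (hl : l < 64) :
    (32 : ℤ) ∣ dotInt (dec (rn k)) (dec (rn l)) - 16 * (omN k l : ℤ) := by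
  have h1 := form_table k hk l hl
  rw [dot_dec]
  omega

/-! ### The representatives -/

/-- The representative of a word. -/
noncomputable def rv (x : V) : L := ⟨dec (rn (kOf x)), mem_of_inL (rn_inL _ (kOf_lt x))⟩

theorem rv_val (x : V) : (rv x).1 = dec (rn (kOf x)) := rfl

theorem rv_unique {z z' : V} (h : rv z = rv z' ∨ rv z = - rv z') : z = z' := by
  by_contra hne
  have hk : kOf z ≠ kOf z' := by
    intro h1
    apply hne
    rw [← bt_kOf z, ← bt_kOf z', h1]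
  have h1 := rn_dist _ (kOf_lt z) _ (kOf_lt z') hk
  have hl := rn_lt _ (kOf_lt z)
  have hl' := rn_lt _ (kOf_lt z')
  rcases h with h | h
  · exact h1.1 (dec_inj hl.1 hl'.1 (congrArg Subtype.val h))
  · have h2 : dec (rn (kOf z)) = dec (rm (kOf z')) := by
      rw [dec_rm (kOf_lt z')]
      exact congrArg Subtype.val h
    exact h1.2 (dec_inj hl.1 hl'.2 h2)

theorem dot_form (x z : V) :
    (32 : ℤ) ∣ dotInt (rv x).1 (rv z).1 - 16 * ((sympForm 3 (ZMod 2) x z).val : ℤ) := by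
  have h := dot_table (kOf_lt x) (kOf_lt z)
  have h1 := val_form (kOf x) (kOf z)
  rw [bt_kOf, bt_kOf] at h1
  rw [h1]
  exact h

theorem form_eq {x z x' z' : V}
    (h : dotInt (rv x).1 (rv z).1 = dotInt (rv x').1 (rv z').1 ∨
      dotInt (rv x).1 (rv z).1 = - dotInt (rv x').1 (rv z').1) :
    sympForm 3 (ZMod 2) x z = sympForm 3 (ZMod 2) x' z' := by
  have h1 := dot_form x z
  have h2 := dot_form x' z'
  have h3 : (sympForm 3 (ZMod 2) x z).val < 2 := ZMod.val_lt _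
  have h4 : (sympForm 3 (ZMod 2) x' z').val < 2 := ZMod.val_lt _
  apply ZMod.val_injective 2
  rcases h with h | h <;> omega

/-! ### The enumeration -/

/-- The square of the value of a digit. -/
def sqD (d : ℕ) : ℕ := Nat.sub (Nat.add (Nat.mul 4 (Nat.mul d d)) 16) (Nat.mul 16 d)

theorem sqD_eq {d : ℕ} (hd : d < 5) : ((sqD d : ℕ) : ℤ) = (2 * (d : ℤ) - 4) ^ 2 := by
  interval_cases d <;> rfl

/-- The digits of a vector supported on the octad. -/
def digF (a b1 b2 b3 b5 b14 b17 i : ℕ) : ℕ :=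
  if i = 23 then 12 + 2 * a else if i = 0 then 20 - 2 * a else if i = 1 then 12 + 2 * b1
  else if i = 2 then 12 + 2 * b2 else if i = 3 then 12 + 2 * b3 else if i = 5 then 12 + 2 * b5
  else if i = 14 then 12 + 2 * b14 else if i = 17 then 12 + 2 * b17 else 16

/-- Is one of the stored vectors. -/
def anyR (n : ℕ) : ℕ → Bool :=
  fun K => Nat.rec false (fun k ih => or (or (Nat.beq n (rn k)) (Nat.beq n (rm k))) ih) K

theorem anyR_spec {n K : ℕ} (h : anyR n K = true) : ∃ k < K, n = rn k ∨ n = rm k := by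
  induction K with
  | zero => exact absurd h (by simp [anyR])
  | succ K ih =>
    have h1 : (or (or (Nat.beq n (rn K)) (Nat.beq n (rm K))) (anyR n K)) = true := h
    simp only [Bool.or_eq_true] at h1
    rcases h1 with (h1 | h1) | h1
    · exact ⟨K, Nat.lt_succ_self _, Or.inl (Nat.eq_of_beq_eq_true h1)⟩
    · exact ⟨K, Nat.lt_succ_self _, Or.inr (Nat.eq_of_beq_eq_true h1)⟩
    · obtain ⟨k, hk, h2⟩ := ih h1
      exact ⟨k, Nat.lt_succ_of_lt hk, h2⟩

/-- The test of one vector. -/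
def chk (a b1 b2 b3 b5 b14 b17 : ℕ) : Bool :=
  cond (Nat.beq (Nat.add (Nat.mul 2 (sqD a)) (Nat.add (sqD b1) (Nat.add (sqD b2) (Nat.add (sqD b3)
      (Nat.add (sqD b5) (Nat.add (sqD b14) (sqD b17))))))) 32)
    (cond (inL (pack (digF a b1 b2 b3 b5 b14 b17) 24)) (anyR (pack (digF a b1 b2 b3 b5 b14 b17) 24) 64) true)
    true

/-- All the tests. -/
def enumAll : Bool :=
  allUpTo (fun a => allUpTo (fun b1 => allUpTo (fun b2 => allUpTo (fun b3 => allUpTo (fun b5 =>
    allUpTo (fun b14 => allUpTo (fun b17 => chk a b1 b2 b3 b5 b14 b17) 5) 5) 5) 5) 5) 5) 5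

theorem enumAll_true : enumAll = true := by decide +kernel

end Cfsg.Agent.Lib.Leech.C2iTab
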