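import Cfsg.Agent.Lib.Leech.Count

/-!
# The shapes of the lattice vectors of sum of squares 48
-/

set_option autoImplicit false

namespace Cfsg.Agent.Lib.Leech.Census

open Cfsg Cfsg.Agent.Lib.Golay.Core Cfsg.Agent.Lib.Leech.Basic Cfsg.Agent.Lib.Leech.Lat
  Cfsg.Agent.Lib.Leech.Count

/-- `{0, ±2}`. -/
def V2 : Finset ℤ := {0, 2, -2}
/-- `{±1, ±3}`. -/
def V3 : Finset ℤ := {1, -1, 3, -3}
/-- `{0, ±2, ±4}`. -/
def V4 : Finset ℤ := {0, 2, -2, 4, -4}
/-- `{±1, ±5}`. -/
def V5 : Finset ℤ := {1, -1, 5, -5}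

theorem cntV2 : cnt V2 48 = 5275648 := by decide +kernel
theorem cntV3 : cnt V3 48 = 8290304 := by decide +kernel
theorem cntV4 : cnt V4 48 = 8384512 := by decide +kernel
theorem cntV5 : cnt V5 48 = 98304 := by decide +kernel

theorem parity_same {x : GolayPt → ℤ} (hx : x ∈ leechLattice) (i j : GolayPt) :
    x i % 2 = x j % 2 := by
  rw [mem_leechLattice_iff, mem_leechSet_iff] at hx
  obtain ⟨m, hm, -, -⟩ := hx
  have h1 := hm i
  have h2 := hm j
  unfold Int.ModEq at h1 h2
  omega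

theorem sum_GolayPt_const (a : ℤ) : ∑ _i : GolayPt, a = 24 * a := by
  rw [Finset.sum_const]
  have h3 : (Finset.univ : Finset GolayPt).card = 24 := by simpa using card_golayPt
  rw [h3]
  simp

/-- Subsets: `∑_{S} + ∑_{Sᶜ}`. -/
theorem sum_sq_sub (x : GolayPt → ℤ) (S : Finset GolayPt) :
    ∑ m ∈ S, (x m ^ 2 - 1) + ∑ m ∈ Finset.univ \ S, (x m ^ 2 - 1) = sqNorm x - 24 := by
  rw [add_comm, Finset.sum_sdiff (Finset.subset_univ S), Finset.sum_sub_distrib, sum_GolayPt_const]
  unfold sqNorm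
  ring

theorem one_le_sq_of_odd {a : ℤ} (h : a % 2 = 1) : 1 ≤ a ^ 2 := by
  have : a ≠ 0 := by
    rintro rfl
    norm_num at h
  exact Int.one_le_abs this |> fun h1 => by
    have h2 : a ^ 2 = |a| ^ 2 := (sq_abs a).symm
    nlinarith

theorem eq_of_sq_eq_one {a : ℤ} (h : a ^ 2 = 1) : a = 1 ∨ a = -1 := by
  have : (a - 1) * (a + 1) = 0 := by ring_nf; omega
  rcases mul_eq_zero.1 this with h1 | h1
  · left; omega
  · right; omega

theorem abs_three_sq {a : ℤ} (h : |a| = 3) : a ^ 2 = 9 := by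
  rw [← sq_abs, h]; norm_num

theorem abs_five_sq {a : ℤ} (h : |a| = 5) : a ^ 2 = 25 := by
  rw [← sq_abs, h]; norm_num

theorem abs_four_sq {a : ℤ} (h : |a| = 4) : a ^ 2 = 16 := by
  rw [← sq_abs, h]; norm_num

/-- The vectors with three coordinates `±3`. -/
theorem set3 : {x : GolayPt → ℤ | x ∈ leechLattice ∧ sqNorm x = 48 ∧ ∃ i j k, i ≠ j ∧ j ≠ k ∧ i ≠ k ∧
      |x i| = 3 ∧ |x j| = 3 ∧ |x k| = 3} =
    {x | x ∈ leechLattice ∧ (∀ i, x i ∈ V3) ∧ sqNorm x = (48 : ℕ)} := by
  ext x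
  simp only [Set.mem_setOf_eq]
  constructor
  · rintro ⟨hx, hn, i, j, k, hij, hjk, hik, hi, hj, hk⟩
    refine ⟨hx, fun l => ?_, by simpa using hn⟩
    have hodd : ∀ m, x m % 2 = 1 := by
      intro m
      rw [parity_same hx m i]
      rcases abs_cases (x i) with ⟨h, -⟩ | ⟨h, -⟩ <;> omega
    have hS := sum_sq_sub x {i, j, k}
    rw [hn, Finset.sum_insert (by simp [hij, hik]), Finset.sum_insert (by simpa using hjk),
      Finset.sum_singleton, abs_three_sq hi, abs_three_sq hj, abs_three_sq hk] at hS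
    have h0 : ∑ m ∈ Finset.univ \ ({i, j, k} : Finset GolayPt), (x m ^ 2 - 1) = 0 := by omega
    have h1 := (Finset.sum_eq_zero_iff_of_nonneg (fun m _ => by
      have := one_le_sq_of_odd (hodd m)
      omega)).1 h0
    by_cases hl : l ∈ ({i, j, k} : Finset GolayPt)
    · simp only [Finset.mem_insert, Finset.mem_singleton] at hl
      have h3 : |x l| = 3 := by
        rcases hl with rfl | rfl | rfl <;> assumption
      unfold V3
      simp only [Finset.mem_insert, Finset.mem_singleton]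
      rcases abs_cases (x l) with ⟨h, -⟩ | ⟨h, -⟩ <;> omega
    · have h2 := h1 l (by simp only [Finset.mem_sdiff, Finset.mem_univ, true_and]; exact hl)
      have h3 : x l ^ 2 = 1 := by omega
      unfold V3
      simp only [Finset.mem_insert, Finset.mem_singleton]
      rcases eq_of_sq_eq_one h3 with h | h
      · left; exact h
      · right; left; exact h
  · rintro ⟨hx, hV, hn⟩
    refine ⟨hx, by simpa using hn, ?_⟩
    have hnn : sqNorm x = 48 := by simpa using hn
    -- count the coordinates `±3`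
    let S : Finset GolayPt := Finset.univ.filter fun i => |x i| = 3
    have hS := sum_sq_sub x S
    have h1 : ∑ m ∈ S, (x m ^ 2 - 1) = 8 * (S.card : ℤ) := by
      have : ∀ m ∈ S, x m ^ 2 - 1 = 8 := fun m hm => by
        have := abs_three_sq (Finset.mem_filter.1 hm).2
        omega
      rw [Finset.sum_congr rfl this, Finset.sum_const]
      simp [mul_comm]
    have h2 : ∑ m ∈ Finset.univ \ S, (x m ^ 2 - 1) = 0 := by
      apply Finset.sum_eq_zero
      intro m hm
      have h3 : ¬ |x m| = 3 := by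
        simp only [Finset.mem_sdiff, Finset.mem_univ, true_and, S, Finset.mem_filter, not_and] at hm
        exact hm
      have h4 := hV m
      unfold V3 at h4
      simp only [Finset.mem_insert, Finset.mem_singleton] at h4
      rcases h4 with h | h | h | h
      · rw [h]; norm_num
      · rw [h]; norm_num
      · rw [h] at h3; norm_num at h3
      · rw [h] at h3; norm_num at h3
    rw [h1, h2, hnn] at hS
    have h3 : S.card = 3 := by omega
    obtain ⟨i, j, k, hij, hik, hjk, hS3⟩ := Finset.card_eq_three.1 h3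
    have hi : i ∈ S := by rw [hS3]; simp
    have hj : j ∈ S := by rw [hS3]; simp
    have hk : k ∈ S := by rw [hS3]; simp
    exact ⟨i, j, k, hij, hjk, hik, (Finset.mem_filter.1 hi).2, (Finset.mem_filter.1 hj).2,
      (Finset.mem_filter.1 hk).2⟩

/-- The vectors with a coordinate `±5`. -/
theorem set5 : {x : GolayPt → ℤ | x ∈ leechLattice ∧ sqNorm x = 48 ∧ ∃ i, |x i| = 5} =
    {x | x ∈ leechLattice ∧ (∀ i, x i ∈ V5) ∧ sqNorm x = (48 : ℕ)} := by
  ext x
  simp only [Set.mem_setOf_eq]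
  constructor
  · rintro ⟨hx, hn, i, hi⟩
    refine ⟨hx, fun l => ?_, by simpa using hn⟩
    have hodd : ∀ m, x m % 2 = 1 := by
      intro m
      rw [parity_same hx m i]
      rcases abs_cases (x i) with ⟨h, -⟩ | ⟨h, -⟩ <;> omega
    have hS := sum_sq_sub x {i}
    rw [hn, Finset.sum_singleton, abs_five_sq hi] at hS
    have h0 : ∑ m ∈ Finset.univ \ ({i} : Finset GolayPt), (x m ^ 2 - 1) = 0 := by omega
    have h1 := (Finset.sum_eq_zero_iff_of_nonneg (fun m _ => by
      have := one_le_sq_of_odd (hodd m)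
      omega)).1 h0
    unfold V5
    simp only [Finset.mem_insert, Finset.mem_singleton]
    by_cases hl : l = i
    · subst hl
      rcases abs_cases (x l) with ⟨h, -⟩ | ⟨h, -⟩ <;> omega
    · have h2 := h1 l (by simpa using hl)
      have h3 : x l ^ 2 = 1 := by omega
      rcases eq_of_sq_eq_one h3 with h | h
      · left; exact h
      · right; left; exact h
  · rintro ⟨hx, hV, hn⟩
    refine ⟨hx, by simpa using hn, ?_⟩
    have hnn : sqNorm x = 48 := by simpa using hn
    by_contra hcon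
    push Not at hcon
    have h1 : ∀ i, x i ^ 2 = 1 := by
      intro i
      have h4 := hV i
      have h5 := hcon i
      unfold V5 at h4
      simp only [Finset.mem_insert, Finset.mem_singleton] at h4
      rcases h4 with h | h | h | h
      · rw [h]; norm_num
      · rw [h]; norm_num
      · rw [h] at h5; norm_num at h5
      · rw [h] at h5; norm_num at h5
    have h2 : sqNorm x = 24 := by
      unfold sqNorm
      rw [Finset.sum_congr rfl fun i _ => h1 i, sum_GolayPt_const]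
      norm_num
    omega

theorem mem_V4_of {a : ℤ} (h2 : a % 2 = 0) (h : a ^ 2 ≤ 32) : a ∈ V4 := by
  have h3 : |a| ≤ 5 := by
    by_contra hc
    have h4 : 6 ≤ |a| := by omega
    have h5 : a ^ 2 = |a| ^ 2 := (sq_abs _).symm
    nlinarith
  unfold V4
  simp only [Finset.mem_insert, Finset.mem_singleton]
  rcases abs_cases a with ⟨h4, h5⟩ | ⟨h4, h5⟩ <;> omega

/-- The vectors with a coordinate `±4`. -/
theorem set4 : {x : GolayPt → ℤ | x ∈ leechLattice ∧ sqNorm x = 48 ∧ ∃ i, |x i| = 4} =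
    {x | x ∈ leechLattice ∧ (∀ i, x i ∈ V4) ∧ sqNorm x = (48 : ℕ)} \
      {x | x ∈ leechLattice ∧ (∀ i, x i ∈ V2) ∧ sqNorm x = (48 : ℕ)} := by
  ext x
  simp only [Set.mem_setOf_eq, Set.mem_diff, not_and]
  constructor
  · rintro ⟨hx, hn, i, hi⟩
    refine ⟨⟨hx, fun l => ?_, by simpa using hn⟩, fun _ h => absurd (h i) ?_⟩
    · have heven : x l % 2 = 0 := by
        rw [parity_same hx l i]
        rcases abs_cases (x i) with ⟨h, -⟩ | ⟨h, -⟩ <;> omega
      by_cases hl : l = i
      · subst hl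
        apply mem_V4_of heven
        rw [abs_four_sq hi]
        norm_num
      · apply mem_V4_of heven
        have h1 : ∑ m ∈ ({i, l} : Finset GolayPt), x m ^ 2 ≤ sqNorm x :=
          Finset.sum_le_sum_of_subset_of_nonneg (Finset.subset_univ _) (fun _ _ _ => sq_nonneg _)
        rw [Finset.sum_pair (Ne.symm hl), abs_four_sq hi, hn] at h1
        omega
    · unfold V2
      simp only [Finset.mem_insert, Finset.mem_singleton]
      rcases abs_cases (x i) with ⟨h, -⟩ | ⟨h, -⟩ <;> omega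
  · rintro ⟨⟨hx, hV, hn⟩, h⟩
    refine ⟨hx, by simpa using hn, ?_⟩
    by_contra hcon
    push Not at hcon
    apply h hx _ hn
    intro i
    have h4 := hV i
    have h5 := hcon i
    unfold V4 at h4
    unfold V2
    simp only [Finset.mem_insert, Finset.mem_singleton] at h4 ⊢
    rcases h4 with h | h | h | h | h
    · left; exact h
    · right; left; exact h
    · right; right; exact h
    · rw [h] at h5; norm_num at h5
    · rw [h] at h5; norm_num at h5

/-- The census. -/
theorem census48 : {x : Cfsg.GolayPt → ℤ | x ∈ Cfsg.leechLattice ∧ Cfsg.sqNorm x = 48 ∧ ∀ i, x i = 0 ∨ x i = 2 ∨ x i = -2}.ncard = 5275648 ∧ {x : Cfsg.GolayPt → ℤ | x ∈ Cfsg.leechLattice ∧ Cfsg.sqNorm x = 48 ∧ ∃ i j k, i ≠ j ∧ j ≠ k ∧ i ≠ k ∧ |x i| = 3 ∧ |x j| = 3 ∧ |x k| = 3}.ncard = 8290304 ∧ {x : Cfsg.GolayPt → ℤ | x ∈ Cfsg.leechLattice ∧ Cfsg.sqNorm x = 48 ∧ ∃ i, |x i| = 4}.ncard = 3108864 ∧ {x : Cfsg.GolayPt → ℤ | x ∈ Cfsg.leechLattice ∧ Cfsg.sqNorm x = 48 ∧ ∃ i, |x i| = 5}.ncard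 = 98304 := by
  have c2 : V2.card ≤ 17 ∧ ∀ v ∈ V2, v.natAbs ≤ 8 := by decide +kernel
  have c3 : V3.card ≤ 17 ∧ ∀ v ∈ V3, v.natAbs ≤ 8 := by decide +kernel
  have c4 : V4.card ≤ 17 ∧ ∀ v ∈ V4, v.natAbs ≤ 8 := by decide +kernel
  have c5 : V5.card ≤ 17 ∧ ∀ v ∈ V5, v.natAbs ≤ 8 := by decide +kernel
  have n2 := ncard_eq V2 c2.1 c2.2 48 (by norm_num)
  have n3 := ncard_eq V3 c3.1 c3.2 48 (by norm_num)
  have n4 := ncard_eq V4 c4.1 c4.2 48 (by norm_num)
  have n5 := ncard_eq V5 c5.1 c5.2 48 (by norm_num)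
  rw [cntV2] at n2
  rw [cntV3] at n3
  rw [cntV4] at n4
  rw [cntV5] at n5
  refine ⟨?_, ?_, ?_, ?_⟩
  · rw [← n2]
    congr 1
    ext x
    simp only [Set.mem_setOf_eq, V2, Finset.mem_insert, Finset.mem_singleton]
    constructor
    · rintro ⟨h1, h2, h3⟩
      exact ⟨h1, h3, by simpa using h2⟩
    · rintro ⟨h1, h3, h2⟩
      exact ⟨h1, by simpa using h2, h3⟩
  · rw [set3, n3]
  · have hsub : {x : GolayPt → ℤ | x ∈ leechLattice ∧ (∀ i, x i ∈ V2) ∧ sqNorm x = (48 : ℕ)} ⊆
        {x | x ∈ leechLattice ∧ (∀ i, x i ∈ V4) ∧ sqNorm x = (48 : ℕ)} := by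
      intro x hx
      refine ⟨hx.1, fun i => ?_, hx.2.2⟩
      have := hx.2.1 i
      unfold V2 at this
      unfold V4
      simp only [Finset.mem_insert, Finset.mem_singleton] at this ⊢
      tauto
    have hfin : {x : GolayPt → ℤ | x ∈ leechLattice ∧ (∀ i, x i ∈ V2) ∧ sqNorm x = (48 : ℕ)}.Finite := by
      apply Set.Finite.subset (Fintype.piFinset fun _ : GolayPt => V2).finite_toSet
      intro x hx
      simp only [Finset.mem_coe, Fintype.mem_piFinset]
      exact hx.2.1
    rw [set4, Set.ncard_diff hsub hfin, n4, n2]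
  · rw [set5, n5]

end Cfsg.Agent.Lib.Leech.Census
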