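import Cfsg.Agent.Lib.Leech.CertERefs

/-! # A list of minimal vectors in a configuration: the data -/

set_option autoImplicit false

namespace Cfsg.Agent.Lib.Leech.CertE275B

open Cfsg Cfsg.Agent.Lib.Golay.Core Cfsg.Agent.Lib.Leech.Vec Cfsg.Agent.Lib.Leech.Cert Cfsg.Agent.Lib.Leech.CertData Cfsg.Agent.Lib.Leech.CertBase Cfsg.Agent.Lib.Leech.CertLev Cfsg.Agent.Lib.Leech.CertERefs
  Cfsg.Agent.Lib.Leech.Word Cfsg.Agent.Lib.Leech.Reach

/-- The conditions. -/
def conds : List (ℕ × ℕ × ℕ) := [(nV1, 8, 0), (nXh, 0, 16)]

/-- The vectors fixed. -/
def R : List ℕ := [nV1, nXh]

/-- The table of signed permutations. -/
def tab : ℕ := 256588120223472970749172004008020276510909493299507324099015393482755151604907737900723120397729726041645646045552821490743616741543680921172992529800196278330616825925571856447427093800133886626174850118144103452823637484386819119810663610947715302040817902374397139321849858352879073562950672893285290883067480390478920170928735640870482223215839044441516125232472011414397799000090416761724709793392732421737191381963171592669847161051217825407443670266006788364731405110249460863195833642646186334760880581089936337383460834419825127440268181816030964914487611222418162440271173526475067776843486841549372679444710883011645790269400399768415346158706289909429257705438244654023649578193677435020530312722285384059901325191668366484497392901017977005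9181154609184840747075236335190527919613884354447214563939204857600900385413731293283911953062149589510632993036410431358713425100089261382587652365155394550438696421788454565316915991701376395574027564689090756060133643760503680416955227100806569090081903448678548615871784656958056361325685524408980296739928428631449812408539769931599245128094964959910959024769938969433230751952960839361084095681915445369457263323409612517140883194632453990392144885790489228927215145529633781468256150946960854736923140640276071234283196029400733568835265551205597715021566053646473330716275767825725923280418085345240928583300543888287306753388019757983402465627754470905605268015781930791935349355898992849867688295988923885705841405193378530036508209015162776493899787429665934918956779983997508740356099247506980864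

/-- The length of the table. -/
def NT : ℕ := 36

/-- The words. -/
def words : List (List (ℕ × ℕ)) := [[(801658445479093326844307207118868834, 9014650), (0, 0), (209251178953841716537872306119794020, 15618976), (0, 0), (882987314585372907992270490485605830, 16381099)],
  [(512176769680863069190108246504496802, 4788761), (0, 0), (810717481466691817239404645562189030, 12656663), (0, 0), (877161733279302811650556768670896356, 5000859)]]

/-- The root. -/
def root : ℕ := 728769222282640781454825196982158897

/-- The check of a point. -/
def P : ℕ → ℕ → Bool := pointB (classB 32 conds) root tab NT words

end Cfsg.Agent.Lib.Leech.CertE275B
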