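import Cfsg.Agent.Lib.Leech.CertE7128x0
import Cfsg.Agent.Lib.Leech.CertBase

/-! # A list of minimal vectors in a configuration, with descent -/

set_option autoImplicit false

namespace Cfsg.Agent.Lib.Leech.CertE7128

open Cfsg Cfsg.Agent.Lib.Golay.Core Cfsg.Agent.Lib.Leech.Vec Cfsg.Agent.Lib.Leech.Cert Cfsg.Agent.Lib.Leech.CertData Cfsg.Agent.Lib.Leech.CertBase Cfsg.Agent.Lib.Leech.CertLev Cfsg.Agent.Lib.Leech.CertERefs
  Cfsg.Agent.Lib.Leech.Word Cfsg.Agent.Lib.Leech.Reach
  Cfsg.Agent.Lib.Leech.CertE7128B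

/-- The conditions. -/
abbrev conds : List (ℕ × ℕ × ℕ) := Cfsg.Agent.Lib.Leech.CertE7128B.conds

/-- The vectors fixed. -/
abbrev R : List ℕ := Cfsg.Agent.Lib.Leech.CertE7128B.R

/-- The list of chunks. -/
def L : List Chunk := [Cfsg.Agent.Lib.Leech.CertE7128x0.e0, Cfsg.Agent.Lib.Leech.CertE7128x0.e1, Cfsg.Agent.Lib.Leech.CertE7128x0.e2, Cfsg.Agent.Lib.Leech.CertE7128x0.e3]

theorem all : ∀ e ∈ L, chunkB P e = true := by
  intro e he
  simp only [L, List.mem_cons, List.not_mem_nil, or_false] at he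
  rcases he with rfl | rfl | rfl | rfl
  · exact Cfsg.Agent.Lib.Leech.CertE7128x0.ok0
  · exact Cfsg.Agent.Lib.Leech.CertE7128x0.ok1
  · exact Cfsg.Agent.Lib.Leech.CertE7128x0.ok2
  · exact Cfsg.Agent.Lib.Leech.CertE7128x0.ok3

theorem chain : chainB L 0 1329227995784915872903807060280344576 = true := by decide +kernel

theorem total : totalL L = 7128 := by decide +kernel

theorem card_U : (unionL L).card = 7128 := by
  rw [card_unionL all chain, total]

theorem tab_chk : allUpTo (fun i => validOp (tabP tab i) (tabC tab i) &&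
    R.all (fun r => monCheck (tabP tab i) (tabC tab i) r r)) NT = true := by decide +kernel

theorem tab_in : TabIn (FixG R) tab NT :=
  tabIn_of_check (fun _ _ hv h => opG_mem_FixG hv h) tab_chk

theorem words_chk : words.all (fun w => R.all fun r => runW w r r) = true := by decide +kernel

theorem words_in : ∀ w ∈ words, wG w ∈ FixG R := fun w hw =>
  wG_mem_FixG (List.all_eq_true.1 words_chk w hw)

theorem hR : ∀ c ∈ conds, c.1 ∈ R ∧ dec c.1 ∈ Cfsg.leechLattice := by
  intro c hc
  simp only [conds, Cfsg.Agent.Lib.Leech.CertE7128B.conds, List.mem_cons, List.not_mem_nil, or_false] at hc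
  rcases hc with rfl | rfl
  · exact ⟨by simp [R, Cfsg.Agent.Lib.Leech.CertE7128B.R], nV1_mem⟩
  · exact ⟨by simp [R, Cfsg.Agent.Lib.Leech.CertE7128B.R], nXh_mem⟩

theorem cnt_eq : cntL (condsB conds) L8 = 7128 := by decide +kernel

theorem count_le : {w | Cl 32 conds w}.ncard ≤ (unionL L).card := by
  have h1 := count_child (c0 := [(nV1, 8, 0)]) (c1 := conds) (U := unionL L8) (by
    intro c hc
    simp only [conds, Cfsg.Agent.Lib.Leech.CertE7128B.conds, List.mem_cons, List.not_mem_nil, or_false] at hc ⊢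
    tauto) (fun w hw => mem_U8_of hw)
  rw [card_filter_unionL all8 chain8, cnt_eq] at h1
  rw [card_U]
  exact h1

theorem cover : ∀ w, Cl 32 conds w → ∃ x ∈ unionL L, dec x = w := cover_of_le all count_le

theorem ncard_eq : {w | Cl 32 conds w}.ncard = 7128 := by
  rw [level_ncard all cover, card_U]

theorem rel {w : Cfsg.GolayPt → ℤ} (hw : Cl 32 conds w) : Rel (FixG R) w (dec root) :=
  level_rel all tab_in words_in hR cover hw

theorem root_cl : Cl 32 conds (dec root) := classB_iff.1 (by decide +kernel)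

end Cfsg.Agent.Lib.Leech.CertE7128
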