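import Cfsg.Agent.Lib.Leech.CertLev

/-! # A reference vector for the action on 47104 vectors -/

set_option autoImplicit false

namespace Cfsg.Agent.Lib.Leech.CertERefs

open Cfsg Cfsg.Agent.Lib.Leech.Vec Cfsg.Agent.Lib.Leech.Cert

/-- A minimal vector with inner product 8 with the reference vector. -/
def nXh : ℕ := 648367133528655411291662944851967471

theorem nXh_mem : dec nXh ∈ Cfsg.leechLattice := mem_of_inL (by decide +kernel)

end Cfsg.Agent.Lib.Leech.CertERefs
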