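import Cfsg.Agent.Lib.Leech.ConfigH
import Cfsg.Agent.Lib.Leech.Co1

/-!
# A fixed-point-free involution on the 100 points
-/

set_option autoImplicit false

namespace Cfsg.Agent.Lib.Leech.ConfigI

open Cfsg Cfsg.Agent.Lib.Golay.Core Cfsg.Agent.Lib.Golay.Perm Cfsg.Agent.Lib.Leech.Basic
  Cfsg.Agent.Lib.Leech.Vec Cfsg.Agent.Lib.Leech.Cert Cfsg.Agent.Lib.Leech.CertData
  Cfsg.Agent.Lib.Leech.CertBase Cfsg.Agent.Lib.Leech.CertLev Cfsg.Agent.Lib.Leech.CertRefs
  Cfsg.Agent.Lib.Leech.Word Cfsg.Agent.Lib.Leech.Lat Cfsg.Agent.Lib.Leech.Reach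
  Cfsg.Agent.Lib.Leech.Order Cfsg.Agent.Lib.Leech.Trans Cfsg.Agent.Lib.Leech.ConfigB
  Cfsg.Agent.Lib.Leech.ConfigH Cfsg.Agent.Lib.Leech.Co1 Cfsg.Agent.Lib.Leech.Mon
  Cfsg.Agent.Lib.Leech.Packed

/-- A dodecad. -/
def cD : ℕ := 5429496

/-- A word moving the reference pair into the fixed space of the sign change. -/
def W : List (ℕ × ℕ) := [(713578548762785126050072826629696176, 12982769), (0, 0), (27613670385400522234786286419974636, 9830549), (0, 0), (813467184128513496895981203560114321, 720871)]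

/-- The image of the vector of norm 48. -/
def nA : ℕ := 769211120196227656242486406141200978

/-- The image of the minimal vector. -/
def nB : ℕ := 686053164066555446382336448842449424

theorem cD_ok : cD < 2 ^ 24 ∧ isCode cD = true := by decide +kernel

/-- The sign change. -/
noncomputable def ee : Co0 := eps (setOf cD) (setOf_mem_of_isCode cD_ok.1 cD_ok.2)

/-- The involution. -/
noncomputable def g0 : Co0 := (wG W)⁻¹ * ee * wG W

theorem g0_sq : g0 * g0 = 1 := by
  have : g0 * g0 = (wG W)⁻¹ * (ee * ee) * wG W := by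
    unfold g0
    group
  rw [this, ee, eps_sq]
  group

theorem ee_coe (y : L) (p : GolayPt) :
    ((ee • y : L) : GolayPt → ℤ) p = if p ∈ setOf cD then -(y : GolayPt → ℤ) p else (y : GolayPt → ℤ) p := rfl

/-- A vector fixed by the sign change vanishes on the dodecad. -/
theorem ee_fix {n : ℕ} (hn : dec n ∈ leechLattice) (h : ee • (⟨dec n, hn⟩ : L) = ⟨dec n, hn⟩)
    {i : ℕ} (hi : i < 24) (hc : cD.testBit i = true) : img n i = 16 := by
  have h1 := congrFun (congrArg Subtype.val h) (pt i)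
  have h2 : pt i ∈ setOf cD := by
    rw [mem_setOf, idx_pt hi]
    exact hc
  rw [ee_coe, if_pos h2] at h1
  have h3 : dec n (pt i) = ((img n i : ℕ) : ℤ) - 16 := dec_pt n hi
  have h4 : -dec n (pt i) = dec n (pt i) := h1
  rw [h3] at h4
  omega

/-- The check that a vector is moved. -/
def movedB (z : ℕ) : Bool :=
  forceN (wImg W z) fun a => runW W z a &&
    !(allUpTo (fun i => (!(cD.testBit i)) || Nat.beq (img a i) 16) 24)

theorem moved_all : allL movedB CertC100.L = true := by decide +kernel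

theorem moved_of {z : ℕ} (hz : dec z ∈ leechLattice) (h : movedB z = true) :
    g0 • (⟨dec z, hz⟩ : L) ≠ ⟨dec z, hz⟩ := by
  intro hfix
  unfold movedB at h
  rw [forceN_eq] at h
  simp only [Bool.and_eq_true, Bool.not_eq_true'] at h
  obtain ⟨h1, h2⟩ := h
  have h3 := wG_smul W h1 hz
  have ha : dec (wImg W z) ∈ leechLattice := mem_of_run h1 hz
  have h4 : wG W • (⟨dec z, hz⟩ : L) = ⟨dec (wImg W z), ha⟩ := Subtype.ext h3
  have h5 : ee • (⟨dec (wImg W z), ha⟩ : L) = ⟨dec (wImg W z), ha⟩ := by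
    unfold g0 at hfix
    rw [mul_smul, mul_smul, inv_smul_eq_iff, h4] at hfix
    exact hfix
  have h6 : allUpTo (fun i => (!(cD.testBit i)) || Nat.beq (img (wImg W z) i) 16) 24 = true := by
    apply allUpTo_iff.2
    intro i hi
    cases hb : cD.testBit i with
    | false => rfl
    | true =>
      rw [ee_fix ha h5 hi hb]
      rfl
  rw [h6] at h2
  exact absurd h2 (by simp)

theorem ref_ok : runW W nU0 nA = true ∧ runW W nX1 nB = true ∧
    allUpTo (fun i => (!(cD.testBit i)) || (Nat.beq (img nA i) 16 && Nat.beq (img nB i) 16)) 24 = true := by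
  decide +kernel

/-- The sign change fixes a vector vanishing on the dodecad. -/
theorem ee_fix_of {n : ℕ} (hn : dec n ∈ leechLattice) (h : ∀ i < 24, cD.testBit i = true → img n i = 16) :
    ee • (⟨dec n, hn⟩ : L) = ⟨dec n, hn⟩ := by
  apply Subtype.ext
  funext p
  rw [ee_coe]
  by_cases hp : p ∈ setOf cD
  · rw [if_pos hp]
    have h1 : cD.testBit (idx p) = true := mem_setOf.1 hp
    have h2 := h _ (idx_lt p) h1
    show -(((img n (idx p) : ℕ) : ℤ) - 16) = ((img n (idx p) : ℕ) : ℤ) - 16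
    rw [h2]
    norm_num
  · rw [if_neg hp]

theorem g0_fix_of {z a : ℕ} (h1 : runW W z a = true) (hz : dec z ∈ leechLattice)
    (h2 : ∀ i < 24, cD.testBit i = true → img a i = 16) : g0 • (⟨dec z, hz⟩ : L) = ⟨dec z, hz⟩ := by
  have h3 := wG_smul W h1 hz
  have ha : dec a ∈ leechLattice := mem_of_run h1 hz
  have h4 : wG W • (⟨dec z, hz⟩ : L) = ⟨dec a, ha⟩ := Subtype.ext h3
  unfold g0
  rw [mul_smul, mul_smul, inv_smul_eq_iff, h4, ee_fix_of ha h2]

theorem g0_fix_u : g0 • (⟨dec nU0, nU0_mem⟩ : L) = ⟨dec nU0, nU0_mem⟩ :=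
  g0_fix_of ref_ok.1 nU0_mem fun i hi hc => by
    have h := allUpTo_iff.1 ref_ok.2.2 i hi
    rw [hc] at h
    simp only [Bool.not_true, Bool.false_or, Bool.and_eq_true] at h
    exact Nat.eq_of_beq_eq_true h.1

theorem g0_fix_x : g0 • (⟨dec nX1, nX1_mem⟩ : L) = ⟨dec nX1, nX1_mem⟩ :=
  g0_fix_of ref_ok.2.1 nX1_mem fun i hi hc => by
    have h := allUpTo_iff.1 ref_ok.2.2 i hi
    rw [hc] at h
    simp only [Bool.not_true, Bool.false_or, Bool.and_eq_true] at h
    exact Nat.eq_of_beq_eq_true h.2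

theorem exists_invol (v w : L) (hv : sqNorm (v : GolayPt → ℤ) = 48) (hw : sqNorm (w : GolayPt → ℤ) = 48)
    (hvw : dotInt (v : GolayPt → ℤ) (w : GolayPt → ℤ) = -32) :
    ∃ g : Co0, g • v = v ∧ g • w = w ∧ orderOf g = 2 ∧ ∀ x ∈ X100 v w, g • x ≠ x := by
  obtain ⟨t, ht⟩ := exists_to_pair hv hw hvw
  have h1 : (t⁻¹ * g0 * t) • v = v := by
    have h2 : t • v = ⟨dec nU0, nU0_mem⟩ := Subtype.ext (ht (v, nU0) (by simp))
    rw [mul_smul, mul_smul, h2, g0_fix_u, ← h2, inv_smul_smul]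
  have h3 : (t⁻¹ * g0 * t) • (v + w) = v + w := by
    have h2 : t • (v + w) = ⟨dec nX1, nX1_mem⟩ := Subtype.ext (ht (v + w, nX1) (by simp))
    rw [mul_smul, mul_smul, h2, g0_fix_x, ← h2, inv_smul_smul]
  have hfp : ∀ x ∈ X100 v w, (t⁻¹ * g0 * t) • x ≠ x := by
    intro x hx hfix
    obtain ⟨z, hz, hzx⟩ := CertC100.cover _ ((mem_C100 ht x).1 hx)
    have hz' : dec z ∈ leechLattice := by
      rw [hzx]
      exact (t • x).2
    have h4 := of_allL moved_all hz
    apply moved_of hz' h4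
    have h5 : t • x = ⟨dec z, hz'⟩ := Subtype.ext hzx.symm
    rw [← h5]
    rw [mul_smul, mul_smul, inv_smul_eq_iff] at hfix
    exact hfix
  refine ⟨t⁻¹ * g0 * t, h1, fix_w h1 h3, ?_, hfp⟩
  haveI : Fact (Nat.Prime 2) := ⟨Nat.prime_two⟩
  apply orderOf_eq_prime
  · have : (t⁻¹ * g0 * t) ^ 2 = t⁻¹ * (g0 * g0) * t := by
      rw [pow_two]
      group
    rw [this, g0_sq]
    group
  · intro h
    have hne : (X100 v w).Nonempty := by
      apply Set.nonempty_of_ncard_ne_zero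
      rw [ncard_X100 v w hv hw hvw]
      norm_num
    obtain ⟨x, hx⟩ := hne
    apply hfp x hx
    rw [h, one_smul]

end Cfsg.Agent.Lib.Leech.ConfigI
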