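import Cfsg.Agent.Lib.Leech.GenA

/-!
A finite form of the generation statement for the rank-24 lattice: an additive subgroup containing
the odd vector, the vectors `4 e_i + 4 e_∞`, and, for every generator of the code, an even vector
with that word of second binary digits, is the whole lattice.
-/

set_option autoImplicit false

namespace Cfsg.Agent.Lib.Leech.Gen2

open Cfsg
open Cfsg.Agent.Lib.Leech.Basic Cfsg.Agent.Lib.Leech.Even Cfsg.Agent.Lib.Leech.GenA

/-- `z` has even coordinates and word of second binary digits `d`. -/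
def EvenWith (z : leechLattice) (d : GolayPt → ZMod 2) : Prop :=
  (∀ i, (z : GolayPt → ℤ) i ≡ 0 [ZMOD 2]) ∧ digitWord (z : GolayPt → ℤ) = d

theorem sum_even_of_mem (z : leechLattice) (he : ∀ i, (z : GolayPt → ℤ) i ≡ 0 [ZMOD 2]) :
    ∑ i, (z : GolayPt → ℤ) i ≡ 0 [ZMOD 8] := by
  have hx := z.2
  rw [mem_leechLattice_iff, mem_leechSet_iff] at hx
  obtain ⟨m, hm, hs, -⟩ := hx
  have hm0 : m % 2 = 0 := by
    have h1 := hm none
    have h2 := he none
    unfold Int.ModEq at h1 h2
    omega
  unfold Int.ModEq at hs ⊢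
  omega

theorem evenWith_add {z z' : leechLattice} {d d' : GolayPt → ZMod 2} (h : EvenWith z d)
    (h' : EvenWith z' d') : EvenWith (z + z') (d + d') := by
  refine ⟨fun i => (h.1 i).add (h'.1 i), ?_⟩
  have h2 : ((z + z' : leechLattice) : GolayPt → ℤ) = (z : GolayPt → ℤ) + (z' : GolayPt → ℤ) := rfl
  rw [h2, digitWord_add _ _ 0 0 h.1 h'.1, h.2, h'.2]
  simp

theorem evenWith_zero : EvenWith 0 0 := by
  refine ⟨fun i => rfl, ?_⟩
  funext k
  simp [digitWord, bit1]

theorem four_mem (F : AddSubgroup leechLattice)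
    (hf : ∀ i, (⟨fourVec i, fourVec_mem i⟩ : leechLattice) ∈ F) (x : leechLattice)
    (he : ∀ i, (x : GolayPt → ℤ) i ≡ 0 [ZMOD 2])
    (hd : digitWord (x : GolayPt → ℤ) = 0) : x ∈ F := by
  have hs := sum_even_of_mem x he
  have hy : ∀ i, ∃ a : ℤ, (x : GolayPt → ℤ) i = 4 * a := by
    intro i
    have h1 := (modEq_four_iff ((x : GolayPt → ℤ) i) 0).mpr ⟨he i, by
      have : digitWord (x : GolayPt → ℤ) i = 0 := by rw [hd]; rfl
      rw [show bit1 ((x : GolayPt → ℤ) i) = digitWord (x : GolayPt → ℤ) i from rfl, this]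
      rfl⟩
    refine ⟨(x : GolayPt → ℤ) i / 4, ?_⟩
    unfold Int.ModEq at h1
    omega
  choose y hy using hy
  have hsum : ∑ i, (x : GolayPt → ℤ) i = 4 * ∑ i, y i := by
    rw [Finset.mul_sum]
    exact Finset.sum_congr rfl fun i _ => hy i
  obtain ⟨t, ht⟩ : ∃ t, ∑ i, y i = 2 * t := by
    rw [hsum] at hs
    unfold Int.ModEq at hs
    exact ⟨(∑ i, y i) / 2, by omega⟩
  let v : GolayPt → leechLattice := fun i => ⟨fourVec i, fourVec_mem i⟩
  have hv : ∀ i, v i ∈ F := hf
  have hx : x = ∑ i, y i • v i - t • v none := by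
    apply Subtype.ext
    funext k
    have h1 : ∀ i, ((y i • v i : leechLattice) : GolayPt → ℤ) k = y i * fourVec i k := by
      intro i
      simp [v]
    have h2 : ((∑ i, y i • v i : leechLattice) : GolayPt → ℤ) k = ∑ i, y i * fourVec i k := by
      rw [AddSubgroup.val_finsetSum, Finset.sum_apply]
      exact Finset.sum_congr rfl fun i _ => h1 i
    have h3 : ∑ i, y i * fourVec i k = 4 * y k + (∑ i, y i) * (if k = none then 4 else 0) := by
      unfold fourVec
      simp only [mul_add, Finset.sum_add_distrib, Finset.sum_mul]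
      congr 1
      rw [Finset.sum_eq_single k]
      · simp [mul_comm]
      · intro b _ hb
        simp [hb.symm]
      · simp
    have h4 : ((t • v none : leechLattice) : GolayPt → ℤ) k =
        t * ((if k = none then 4 else 0) + (if k = none then 4 else 0)) := by
      simp [v, fourVec]
    simp only [AddSubgroup.coe_sub, Pi.sub_apply]
    rw [h2, h3, h4, ht, hy k]
    ring
  rw [hx]
  exact F.sub_mem (F.sum_mem fun i _ => F.zsmul_mem (hv i) _) (F.zsmul_mem (hv none) _)

/-- Generation of the lattice from explicit data. -/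
theorem mem_of_gens (F : AddSubgroup leechLattice)
    (ho : (⟨oddVec, oddVec_mem⟩ : leechLattice) ∈ F)
    (hf : ∀ i, (⟨fourVec i, fourVec_mem i⟩ : leechLattice) ∈ F)
    (hq : ∀ t, ∃ z ∈ F, EvenWith z (qrWord t))
    (h1 : ∃ z ∈ F, EvenWith z 1) (x : leechLattice) : x ∈ F := by
  have hcode : ∀ d ∈ golayCode, ∃ z ∈ F, EvenWith z d := by
    intro d hd
    unfold golayCode at hd
    induction hd using Submodule.span_induction with
    | mem d hd =>
      rcases hd with ⟨t, rfl⟩ | hd
      · exact hq t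
      · rw [Set.mem_singleton_iff.mp hd]
        exact h1
    | zero => exact ⟨0, F.zero_mem, evenWith_zero⟩
    | add d d' _ _ ih ih' =>
      obtain ⟨z, hz, h⟩ := ih
      obtain ⟨z', hz', h'⟩ := ih'
      exact ⟨z + z', F.add_mem hz hz', evenWith_add h h'⟩
    | smul c d _ ih =>
      have hc : c = 0 ∨ c = 1 := by
        revert c
        decide
      rcases hc with rfl | rfl
      · rw [zero_smul]
        exact ⟨0, F.zero_mem, evenWith_zero⟩
      · rw [one_smul]
        exact ih
  have key : ∀ x : leechLattice, (∀ i, (x : GolayPt → ℤ) i ≡ 0 [ZMOD 2]) → x ∈ F := by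
    intro x he
    have hx := x.2
    rw [mem_leechLattice_iff, mem_leechSet_iff] at hx
    obtain ⟨m, hm, hs, hw⟩ := hx
    obtain ⟨z, hz, hze, hzd⟩ := hcode _ hw
    have hsub : x - z ∈ F := by
      apply four_mem F hf
      · intro i
        exact (he i).sub (hze i)
      · have h2 : ((x - z : leechLattice) : GolayPt → ℤ) =
            (x : GolayPt → ℤ) + (-(z : GolayPt → ℤ)) := by
          simp [sub_eq_add_neg]
        rw [h2]
        have hneg : ∀ i, (-(z : GolayPt → ℤ)) i ≡ -0 [ZMOD 2] := fun i => (hze i).neg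
        rw [digitWord_add _ _ 0 (-0) he hneg, digitWord_neg _ 0 hze, hzd]
        funext i
        simp [CharTwo.add_self_eq_zero]
    have := F.add_mem hsub hz
    simpa using this
  have hx := x.2
  rw [mem_leechLattice_iff, mem_leechSet_iff] at hx
  obtain ⟨m, hm, hs, hw⟩ := hx
  let o : leechLattice := ⟨oddVec, oddVec_mem⟩
  rcases exists_eq_two_mul_add m with ⟨q, rfl⟩ | ⟨q, rfl⟩
  · apply key
    intro i
    have h1 := hm i
    unfold Int.ModEq at h1 ⊢
    omega
  · have h1 : x - o ∈ F := by
      apply key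
      intro i
      have h1 := hm i
      have h2 : (o : GolayPt → ℤ) i ≡ 1 [ZMOD 2] := by
        show oddVec i ≡ 1 [ZMOD 2]
        unfold oddVec
        split_ifs <;> decide
      have h3 : ((x - o : leechLattice) : GolayPt → ℤ) i =
          (x : GolayPt → ℤ) i - (o : GolayPt → ℤ) i := rfl
      rw [h3]
      unfold Int.ModEq at h1 h2 ⊢
      omega
    have := F.add_mem h1 ho
    rwa [sub_add_cancel] at this

end Cfsg.Agent.Lib.Leech.Gen2
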