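import Cfsg.Agent.Lib.Leech.Even

/-!
The rank-24 lattice is generated by its vectors with sum of squares at most 96: the odd vector
`(-3, 1²³)`, the vectors `twice c` for `c` the support of a word of the code, and the vectors
`4 e_i + 4 e_0`.
-/

set_option autoImplicit false

namespace Cfsg.Agent.Lib.Leech.GenA

open Cfsg
open Cfsg.Agent.Lib.Leech.Basic Cfsg.Agent.Lib.Leech.Even

/-- The vector `4 e_i + 4 e_∞`. -/
def fourVec (i : GolayPt) : GolayPt → ℤ :=
  fun k => (if k = i then 4 else 0) + (if k = none then 4 else 0)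

theorem sum_ite_eq_const (i : GolayPt) (c : ℤ) :
    ∑ k : GolayPt, (if k = i then c else 0) = c := by
  simp

theorem digit_four (a : ℤ) : bit1 (4 * a) = 0 := by
  unfold bit1
  have : 4 * a / 2 = 2 * a := by omega
  rw [this]
  exact cast_two_mul a

theorem fourVec_eq (i k : GolayPt) : ∃ a : ℤ, fourVec i k = 4 * a := by
  unfold fourVec
  split_ifs
  · exact ⟨2, rfl⟩
  · exact ⟨1, rfl⟩
  · exact ⟨1, rfl⟩
  · exact ⟨0, rfl⟩

theorem fourVec_mem (i : GolayPt) : fourVec i ∈ leechLattice := by
  rw [mem_leechLattice_iff, mem_leechSet_iff]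
  refine ⟨0, fun k => ?_, ?_, ?_⟩
  · obtain ⟨a, ha⟩ := fourVec_eq i k
    rw [ha]
    unfold Int.ModEq
    omega
  · have : ∑ k, fourVec i k = 8 := by
      unfold fourVec
      rw [Finset.sum_add_distrib, sum_ite_eq_const, sum_ite_eq_const]
      rfl
    rw [this]
    decide
  · have : digitWord (fourVec i) = 0 := by
      funext k
      obtain ⟨a, ha⟩ := fourVec_eq i k
      simp only [digitWord, ha, digit_four]
      rfl
    rw [this]
    exact Submodule.zero_mem _

theorem sqNorm_fourVec (i : GolayPt) : sqNorm (fourVec i) ≤ 64 := by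
  have h : ∀ i : GolayPt, i = none ∨ i ≠ none := fun i => em _
  unfold sqNorm
  have hsq : ∀ k, fourVec i k ^ 2 ≤
      (if k = i then 32 else 0) + (if k = none then 32 else 0) := by
    intro k
    unfold fourVec
    split_ifs <;> norm_num
  calc ∑ k, fourVec i k ^ 2 ≤ ∑ k, ((if k = i then 32 else 0) + (if k = none then 32 else 0)) :=
        Finset.sum_le_sum fun k _ => hsq k
    _ = 64 := by
        rw [Finset.sum_add_distrib, sum_ite_eq_const, sum_ite_eq_const]
        rfl

/-- The odd vector `(-3, 1²³)`. -/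
def oddVec : GolayPt → ℤ := fun k => if k = none then -3 else 1

theorem oddVec_mem : oddVec ∈ leechLattice := by
  rw [mem_leechLattice_iff, mem_leechSet_iff]
  refine ⟨1, by decide, by decide, ?_⟩
  have : digitWord oddVec = 0 := by
    funext k
    unfold digitWord oddVec bit1
    split_ifs <;> rfl
  rw [this]
  exact Submodule.zero_mem _

theorem sqNorm_oddVec : sqNorm oddVec = 32 := by decide

theorem sqNorm_twice (c : Finset GolayPt) : sqNorm (twice c) ≤ 96 := by
  unfold sqNorm twice
  have h : ∀ k : GolayPt, (if k ∈ c then (2 : ℤ) else 0) ^ 2 ≤ 4 := by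
    intro k
    split_ifs <;> norm_num
  calc ∑ k : GolayPt, (if k ∈ c then (2 : ℤ) else 0) ^ 2 ≤ ∑ _k : GolayPt, (4 : ℤ) :=
        Finset.sum_le_sum fun k _ => h k
    _ = 96 := by
        rw [Finset.sum_const, Finset.card_univ, Fintype.card_option, ZMod.card]
        rfl

/-- The generating set. -/
def shortSet : Set leechLattice := {y | sqNorm (y : GolayPt → ℤ) ≤ 96}

theorem even_digit_zero_mem (x : leechLattice) (he : ∀ i, (x : GolayPt → ℤ) i ≡ 0 [ZMOD 2])
    (hd : digitWord (x : GolayPt → ℤ) = 0) (hs : ∑ i, (x : GolayPt → ℤ) i ≡ 0 [ZMOD 8])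
    (F : AddSubgroup leechLattice) (hF : ∀ y : leechLattice, sqNorm (y : GolayPt → ℤ) ≤ 168 → y ∈ F) :
    x ∈ F := by
  have hy : ∀ i, ∃ a : ℤ, (x : GolayPt → ℤ) i = 4 * a := by
    intro i
    have h1 := (modEq_four_iff ((x : GolayPt → ℤ) i) 0).mpr ⟨he i, by
      have : digitWord (x : GolayPt → ℤ) i = 0 := by rw [hd]; rfl
      rw [show bit1 ((x : GolayPt → ℤ) i) = digitWord (x : GolayPt → ℤ) i from rfl, this]
      rfl⟩
    refine ⟨(x : GolayPt → ℤ) i / 4, ?_⟩
    unfold Int.ModEq at h1
    omega
  choose y hy using hy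
  have hsum : ∑ i, (x : GolayPt → ℤ) i = 4 * ∑ i, y i := by
    rw [Finset.mul_sum]
    exact Finset.sum_congr rfl fun i _ => hy i
  obtain ⟨t, ht⟩ : ∃ t, ∑ i, y i = 2 * t := by
    rw [hsum] at hs
    unfold Int.ModEq at hs
    exact ⟨(∑ i, y i) / 2, by omega⟩
  let v : GolayPt → leechLattice := fun i => ⟨fourVec i, fourVec_mem i⟩
  have hv : ∀ i, v i ∈ F := fun i => hF _ ((sqNorm_fourVec i).trans (by norm_num))
  have hx : x = ∑ i, y i • v i - t • v none := by
    apply Subtype.ext
    funext k
    have h1 : ∀ i, ((y i • v i : leechLattice) : GolayPt → ℤ) k = y i * fourVec i k := by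
      intro i
      simp [v]
    have h2 : ((∑ i, y i • v i : leechLattice) : GolayPt → ℤ) k = ∑ i, y i * fourVec i k := by
      rw [AddSubgroup.val_finsetSum, Finset.sum_apply]
      exact Finset.sum_congr rfl fun i _ => h1 i
    have h3 : ∑ i, y i * fourVec i k = 4 * y k + (∑ i, y i) * (if k = none then 4 else 0) := by
      unfold fourVec
      simp only [mul_add, Finset.sum_add_distrib, Finset.sum_mul]
      congr 1
      rw [Finset.sum_eq_single k]
      · simp [mul_comm]
      · intro b _ hb
        simp [hb.symm]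
      · simp
    have h4 : ((t • v none : leechLattice) : GolayPt → ℤ) k =
        t * ((if k = none then 4 else 0) + (if k = none then 4 else 0)) := by
      simp [v, fourVec]
    simp only [AddSubgroup.coe_sub, Pi.sub_apply]
    rw [h2, h3, h4, ht, hy k]
    ring
  rw [hx]
  exact F.sub_mem (F.sum_mem fun i _ => F.zsmul_mem (hv i) _) (F.zsmul_mem (hv none) _)

theorem even_mem (x : leechLattice) (he : ∀ i, (x : GolayPt → ℤ) i ≡ 0 [ZMOD 2])
    (hs : ∑ i, (x : GolayPt → ℤ) i ≡ 0 [ZMOD 8])
    (hw : digitWord (x : GolayPt → ℤ) ∈ golayCode)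
    (F : AddSubgroup leechLattice) (hF : ∀ y : leechLattice, sqNorm (y : GolayPt → ℤ) ≤ 168 → y ∈ F) :
    x ∈ F := by
  set c : Finset GolayPt := support₂ (digitWord (x : GolayPt → ℤ)) with hc
  have hcm : c ∈ supports (golayCode : Set (GolayPt → ZMod 2)) := ⟨_, hw, rfl⟩
  let tw : leechLattice := ⟨twice c, twice_mem hcm⟩
  have htw : tw ∈ F := hF _ ((sqNorm_twice c).trans (by norm_num))
  have htwe : ∀ i, (tw : GolayPt → ℤ) i ≡ 0 [ZMOD 2] := by
    intro i
    show twice c i ≡ 0 [ZMOD 2]
    unfold twice Int.ModEq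
    split_ifs <;> norm_num
  have hdw : digitWord (twice c) = digitWord (x : GolayPt → ℤ) := by
    funext i
    have hi : i ∈ c ↔ digitWord (x : GolayPt → ℤ) i ≠ 0 := by
      simp [hc, support₂]
    have h2 : digitWord (twice c) i = if i ∈ c then 1 else 0 := by
      simp only [digitWord, bit1, twice]
      split_ifs <;> rfl
    rw [h2]
    by_cases h : i ∈ c
    · rw [if_pos h]
      have h' := hi.mp h
      generalize digitWord (x : GolayPt → ℤ) i = a at h'
      revert a
      decide
    · rw [if_neg h]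
      have h' : digitWord (x : GolayPt → ℤ) i = 0 := by
        by_contra hcon
        exact h (hi.mpr hcon)
      rw [h']
  have hsub : x - tw ∈ F := by
    apply even_digit_zero_mem _ _ _ _ F hF
    · intro i
      exact (he i).sub (htwe i)
    · have h1 : digitWord ((x : GolayPt → ℤ) + (-(twice c))) = 0 := by
        have htwe' : ∀ i, twice c i ≡ 0 [ZMOD 2] := htwe
        have hneg : ∀ i, (-(twice c)) i ≡ -0 [ZMOD 2] := fun i => (htwe' i).neg
        rw [digitWord_add _ _ 0 (-0) he hneg, digitWord_neg _ 0 htwe', hdw]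
        funext i
        simp [CharTwo.add_self_eq_zero]
      have h2 : ((x - tw : leechLattice) : GolayPt → ℤ) = (x : GolayPt → ℤ) + (-(twice c)) := by
        simp [tw, sub_eq_add_neg]
      rw [h2]
      exact h1
    · have h1 : ∑ i, twice c i ≡ 0 [ZMOD 8] := by
        have h : ∑ i, twice c i = 2 * (c.card : ℤ) := by
          simp [twice, Finset.sum_ite_mem, mul_comm]
        rw [h]
        obtain ⟨d, hd⟩ := card_support_dvd hcm
        rw [hd]
        unfold Int.ModEq
        push_cast
        omega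
      have h2 : ∑ i, ((x - tw : leechLattice) : GolayPt → ℤ) i =
          ∑ i, (x : GolayPt → ℤ) i - ∑ i, twice c i := by
        rw [← Finset.sum_sub_distrib]
        exact Finset.sum_congr rfl fun i _ => rfl
      rw [h2]
      simpa using hs.sub h1
  have := F.add_mem hsub htw
  simpa using this

/-- Any additive subgroup of the lattice containing all vectors with sum of squares at most 168 is
the whole lattice. -/
theorem mem_of_short (x : leechLattice) (F : AddSubgroup leechLattice)
    (hF : ∀ y : leechLattice, sqNorm (y : GolayPt → ℤ) ≤ 168 → y ∈ F) : x ∈ F := by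
  have hx := x.2
  rw [mem_leechLattice_iff, mem_leechSet_iff] at hx
  obtain ⟨m, hm, hs, hw⟩ := hx
  let o : leechLattice := ⟨oddVec, oddVec_mem⟩
  have ho : o ∈ F := hF _ (by rw [show (o : GolayPt → ℤ) = oddVec from rfl, sqNorm_oddVec]; norm_num)
  have key : ∀ x : leechLattice, (∀ i, (x : GolayPt → ℤ) i ≡ 0 [ZMOD 2]) → x ∈ F := by
    intro x he
    have hx := x.2
    rw [mem_leechLattice_iff, mem_leechSet_iff] at hx
    obtain ⟨m, hm, hs, hw⟩ := hx
    have hm0 : m % 2 = 0 := by
      have h1 := hm none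
      have h2 := he none
      unfold Int.ModEq at h1 h2
      omega
    refine even_mem x he ?_ hw F hF
    unfold Int.ModEq at hs ⊢
    omega
  rcases exists_eq_two_mul_add m with ⟨q, rfl⟩ | ⟨q, rfl⟩
  · apply key
    intro i
    have h1 := hm i
    unfold Int.ModEq at h1 ⊢
    omega
  · have h1 : x - o ∈ F := by
      apply key
      intro i
      have h1 := hm i
      have h2 : (o : GolayPt → ℤ) i ≡ 1 [ZMOD 2] := by
        show oddVec i ≡ 1 [ZMOD 2]
        unfold oddVec
        split_ifs <;> decide
      have h3 : ((x - o : leechLattice) : GolayPt → ℤ) i = (x : GolayPt → ℤ) i - (o : GolayPt → ℤ) i := rfl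
      rw [h3]
      unfold Int.ModEq at h1 h2 ⊢
      omega
    have := F.add_mem h1 ho
    simpa using this

end Cfsg.Agent.Lib.Leech.GenA
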