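import Cfsg.Agent.Lib.Leech.Aut

/-!
Functions `Q` from the rank-24 lattice to the field with two elements, constant modulo twice the
lattice and quadratic.  Such a `Q` is computed from its values on an explicit basis and on sums of
two basis vectors; `ev` below reduces the resulting linear relations to exclusive-or of bit masks.
-/

set_option autoImplicit false

namespace Cfsg.Agent.Lib.Leech.Quad

open Cfsg
open Cfsg.Agent.Lib.Leech.Even Cfsg.Agent.Lib.Leech.ZBasis

abbrev Lat : Type := ↥leechLattice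

structure IsQ (Q : Lat → ZMod 2) : Prop where
  coset : ∀ v w : Lat, Q (v + (w + w)) = Q v
  quad : ∀ u v w : Lat, Q (u + v + w) + Q u + Q v + Q w = Q (u + v) + Q (u + w) + Q (v + w)

/-- The polar form. -/
def pol (Q : Lat → ZMod 2) (x y : Lat) : ZMod 2 := Q (x + y) + Q x + Q y

variable {Q : Lat → ZMod 2}

theorem z2_cases (a : ZMod 2) : a = 0 ∨ a = 1 := by
  revert a
  decide

theorem IsQ.zero (h : IsQ Q) : Q 0 = 0 := by
  have h1 := h.quad 0 0 0
  simp only [add_zero] at h1
  generalize Q 0 = a at h1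
  revert a
  decide

theorem pol_comm (x y : Lat) : pol Q x y = pol Q y x := by
  unfold pol
  rw [add_comm x y, add_assoc, add_assoc, add_comm (Q x)]

theorem IsQ.pol_add_right (h : IsQ Q) (x y z : Lat) : pol Q x (y + z) = pol Q x y + pol Q x z := by
  unfold pol
  have h1 := h.quad x y z
  rw [add_assoc x y z] at h1
  generalize Q (x + (y + z)) = a at h1 ⊢
  generalize Q x = b at h1 ⊢
  generalize Q y = c at h1 ⊢
  generalize Q z = d at h1 ⊢
  generalize Q (x + y) = e at h1 ⊢
  generalize Q (x + z) = f at h1 ⊢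
  generalize Q (y + z) = g at h1 ⊢
  revert a b c d e f g
  decide

theorem IsQ.pol_add_left (h : IsQ Q) (x y z : Lat) : pol Q (x + y) z = pol Q x z + pol Q y z := by
  rw [pol_comm, h.pol_add_right, pol_comm z x, pol_comm z y]

theorem IsQ.pol_zero_right (h : IsQ Q) (x : Lat) : pol Q x 0 = 0 := by
  unfold pol
  rw [add_zero, h.zero, add_zero]
  exact CharTwo.add_self_eq_zero _

theorem add_eq (x y : Lat) : Q (x + y) = Q x + Q y + pol Q x y := by
  unfold pol
  generalize Q (x + y) = a
  generalize Q x = b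
  generalize Q y = c
  revert a b c
  decide

/-- Adding an integer multiple only depends on the parity of the multiplier. -/
theorem IsQ.zsmul_add (h : IsQ Q) (n : ℤ) (x y : Lat) :
    Q (n • x + y) = if n % 2 = 1 then Q (x + y) else Q y := by
  rcases Int.even_or_odd' n with ⟨t, rfl | rfl⟩
  · have h1 : (2 * t) % 2 ≠ 1 := by omega
    rw [if_neg h1]
    have h2 : (2 * t) • x + y = y + (t • x + t • x) := by
      rw [two_mul, add_smul, add_comm]
    rw [h2, h.coset]
  · have h1 : (2 * t + 1) % 2 = 1 := by omega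
    rw [if_pos h1]
    have h2 : (2 * t + 1) • x + y = (x + y) + (t • x + t • x) := by
      rw [add_smul, two_mul, add_smul, one_smul]
      abel
    rw [h2, h.coset]

theorem IsQ.list_zsmul (h : IsQ Q) (a : ℕ → ℤ) (L : List ℕ) (y : Lat) :
    Q ((L.map fun m => a m • bL m).sum + y) =
      Q (((L.filter fun m => a m % 2 = 1).map bL).sum + y) := by
  induction L generalizing y with
  | nil => simp
  | cons x L ih =>
    simp only [List.map_cons, List.sum_cons]
    set S := (L.map fun m => a m • bL m).sum with hS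
    rw [add_assoc, h.zsmul_add, List.filter_cons]
    by_cases hx : a x % 2 = 1
    · rw [if_pos hx, if_pos (by simpa using hx)]
      simp only [List.map_cons, List.sum_cons]
      rw [show bL x + (S + y) = S + (bL x + y) by abel, ih (bL x + y)]
      congr 1
      abel
    · rw [if_neg hx, if_neg (by simpa using hx)]
      exact ih y

/-- The basis indices with an odd coefficient. -/
def oddL (a : ℕ → ℤ) : List ℕ := (List.range 24).filter fun m => a m % 2 = 1

theorem oddL_nodup (a : ℕ → ℤ) : (oddL a).Nodup := List.Nodup.filter _ List.nodup_range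

theorem oddL_lt (a : ℕ → ℤ) (x : ℕ) (hx : x ∈ oddL a) : x < 24 :=
  List.mem_range.mp (List.mem_of_mem_filter hx)

theorem IsQ.comb_eq_sum (h : IsQ Q) (a : ℕ → ℤ) : Q (comb a) = Q (((oddL a).map bL).sum) := by
  have h1 := h.list_zsmul a (List.range 24) 0
  simpa [comb, oddL] using h1

/-- The values on basis vectors and the polar form on pairs. -/
def Wd (Q : Lat → ZMod 2) (k l : ℕ) : ZMod 2 := if k = l then Q (bL k) else pol Q (bL k) (bL l)

def evalQ (W : ℕ → ℕ → ZMod 2) : List ℕ → ZMod 2
  | [] => 0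
  | x :: L => W x x + (L.map (W x)).sum + evalQ W L

theorem IsQ.pol_list (h : IsQ Q) (x : Lat) (L : List ℕ) :
    pol Q x (L.map bL).sum = (L.map fun l => pol Q x (bL l)).sum := by
  induction L with
  | nil => simpa using h.pol_zero_right x
  | cons a L ih =>
    simp only [List.map_cons, List.sum_cons]
    rw [h.pol_add_right, ih]

theorem IsQ.sum_eq (h : IsQ Q) (L : List ℕ) (hL : L.Nodup) :
    Q (L.map bL).sum = evalQ (Wd Q) L := by
  induction L with
  | nil => simpa [evalQ] using h.zero
  | cons x L ih =>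
    rw [List.nodup_cons] at hL
    simp only [List.map_cons, List.sum_cons, evalQ]
    rw [add_eq (Q := Q), ih hL.2, h.pol_list]
    have h1 : Wd Q x x = Q (bL x) := by simp [Wd]
    have h2 : L.map (Wd Q x) = L.map fun l => pol Q (bL x) (bL l) := by
      apply List.map_congr_left
      intro l hl
      have : x ≠ l := fun hx => hL.1 (hx ▸ hl)
      simp [Wd, this]
    rw [h1, h2]
    ring

theorem IsQ.comb_eq (h : IsQ Q) (a : ℕ → ℤ) : Q (comb a) = evalQ (Wd Q) (oddL a) := by
  rw [h.comb_eq_sum, h.sum_eq _ (oddL_nodup a)]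

/-! ### Bit masks -/

def var (k l : ℕ) : ℕ := 24 * k + l

def mono : List ℕ → ℕ
  | [] => 0
  | x :: L => 2 ^ var x x ^^^ (L.foldr (fun l acc => 2 ^ var x l ^^^ acc) 0) ^^^ mono L

/-- Evaluation of a mask of variables. -/
def ev (V : ℕ → ZMod 2) (m : ℕ) : ZMod 2 :=
  ∑ i ∈ Finset.range 576, if m.testBit i = true then V i else 0

theorem ev_zero (V : ℕ → ZMod 2) : ev V 0 = 0 := by
  simp [ev]

theorem ev_xor (V : ℕ → ZMod 2) (m n : ℕ) : ev V (m ^^^ n) = ev V m + ev V n := by
  unfold ev
  rw [← Finset.sum_add_distrib]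
  apply Finset.sum_congr rfl
  intro i _
  rw [Nat.testBit_xor]
  cases m.testBit i <;> cases n.testBit i <;> simp [CharTwo.add_self_eq_zero]

theorem ev_two_pow (V : ℕ → ZMod 2) {i : ℕ} (hi : i < 576) : ev V (2 ^ i) = V i := by
  unfold ev
  rw [Finset.sum_eq_single i]
  · simp
  · intro b _ hb
    simp [hb.symm]
  · intro h
    exact absurd (Finset.mem_range.mpr hi) h

/-- The variables attached to a family `W`. -/
def VOf (W : ℕ → ℕ → ZMod 2) (i : ℕ) : ZMod 2 := W (i / 24) (i % 24)

theorem VOf_var (W : ℕ → ℕ → ZMod 2) {k l : ℕ} (hl : l < 24) : VOf W (var k l) = W k l := by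
  unfold VOf var
  have h1 : (24 * k + l) / 24 = k := by omega
  have h2 : (24 * k + l) % 24 = l := by omega
  rw [h1, h2]

theorem var_lt {k l : ℕ} (hk : k < 24) (hl : l < 24) : var k l < 576 := by
  unfold var
  omega

theorem evalQ_eq_ev (W : ℕ → ℕ → ZMod 2) (L : List ℕ) (hL : ∀ x ∈ L, x < 24) :
    evalQ W L = ev (VOf W) (mono L) := by
  induction L with
  | nil => simp [evalQ, mono, ev_zero]
  | cons x L ih =>
    have hx : x < 24 := hL x (by simp)
    have hL' : ∀ y ∈ L, y < 24 := fun y hy => hL y (by simp [hy])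
    have h1 : ∀ M : List ℕ, (∀ y ∈ M, y < 24) →
        ev (VOf W) (M.foldr (fun l acc => 2 ^ var x l ^^^ acc) 0) = (M.map (W x)).sum := by
      intro M hM
      induction M with
      | nil => simp [ev_zero]
      | cons y M ih =>
        have hy : y < 24 := hM y (by simp)
        simp only [List.foldr_cons, List.map_cons, List.sum_cons]
        rw [ev_xor, ev_two_pow _ (var_lt hx hy), VOf_var W hy,
          ih (fun z hz => hM z (by simp [hz]))]
    simp only [evalQ, mono]
    rw [ev_xor, ev_xor, ev_two_pow _ (var_lt hx hx), VOf_var W hx, h1 L hL', ih hL']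

def xorMask : ℕ → List ℕ → ℕ
  | _, [] => 0
  | c, r :: rs => (if c % 2 = 1 then r else 0) ^^^ xorMask (c / 2) rs

theorem ev_xorMask (V : ℕ → ZMod 2) (rs : List ℕ) (h : ∀ r ∈ rs, ev V r = 0) (c : ℕ) :
    ev V (xorMask c rs) = 0 := by
  induction rs generalizing c with
  | nil => exact ev_zero V
  | cons r rs ih =>
    simp only [xorMask]
    rw [ev_xor, ih (fun s hs => h s (by simp [hs]))]
    split_ifs
    · rw [h r (by simp), add_zero]
    · rw [ev_zero, add_zero]

/-! ### Relations coming from automorphisms -/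

theorem listSum_comb (A : ℕ → ℕ → ℤ) (S : List ℕ) :
    (S.map fun k => comb (A k)).sum = comb (fun m => (S.map fun k => A k m).sum) := by
  induction S with
  | nil =>
    simp only [List.map_nil, List.sum_nil]
    exact comb_zero.symm
  | cons x S ih =>
    simp only [List.map_cons, List.sum_cons]
    rw [ih, ← comb_add]
    rfl

theorem IsQ.row (h : IsQ Q) (g : Equiv.Perm Lat) (hg : ∀ v w : Lat, g (v + w) = g v + g w)
    (hQ : ∀ v : Lat, Q (g v) = Q v) (A : ℕ → ℕ → ℤ) (hA : ∀ k < 24, g (bL k) = comb (A k))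
    (S : List ℕ) (hS : S.Nodup) (hS' : ∀ k ∈ S, k < 24) :
    ev (VOf (Wd Q)) (mono S ^^^ mono (oddL fun m => (S.map fun k => A k m).sum)) = 0 := by
  have h1 : g (S.map bL).sum = comb (fun m => (S.map fun k => A k m).sum) := by
    rw [← listSum_comb]
    have hadd : g (S.map bL).sum = (S.map fun k => g (bL k)).sum := by
      have := map_list_sum (AddMonoidHom.mk' g hg) (S.map bL)
      simpa [List.map_map, Function.comp_def] using this
    rw [hadd]
    congr 1
    apply List.map_congr_left
    intro k hk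
    exact hA k (hS' k hk)
  have h2 := hQ (S.map bL).sum
  rw [h1, h.comb_eq, h.sum_eq S hS, evalQ_eq_ev _ _ (oddL_lt _), evalQ_eq_ev _ _ hS'] at h2
  rw [ev_xor, h2]
  exact CharTwo.add_self_eq_zero _

/-! ### Uniqueness -/

theorem all_of_basis (F : AddSubgroup Lat) (hF : ∀ k < 24, bL k ∈ F) (x : Lat) : x ∈ F := by
  obtain ⟨a, rfl⟩ := exists_comb x
  unfold comb
  apply AddSubgroup.list_sum_mem
  intro y hy
  obtain ⟨m, hm, rfl⟩ := List.mem_map.mp hy
  exact F.zsmul_mem (hF m (List.mem_range.mp hm)) _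

/-- A quadratic function vanishing on the basis and on sums of two basis vectors is zero. -/
theorem IsQ.eq_zero (h : IsQ Q) (h1 : ∀ k < 24, Q (bL k) = 0)
    (h2 : ∀ k < 24, ∀ l < 24, Q (bL k + bL l) = 0) (x : Lat) : Q x = 0 := by
  let P : Lat → (Lat →+ ZMod 2) := fun y => AddMonoidHom.mk' (fun x => pol Q x y)
    (fun a c => h.pol_add_left a c y)
  have hP : ∀ l < 24, ∀ x, pol Q x (bL l) = 0 := by
    intro l hl x
    have : x ∈ (P (bL l)).ker := by
      apply all_of_basis
      intro k hk
      show pol Q (bL k) (bL l) = 0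
      unfold pol
      rw [h2 k hk l hl, h1 k hk, h1 l hl]
      rfl
    exact this
  have hP2 : ∀ x y, pol Q x y = 0 := by
    intro x y
    let P' : Lat →+ ZMod 2 := AddMonoidHom.mk' (fun y => pol Q x y) (fun a c => h.pol_add_right x a c)
    have : y ∈ P'.ker := by
      apply all_of_basis
      intro l hl
      exact hP l hl x
    exact this
  let D : Lat →+ ZMod 2 := AddMonoidHom.mk' Q (fun a c => by rw [add_eq (Q := Q) a c, hP2, add_zero])
  have : x ∈ D.ker := by
    apply all_of_basis
    intro k hk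
    exact h1 k hk
  exact this

theorem IsQ.add {Q' : Lat → ZMod 2} (h : IsQ Q) (h' : IsQ Q') : IsQ (fun v => Q v + Q' v) := by
  constructor
  · intro v w
    show Q (v + (w + w)) + Q' (v + (w + w)) = Q v + Q' v
    rw [h.coset, h'.coset]
  · intro u v w
    show Q (u + v + w) + Q' (u + v + w) + (Q u + Q' u) + (Q v + Q' v) + (Q w + Q' w) =
      (Q (u + v) + Q' (u + v)) + (Q (u + w) + Q' (u + w)) + (Q (v + w) + Q' (v + w))
    have h1 := h.quad u v w
    have h2 := h'.quad u v w
    linear_combination h1 + h2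

/-- The reduced norm. -/
def q0 (v : Lat) : ZMod 2 := ((sqNorm (v : GolayPt → ℤ) / 16 : ℤ) : ZMod 2)

/-- The reduced inner product. -/
def d0 (v w : Lat) : ℤ := dotInt (v : GolayPt → ℤ) (w : GolayPt → ℤ) / 8

def s0 (v : Lat) : ℤ := sqNorm (v : GolayPt → ℤ) / 16

theorem s0_spec (v : Lat) : sqNorm (v : GolayPt → ℤ) = 16 * s0 v := by
  obtain ⟨c, hc⟩ := dvd_sqNorm _ v.2
  unfold s0
  rw [hc]
  simp

theorem s0_add (v w : Lat) : s0 (v + w) = s0 v + s0 w + d0 v w := by
  have h1 := s0_spec (v + w)
  have h2 : sqNorm ((v + w : Lat) : GolayPt → ℤ) = sqNorm (v.1 + w.1) := rfl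
  rw [h2, sqNorm_add, s0_spec v, s0_spec w] at h1
  obtain ⟨c, hc⟩ := dvd_dotInt _ _ v.2 w.2
  have h3 : d0 v w = c := by
    unfold d0
    rw [hc]
    simp
  rw [h3]
  rw [hc] at h1
  linarith

theorem d0_add_right (u v w : Lat) : d0 u (v + w) = d0 u v + d0 u w := by
  obtain ⟨c, hc⟩ := dvd_dotInt _ _ u.2 v.2
  obtain ⟨c', hc'⟩ := dvd_dotInt _ _ u.2 w.2
  have h1 : dotInt (u : GolayPt → ℤ) ((v + w : Lat) : GolayPt → ℤ) =
      dotInt (u : GolayPt → ℤ) (v : GolayPt → ℤ) + dotInt (u : GolayPt → ℤ) (w : GolayPt → ℤ) := by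
    unfold dotInt
    rw [← Finset.sum_add_distrib]
    apply Finset.sum_congr rfl
    intro i _
    show u.1 i * (v.1 i + w.1 i) = _
    ring
  unfold d0
  rw [h1, hc, hc', ← mul_add]
  simp

theorem cast_two_mul_z2 (c : ℤ) : ((2 * c : ℤ) : ZMod 2) = 0 := by
  push_cast
  rw [show (2 : ZMod 2) = 0 from rfl, zero_mul]

theorem q0_isQ : IsQ q0 := by
  constructor
  · intro v w
    unfold q0
    have h1 : sqNorm ((v + (w + w) : Lat) : GolayPt → ℤ) / 16 = s0 (v + (w + w)) := rfl
    have h2 : sqNorm (v : GolayPt → ℤ) / 16 = s0 v := rfl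
    rw [h1, h2, s0_add, s0_add w w, d0_add_right]
    have h3 : s0 v + (s0 w + s0 w + d0 w w) + (d0 v w + d0 v w) =
        s0 v + 2 * (s0 w + d0 v w) + d0 w w := by ring
    have h4 : d0 w w = 2 * s0 w := by
      have h5 := s0_add w w
      have h6 := s0_spec (w + w)
      have h7 : sqNorm ((w + w : Lat) : GolayPt → ℤ) = 4 * sqNorm (w : GolayPt → ℤ) := by
        unfold sqNorm
        rw [Finset.mul_sum]
        apply Finset.sum_congr rfl
        intro i _
        show (w.1 i + w.1 i) ^ 2 = _
        ring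
      rw [h7, s0_spec w] at h6
      linarith
    rw [h3, h4]
    push_cast
    rw [show (2 : ZMod 2) = 0 from rfl]
    simp
  · intro u v w
    unfold q0
    have hs : ∀ x : Lat, sqNorm (x : GolayPt → ℤ) / 16 = s0 x := fun _ => rfl
    simp only [hs]
    rw [s0_add (u + v) w, s0_add u v, s0_add u w, s0_add v w]
    have h1 : d0 (u + v) w = d0 u w + d0 v w := by
      have hc : ∀ a c : Lat, d0 a c = d0 c a := by
        intro a c
        unfold d0 dotInt
        congr 1
        exact Finset.sum_congr rfl fun i _ => mul_comm _ _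
      rw [hc, d0_add_right, hc w u, hc w v]
    rw [h1]
    push_cast
    generalize ((s0 u : ℤ) : ZMod 2) = a
    generalize ((s0 v : ℤ) : ZMod 2) = b
    generalize ((s0 w : ℤ) : ZMod 2) = c
    generalize ((d0 u v : ℤ) : ZMod 2) = d
    generalize ((d0 u w : ℤ) : ZMod 2) = e
    generalize ((d0 v w : ℤ) : ZMod 2) = f
    revert a b c d e f
    decide

theorem zero_isQ : IsQ (fun _ => 0) := by
  constructor
  · intro v w
    rfl
  · intro u v w
    rfl

/-- Two quadratic functions agreeing on the values `Wd` agree. -/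
theorem IsQ.eq_of_Wd {Q' : Lat → ZMod 2} (h : IsQ Q) (h' : IsQ Q')
    (hw : ∀ k < 24, ∀ l < 24, k ≤ l → Wd Q k l = Wd Q' k l) (x : Lat) : Q x = Q' x := by
  have hD := h.add h'
  have hx : ∀ a : ZMod 2, a + a = 0 := fun a => CharTwo.add_self_eq_zero a
  have h1 : ∀ k < 24, Q (bL k) + Q' (bL k) = 0 := by
    intro k hk
    have := hw k hk k hk le_rfl
    simp only [Wd, if_true] at this
    rw [this, hx]
  have h2 : ∀ k < 24, ∀ l < 24, k ≤ l → Q (bL k + bL l) + Q' (bL k + bL l) = 0 := by
    intro k hk l hl hkl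
    rcases eq_or_lt_of_le hkl with rfl | hlt
    · have h3 := h.coset 0 (bL k)
      have h4 := h'.coset 0 (bL k)
      rw [zero_add] at h3 h4
      rw [h3, h4, h.zero, h'.zero, add_zero]
    · have h3 := hw k hk l hl hkl
      have hne : k ≠ l := hlt.ne
      simp only [Wd, if_neg hne, pol] at h3
      have h5 := h1 k hk
      have h6 := h1 l hl
      generalize Q (bL k + bL l) = a at *
      generalize Q' (bL k + bL l) = a' at *
      generalize Q (bL k) = c at *
      generalize Q' (bL k) = c' at *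
      generalize Q (bL l) = d at *
      generalize Q' (bL l) = d' at *
      revert a a' c c' d d'
      decide
  have h3 : ∀ x, Q x + Q' x = 0 := by
    apply hD.eq_zero
    · exact h1
    · intro k hk l hl
      rcases le_total k l with hkl | hkl
      · exact h2 k hk l hl hkl
      · rw [add_comm (bL k) (bL l)]
        exact h2 l hl k hk hkl
  have h4 := h3 x
  generalize Q x = a at *
  generalize Q' x = a' at *
  revert a a'
  decide

theorem Wd_zero (k l : ℕ) : Wd (fun _ => 0) k l = 0 := by
  unfold Wd pol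
  split_ifs
  · rfl
  · rfl

theorem q0_add (v w : Lat) : q0 (v + w) = q0 v + q0 w + ((d0 v w : ℤ) : ZMod 2) := by
  unfold q0
  have hs : ∀ x : Lat, sqNorm (x : GolayPt → ℤ) / 16 = s0 x := fun _ => rfl
  simp only [hs]
  rw [s0_add]
  push_cast
  rfl

/-- The data of the reduced norm. -/
def w0 (k l : ℕ) : ZMod 2 :=
  if k = l then ((sqNorm (b k) / 16 : ℤ) : ZMod 2) else ((dotInt (b k) (b l) / 8 : ℤ) : ZMod 2)

theorem Wd_q0 (k l : ℕ) : Wd q0 k l = w0 k l := by
  unfold Wd w0
  split_ifs with h
  · rfl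
  · unfold pol
    rw [q0_add]
    have h1 : ((d0 (bL k) (bL l) : ℤ) : ZMod 2) = ((dotInt (b k) (b l) / 8 : ℤ) : ZMod 2) := rfl
    rw [h1]
    generalize q0 (bL k) = a
    generalize q0 (bL l) = c
    generalize ((dotInt (b k) (b l) / 8 : ℤ) : ZMod 2) = e
    revert a c e
    decide

end Cfsg.Agent.Lib.Leech.Quad
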