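import Cfsg.Agent.Lib.Leech.SimpleMcL
import Cfsg.Agent.Lib.Leech.SimpleCertE
import Cfsg.Agent.Lib.Leech.CertE275
import Cfsg.Agent.Lib.Leech.CertE2025
import Cfsg.Agent.Lib.Leech.CertE7128
import Cfsg.Agent.Lib.Leech.CertE15400
import Cfsg.Agent.Lib.Leech.CertE22275

/-!
# The stabiliser of a minimal vector is simple
-/

set_option autoImplicit false

namespace Cfsg.Agent.Lib.Leech.SimpleCo2

open Cfsg Cfsg.Agent.Lib.Golay.Core Cfsg.Agent.Lib.Leech.Basic Cfsg.Agent.Lib.Leech.Vec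
  Cfsg.Agent.Lib.Leech.Cert Cfsg.Agent.Lib.Leech.CertBase Cfsg.Agent.Lib.Leech.CertData
  Cfsg.Agent.Lib.Leech.CertLev Cfsg.Agent.Lib.Leech.CertERefs Cfsg.Agent.Lib.Leech.Word
  Cfsg.Agent.Lib.Leech.Lat Cfsg.Agent.Lib.Leech.Reach Cfsg.Agent.Lib.Leech.Order
  Cfsg.Agent.Lib.Leech.ConfigB
  Cfsg.Agent.Lib.Leech.SimpleBase Cfsg.Agent.Lib.Leech.SimpleConf Cfsg.Agent.Lib.Leech.SimpleSpan
  Cfsg.Agent.Lib.Leech.SimpleMon Cfsg.Agent.Lib.Leech.SimpleCertE Cfsg.Agent.Lib.Leech.Co1
  Cfsg.Agent.Lib.Leech.Trans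

open MulAction

variable {t : Co0} {v x : L}

/-- The minimal vectors with inner product 8. -/
abbrev X8 (v : L) : Set L :=
  {y : L | sqNorm (y : GolayPt → ℤ) = 32 ∧ dotInt (v : GolayPt → ℤ) (y : GolayPt → ℤ) = 8}

theorem mem_X8 (ht : Maps t [(v, nV1)]) (y : L) :
    y ∈ X8 v ↔ Cl 32 [(nV1, 8, 0)] ((t • y : L) : GolayPt → ℤ) := by
  rw [cl1, ht.dot (p := (v, nV1)) (by simp), sqNorm_smul, dotInt_comm]
  constructor
  · rintro ⟨h1, h2⟩
    exact ⟨(t • y).2, by exact_mod_cast h1, by rw [h2]; norm_num⟩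
  · rintro ⟨-, h1, h2⟩
    exact ⟨by exact_mod_cast h1, by rw [h2]; norm_num⟩

theorem exists_to_v (v : L) (hv : sqNorm (v : GolayPt → ℤ) = 32) : ∃ t, Maps t [(v, nV1)] := by
  obtain ⟨t, ht⟩ := MinVec.exists_to_ref v hv
  refine ⟨t, fun p hp => ?_⟩
  have : p = (v, nV1) := by simpa using hp
  subst this
  rw [show (v, nV1).1 = v from rfl, ht]
  rfl

theorem ncard_X8 (hv : sqNorm (v : GolayPt → ℤ) = 32) : (X8 v).ncard = 47104 := by
  obtain ⟨t, ht⟩ := exists_to_v v hv
  rw [ncard_of_iff t (mem_X8 ht)]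
  have h1 : {w | Cl 32 [(nV1, 8, 0)] w} = ((U8.image dec : Finset _) : Set (GolayPt → ℤ)) := by
    ext w
    simp only [Set.mem_ofPred_eq, Finset.coe_image, Set.mem_image, Finset.mem_coe]
    constructor
    · intro hw
      exact mem_U8_of hw
    · rintro ⟨z, hz, rfl⟩
      exact cl_U8 hz
  rw [h1, Set.ncard_coe_finset, Finset.card_image_of_injOn, card_U8]
  intro a ha b hb hab
  exact dec_inj (mem_unionL_lt ha) (mem_unionL_lt hb) hab

theorem trans_X8 (hv : sqNorm (v : GolayPt → ℤ) = 32) {a b : L} (ha : a ∈ X8 v) (hb : b ∈ X8 v) :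
    ∃ g : Co0, g • v = v ∧ g • a = b := by
  obtain ⟨t, ht⟩ := exists_to_v v hv
  obtain ⟨g, hg, h⟩ := ht.trans (R := [nV1]) (by simp) (rel8 ((mem_X8 ht a).1 ha)) (rel8 ((mem_X8 ht b).1 hb))
  exact ⟨g, hg (v, nV1) (by simp), h⟩

theorem nXh_cl : Cl 32 [(nV1, 8, 0)] (dec nXh) := classB_iff.1 (by decide +kernel)

theorem exists_to_vx (hv : sqNorm (v : GolayPt → ℤ) = 32) (hx : x ∈ X8 v) :
    ∃ t, Maps t [(x, nXh), (v, nV1)] := by
  obtain ⟨t, ht⟩ := exists_to_v v hv
  exact ht.step (R := [nV1]) (by simp) (rel8 ((mem_X8 ht x).1 hx)) (rel8 nXh_cl)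

/-- The subgroup fixing the two vectors. -/
abbrev SS (v x : L) : Subgroup Co0 := stabilizer Co0 v ⊓ stabilizer Co0 x

/-- The elements of the class with a given inner product. -/
abbrev Ba (v x : L) (a : ℤ) : Set L :=
  {y : L | y ∈ X8 v ∧ dotInt (x : GolayPt → ℤ) (y : GolayPt → ℤ) = a}

theorem inv_X8 {g : Co0} (h : g • v = v) {y : L} (hy : y ∈ X8 v) : g • y ∈ X8 v :=
  ⟨by rw [sqNorm_smul]; exact hy.1, by rw [dot_fix h]; exact hy.2⟩

theorem inv_Ba (a : ℤ) : ∀ g ∈ SS v x, ∀ y ∈ Ba v x a, g • y ∈ Ba v x a := by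
  rintro g ⟨h1, h2⟩ y ⟨h3, h4⟩
  exact ⟨inv_X8 h1 h3, by rw [dot_fix h2]; exact h4⟩

theorem S_of_fix (ht : Maps t [(x, nXh), (v, nV1)]) {R : List ℕ} (hX : nXh ∈ R) (hV : nV1 ∈ R) :
    ∀ a ∈ FixG R, t⁻¹ * a * t ∈ SS v x := by
  intro a ha
  have h0 : ∀ p ∈ [(x, nXh), (v, nV1)], p.2 ∈ R := by
    intro p hp
    simp only [List.mem_cons, List.not_mem_nil, or_false] at hp
    rcases hp with rfl | rfl
    · exact hX
    · exact hV
  exact ⟨ht.conj_fix h0 ha (p := (v, nV1)) (by simp), ht.conj_fix h0 ha (p := (x, nXh)) (by simp)⟩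

theorem mem_gen {p q : ℕ} {a : ℤ} (ha : a = (p : ℤ) - q) (ht : Maps t [(x, nXh), (v, nV1)]) (y : L) :
    y ∈ Ba v x a ↔ Cl 32 [(nV1, 8, 0), (nXh, p, q)] ((t • y : L) : GolayPt → ℤ) := by
  rw [cl2, ht.dot (p := (v, nV1)) (by simp), ht.dot (p := (x, nXh)) (by simp), sqNorm_smul,
    dotInt_comm _ (v : GolayPt → ℤ), dotInt_comm _ (x : GolayPt → ℤ)]
  constructor
  · rintro ⟨⟨h1, h2⟩, h3⟩
    exact ⟨(t • y).2, by exact_mod_cast h1, by rw [h2]; norm_num, by rw [h3, ha]⟩
  · rintro ⟨-, h1, h2, h3⟩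
    exact ⟨⟨by exact_mod_cast h1, by rw [h2]; norm_num⟩, by rw [h3, ha]⟩

theorem dotsE : allL (dotsB nXh [(0, 16), (16, 0), (0, 8), (8, 0), (0, 0)]) L8 = true := by decide +kernel

/-- The block sizes. -/
theorem block8 (hv : sqNorm (v : GolayPt → ℤ) = 32) {K : Subgroup Co0} (hKH : K ≤ stabilizer Co0 v)
    (hn : ∀ h ∈ stabilizer Co0 v, ∀ k ∈ K, h * k * h⁻¹ ∈ K) (hx : x ∈ X8 v) :
    (orbit K x).ncard = 1 ∨ (orbit K x).ncard = 47104 := by
  have hcard := ncard_X8 hv
  have hfin : (X8 v).Finite := Set.finite_of_ncard_ne_zero (by rw [hcard]; norm_num)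
  have hinv : ∀ k ∈ K, ∀ y ∈ X8 v, k • y ∈ X8 v := fun k hk y hy => inv_X8 (hKH hk) hy
  have hd := ncard_orbit_dvd hn hfin hinv (fun a ha b hb => by
    obtain ⟨g, h1, h2⟩ := trans_X8 hv ha hb
    exact ⟨g, h1, h2⟩) hx
  have hsq : dotInt (x : GolayPt → ℤ) (x : GolayPt → ℤ) = 32 := by
    rw [dotInt_self]
    exact hx.1
  obtain ⟨t, ht⟩ := exists_to_vx hv hx
  have ht' : Maps t [(v, nV1)] := fun p hp => ht p (List.mem_cons_of_mem _ hp)
  obtain ⟨h1a, h1b⟩ := class_trans (S := SS v x) (A := Ba v x (-16)) (T := t)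
    (conds := CertE275.conds) (R := CertE275.R) (root := CertE275B.root) (n := 275)
    (fun y => mem_gen (p := 0) (q := 16) (by norm_num) ht y) (fun h => CertE275.rel h) CertE275.root_cl
    (S_of_fix ht (by simp [CertE275.R, CertE275B.R]) (by simp [CertE275.R, CertE275B.R])) (inv_Ba _)
    CertE275.ncard_eq
  obtain ⟨h2a, h2b⟩ := class_trans (S := SS v x) (A := Ba v x 16) (T := t)
    (conds := CertE2025.conds) (R := CertE2025.R) (root := CertE2025B.root) (n := 2025)
    (fun y => mem_gen (p := 16) (q := 0) (by norm_num) ht y) (fun h => CertE2025.rel h) CertE2025.root_cl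
    (S_of_fix ht (by simp [CertE2025.R, CertE2025B.R]) (by simp [CertE2025.R, CertE2025B.R])) (inv_Ba _)
    CertE2025.ncard_eq
  obtain ⟨h3a, h3b⟩ := class_trans (S := SS v x) (A := Ba v x (-8)) (T := t)
    (conds := CertE7128.conds) (R := CertE7128.R) (root := CertE7128B.root) (n := 7128)
    (fun y => mem_gen (p := 0) (q := 8) (by norm_num) ht y) (fun h => CertE7128.rel h) CertE7128.root_cl
    (S_of_fix ht (by simp [CertE7128.R, CertE7128B.R]) (by simp [CertE7128.R, CertE7128B.R])) (inv_Ba _)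
    CertE7128.ncard_eq
  obtain ⟨h4a, h4b⟩ := class_trans (S := SS v x) (A := Ba v x 8) (T := t)
    (conds := CertE15400.conds) (R := CertE15400.R) (root := CertE15400B.root) (n := 15400)
    (fun y => mem_gen (p := 8) (q := 0) (by norm_num) ht y) (fun h => CertE15400.rel h) CertE15400.root_cl
    (S_of_fix ht (by simp [CertE15400.R, CertE15400B.R]) (by simp [CertE15400.R, CertE15400B.R])) (inv_Ba _)
    CertE15400.ncard_eq
  obtain ⟨h5a, h5b⟩ := class_trans (S := SS v x) (A := Ba v x 0) (T := t)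
    (conds := CertE22275.conds) (R := CertE22275.R) (root := CertE22275B.root) (n := 22275)
    (fun y => mem_gen (p := 0) (q := 0) (by norm_num) ht y) (fun h => CertE22275.rel h) CertE22275.root_cl
    (S_of_fix ht (by simp [CertE22275.R, CertE22275B.R]) (by simp [CertE22275.R, CertE22275B.R])) (inv_Ba _)
    CertE22275.ncard_eq
  have hb := block_size hn hfin hinv hx
    [(Ba v x (-16), 275), (Ba v x 16, 2025), (Ba v x (-8), 7128), (Ba v x 8, 15400), (Ba v x 0, 22275)]
    (by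
      intro p hp
      simp only [List.mem_cons, List.not_mem_nil, or_false] at hp
      rcases hp with rfl | rfl | rfl | rfl | rfl
      · exact h1a
      · exact h2a
      · exact h3a
      · exact h4a
      · exact h5a)
    (by
      intro p hp
      simp only [List.mem_cons, List.not_mem_nil, or_false] at hp
      rcases hp with rfl | rfl | rfl | rfl | rfl <;>
      · rintro ⟨-, h4⟩
        rw [hsq] at h4
        norm_num at h4)
    (by
      have hdj : ∀ a b : ℤ, a ≠ b → Disjoint (Ba v x a) (Ba v x b) := by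
        intro a b hab
        rw [Set.disjoint_left]
        rintro y ⟨-, h4⟩ ⟨-, h5⟩
        exact hab (h4.symm.trans h5)
      have hpw : ∀ (a : ℤ) (n : ℕ) (l : List (ℤ × ℕ)), (∀ q ∈ l, a ≠ q.1) →
          ∀ q ∈ l.map (fun q => ((Ba v x q.1, q.2) : Set L × ℕ)), Disjoint (Ba v x a, n).1 q.1 := by
        intro a n l hl q hq
        obtain ⟨r, hr, rfl⟩ := List.mem_map.1 hq
        exact hdj _ _ (hl r hr)
      refine List.Pairwise.cons (hpw (-16) 275 [(16, 2025), (-8, 7128), (8, 15400), (0, 22275)] (by simp)) ?_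
      refine List.Pairwise.cons (hpw 16 2025 [(-8, 7128), (8, 15400), (0, 22275)] (by simp)) ?_
      refine List.Pairwise.cons (hpw (-8) 7128 [(8, 15400), (0, 22275)] (by simp)) ?_
      refine List.Pairwise.cons (hpw 8 15400 [(0, 22275)] (by simp)) ?_
      exact List.Pairwise.cons (by simp) List.Pairwise.nil)
    (by
      intro y hy
      rcases dot_cover (Ls := L8) (fun w hw => mem_U8_of hw) (ht (x, nXh) (by simp)) dotsE ((mem_X8 ht' y).1 hy) with h4 | ⟨d, hd, h4⟩
      · exact Or.inl h4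
      · right
        simp only [List.mem_cons, List.not_mem_nil, or_false] at hd
        rcases hd with rfl | rfl | rfl | rfl | rfl
        · exact ⟨(Ba v x (-16), 275), by simp, hy, by simpa using h4⟩
        · exact ⟨(Ba v x 16, 2025), by simp, hy, by simpa using h4⟩
        · exact ⟨(Ba v x (-8), 7128), by simp, hy, by simpa using h4⟩
        · exact ⟨(Ba v x 8, 15400), by simp, hy, by simpa using h4⟩
        · exact ⟨(Ba v x 0, 22275), by simp, hy, by simpa using h4⟩)
    (by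
      intro p hp a ha b hb
      simp only [List.mem_cons, List.not_mem_nil, or_false] at hp
      have hlift : ∀ g ∈ SS v x, g • a = b → ∃ h ∈ stabilizer Co0 v, h • x = x ∧ h • a = b := fun g hg h =>
        ⟨g, hg.1, hg.2, h⟩
      rcases hp with rfl | rfl | rfl | rfl | rfl
      · obtain ⟨g, hg, h⟩ := h1b a ha b hb
        exact hlift g hg h
      · obtain ⟨g, hg, h⟩ := h2b a ha b hb
        exact hlift g hg h
      · obtain ⟨g, hg, h⟩ := h3b a ha b hb
        exact hlift g hg h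
      · obtain ⟨g, hg, h⟩ := h4b a ha b hb
        exact hlift g hg h
      · obtain ⟨g, hg, h⟩ := h5b a ha b hb
        exact hlift g hg h)
  rw [hcard] at hd
  have key : ∀ d ∈ sums ([275, 2025, 7128, 15400, 22275] : List ℕ), d ∣ 47104 → d = 1 ∨ d = 47104 := by decide
  exact key _ hb hd

theorem ls8 : listB [nV1] 32 [(nV1, 8, 0)] zs8 = true := by decide +kernel

/-- A vector fixed by a point stabiliser of the code. -/
def nW1 : ℕ := 723739184700935167189686278663226929

theorem nW1_mem : dec nW1 ∈ leechLattice := mem_of_inL (by decide +kernel)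

theorem nW1_sq : sqNorm (dec nW1) = 32 := by
  have : dotIs nW1 nW1 32 0 = true := by decide +kernel
  have h := dotIs_iff.1 this
  rw [dotInt_self] at h
  simpa using h

theorem cW : ∀ i j, i ≠ pt 22 → j ≠ pt 22 → dec nW1 i = dec nW1 j := by decide +kernel

/-- The stabiliser of a point. -/
abbrev Bp : Subgroup M24 := stabilizer M24 (pt 22)

instance : IsSimpleGroup Bp := Cfsg.Agent.Lib.PermComp.Mathieu.Simple2x.isSimple_stab _

theorem card_Bp : Nat.card Bp = 10200960 := Cfsg.Agent.Lib.PermComp.Mathieu.Simple2x.card_stab _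

instance : Finite Bp := Nat.finite_of_card_ne_zero (by rw [card_Bp]; norm_num)

theorem fixBp (a : Bp) : uH a.1 • (⟨dec nW1, nW1_mem⟩ : L) = ⟨dec nW1, nW1_mem⟩ := by
  apply uH_fix (S := fun p => p = pt 22)
  · intro i j hi hj
    exact cW i j hi hj
  · rintro p rfl
    exact a.2

/-- A normal subgroup of order 47104 cannot exist. -/
theorem no_small (hv : sqNorm (v : GolayPt → ℤ) = 32) {K : Subgroup Co0} (hKH : K ≤ stabilizer Co0 v)
    (hn : ∀ h ∈ stabilizer Co0 v, ∀ k ∈ K, h * k * h⁻¹ ∈ K) (hc : Nat.card K = 47104) : False := by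
  obtain ⟨t, ht⟩ := trans32 v ⟨dec nW1, nW1_mem⟩ hv nW1_sq
  have hm : Maps t [(v, nW1)] := by
    intro p hp
    have : p = (v, nW1) := by simpa using hp
    subst this
    rw [show (v, nW1).1 = v from rfl, ht]
  haveI : Fact (Nat.Prime 23) := ⟨by norm_num⟩
  have hfG : ∀ a : Bp, fG Bp t a ∈ stabilizer Co0 v := fun a =>
    fG_fix (p := (v, nW1)) hm (by simp) fixBp a
  have hMK : ∀ a : Bp, fG Bp t a ∈ K :=
    le_of_prime_dvd (H := stabilizer Co0 v) (fG Bp t) (fG_inj _ _) hfG hKH hn 23 (by rw [card_Bp]; norm_num)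
      (by rw [hc]; norm_num) (by rw [card_stab32 hv]; norm_num)
  have hle : Nat.card Bp ≤ Nat.card K := by
    apply Nat.card_le_card_of_injective (fun a : Bp => (⟨fG Bp t a, hMK a⟩ : K))
    intro a b hab
    exact fG_inj _ _ (congrArg Subtype.val hab)
  rw [card_Bp, hc] at hle
  norm_num at hle

/-- The normal subgroups. -/
theorem normal_cases (hv : sqNorm (v : GolayPt → ℤ) = 32) {K : Subgroup Co0} (hKH : K ≤ stabilizer Co0 v)
    (hn : ∀ h ∈ stabilizer Co0 v, ∀ k ∈ K, h * k * h⁻¹ ∈ K) : K = ⊥ ∨ K = stabilizer Co0 v := by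
  by_cases hne : K = ⊥
  · exact Or.inl hne
  right
  obtain ⟨t, ht⟩ := exists_to_v v hv
  let x0 : L := t⁻¹ • (⟨dec nXh, nXh_mem⟩ : L)
  have ht0 : t • x0 = ⟨dec nXh, nXh_mem⟩ := smul_inv_smul t _
  have hx0 : x0 ∈ X8 v := by
    rw [mem_X8 ht, ht0]
    exact nXh_cl
  rcases block8 hv hKH hn hx0 with h1 | h1
  · exfalso
    apply hne
    rw [Subgroup.eq_bot_iff_forall]
    intro k hk
    refine faith (mem_X8 ht) ht span8 (by decide +kernel) ls8 ?_ ?_
    · intro p hp
      simp only [List.mem_cons, List.not_mem_nil, or_false] at hp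
      subst hp
      exact hKH hk
    · intro y hy
      exact fix_of_ncard_one hn (fun a ha b hb => by
        obtain ⟨g, h3, h5⟩ := trans_X8 hv ha hb
        exact ⟨g, h3, h5⟩) hx0 h1 hk hy
  -- the simple subgroup
  have hwsq : sqNorm ((-x0 : L) : GolayPt → ℤ) = 32 := by
    show sqNorm (-(x0 : GolayPt → ℤ)) = 32
    rw [sqNorm_neg]
    exact hx0.1
  have hwd : dotInt (v : GolayPt → ℤ) ((-x0 : L) : GolayPt → ℤ) = -8 := by
    show dotInt (v : GolayPt → ℤ) (-(x0 : GolayPt → ℤ)) = -8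
    rw [dotInt_neg_right, hx0.2]
  have hK' := SimpleMcL.normal_cases (v := v) (w := -x0) hv hwsq hwd
    (K := K ⊓ SimpleMcL.HH v (-x0)) inf_le_right (by
      intro h hh k hk
      exact ⟨hn h hh.1 k hk.1, Subgroup.mul_mem _ (Subgroup.mul_mem _ hh hk.2) (Subgroup.inv_mem _ hh)⟩)
  have hneg : ∀ g : Co0, g • x0 = x0 → g • (-x0) = -x0 := by
    intro g hg
    rw [Lat.smul_neg, hg]
  have hneg' : ∀ g : Co0, g • (-x0) = -x0 → g • x0 = x0 := by
    intro g hg
    rw [Lat.smul_neg] at hg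
    exact neg_injective hg
  rcases hK' with h2 | h2
  · -- trivial intersection
    exfalso
    have h3 : Nat.card (stabilizer K x0) = 1 := by
      rw [Nat.card_eq_one_iff_unique]
      refine ⟨⟨fun a b => ?_⟩, ⟨1⟩⟩
      have key : ∀ a : stabilizer K x0, a = 1 := by
        intro a
        have h4 : a.1.1 ∈ K ⊓ SimpleMcL.HH v (-x0) :=
          ⟨a.1.2, hKH a.1.2, hneg _ a.2⟩
        rw [h2] at h4
        apply Subtype.ext
        apply Subtype.ext
        exact h4
      rw [key a, key b]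
    have h4 := Subgroup.card_mul_index (stabilizer K x0)
    rw [MulAction.index_stabilizer, h1, h3] at h4
    exact no_small hv hKH hn (by omega)
  · have hle : SimpleMcL.HH v (-x0) ≤ K := by
      rw [← h2]
      exact inf_le_left
    have hcc := card_ge (K := K) (SimpleMcL.HH v (-x0)).subtype (Subgroup.subtype_injective _)
      (fun a => hle a.2) (x := x0) (fun a => hneg' _ a.2.2)
    rw [h1, SimpleMcL.card_HH hv hwsq hwd] at hcc
    apply Subgroup.eq_of_le_of_card_ge hKH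
    rw [card_stab32 hv]
    omega

/-- **The stabiliser of a minimal vector is simple of the expected order.** -/
theorem isCo2 (hv : sqNorm (v : GolayPt → ℤ) = 32) : IsCo2 (stabilizer Co0 v) := by
  have hc : Nat.card (stabilizer Co0 v) = 42305421312000 := card_stab32 hv
  refine ⟨?_, hc⟩
  haveI : Nontrivial (stabilizer Co0 v) := by
    rw [← Finite.one_lt_card_iff_nontrivial, hc]
    norm_num
  exact isSimple_of (stabilizer Co0 v) fun K hKH hn => normal_cases hv hKH hn

end Cfsg.Agent.Lib.Leech.SimpleCo2
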