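import Cfsg.Agent.Lib.Leech.SimpleMcL

/-!
# The stabiliser of a vector of norm 48 is simple
-/

set_option autoImplicit false

namespace Cfsg.Agent.Lib.Leech.SimpleCo3

open Cfsg Cfsg.Agent.Lib.Golay.Core Cfsg.Agent.Lib.Leech.Basic Cfsg.Agent.Lib.Leech.Vec
  Cfsg.Agent.Lib.Leech.Cert Cfsg.Agent.Lib.Leech.CertBase Cfsg.Agent.Lib.Leech.CertData
  Cfsg.Agent.Lib.Leech.CertLev Cfsg.Agent.Lib.Leech.CertRefs Cfsg.Agent.Lib.Leech.Word
  Cfsg.Agent.Lib.Leech.Lat Cfsg.Agent.Lib.Leech.Reach Cfsg.Agent.Lib.Leech.Order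
  Cfsg.Agent.Lib.Leech.ConfigB Cfsg.Agent.Lib.Leech.ConfigM
  Cfsg.Agent.Lib.Leech.SimpleBase Cfsg.Agent.Lib.Leech.SimpleConf Cfsg.Agent.Lib.Leech.SimpleSpan
  Cfsg.Agent.Lib.Leech.SimpleMon Cfsg.Agent.Lib.Leech.SimpleCert

open MulAction

variable {u x : L}

theorem dot_u (hu : sqNorm (u : GolayPt → ℤ) = 48) (hx : x ∈ Xu u) :
    dotInt (u : GolayPt → ℤ) (x : GolayPt → ℤ) = 24 := by
  rw [dotInt_comm]
  exact (sub_iff hu hx.1).1 hx.2

theorem coe_sub (u x : L) : ((u - x : L) : GolayPt → ℤ) = (u : GolayPt → ℤ) - (x : GolayPt → ℤ) := rfl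

theorem sub_mem (hx : x ∈ Xu u) : u - x ∈ Xu u := by
  refine ⟨hx.2, ?_⟩
  rw [coe_sub, sub_sub_cancel]
  exact hx.1

theorem inv_Xu {g : Co0} (h : g • u = u) {y : L} (hy : y ∈ Xu u) : g • y ∈ Xu u :=
  ⟨by rw [sqNorm_smul]; exact hy.1, by rw [sq_sub_fix h]; exact hy.2⟩

theorem smul_sub_fix {g : Co0} (h : g • u = u) (y : L) : g • (u - y) = u - g • y := by
  rw [Lat.smul_sub, h]

/-- The elements with a given inner product. -/
abbrev Aa (u x : L) (a : ℤ) : Set L :=
  {y : L | y ∈ Xu u ∧ dotInt (x : GolayPt → ℤ) (y : GolayPt → ℤ) = a}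

theorem A16_eq : Aa u x 16 = X275 u x := Set.ext fun _ => and_assoc

/-- The element with inner product `-8`. -/
theorem A_neg8 (hu : sqNorm (u : GolayPt → ℤ) = 48) (hx : x ∈ Xu u) : Aa u x (-8) = {u - x} := by
  ext y
  simp only [Set.mem_ofPred_eq, Set.mem_singleton_iff]
  constructor
  · rintro ⟨hy, h⟩
    have h1 : sqNorm (((u - x : L) : GolayPt → ℤ) - (y : GolayPt → ℤ)) = 0 := by
      rw [sqNorm_sub, coe_sub, hx.2, hy.1, dotInt_sub_left, dot_u hu hy, h]
      norm_num
    have h2 := sqNorm_eq_zero h1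
    apply Subtype.ext
    exact (sub_eq_zero.1 h2).symm
  · rintro rfl
    refine ⟨sub_mem hx, ?_⟩
    rw [coe_sub, dotInt_sub_right, dotInt_comm, dot_u hu hx, dotInt_self, hx.1]
    norm_num

theorem A8_image (hu : sqNorm (u : GolayPt → ℤ) = 48) (hx : x ∈ Xu u) :
    (fun y => u - y) '' Aa u x 8 = X275 u x := by
  ext y
  simp only [Set.mem_image]
  have hdot : ∀ z : L, dotInt (x : GolayPt → ℤ) ((u - z : L) : GolayPt → ℤ) =
      24 - dotInt (x : GolayPt → ℤ) (z : GolayPt → ℤ) := by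
    intro z
    rw [coe_sub, dotInt_sub_right, dotInt_comm, dot_u hu hx]
  constructor
  · rintro ⟨z, hz, rfl⟩
    have h1 := sub_mem hz.1
    refine ⟨h1.1, h1.2, ?_⟩
    rw [hdot, hz.2]
    norm_num
  · intro hy
    have h1 : y ∈ Xu u := ⟨hy.1, hy.2.1⟩
    refine ⟨u - y, ⟨sub_mem h1, ?_⟩, sub_sub_cancel u y⟩
    rw [hdot, hy.2.2]
    norm_num

theorem ncard_A8 (hu : sqNorm (u : GolayPt → ℤ) = 48) (hx : x ∈ Xu u) : (Aa u x 8).ncard = 275 := by
  rw [← ncard_X275 u x hu hx, ← A8_image hu hx]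
  exact (Set.ncard_image_of_injective _ (sub_right_injective)).symm

theorem trans_A8 (hu : sqNorm (u : GolayPt → ℤ) = 48) (hx : x ∈ Xu u) {a b : L} (ha : a ∈ Aa u x 8)
    (hb : b ∈ Aa u x 8) : ∃ g : Co0, g • u = u ∧ g • x = x ∧ g • a = b := by
  have ha' : u - a ∈ X275 u x := by
    rw [← A8_image hu hx]
    exact ⟨a, ha, rfl⟩
  have hb' : u - b ∈ X275 u x := by
    rw [← A8_image hu hx]
    exact ⟨b, hb, rfl⟩
  obtain ⟨g, h1, h2, h3⟩ := trans_X275 u x _ _ hu hx ha' hb'
  refine ⟨g, h1, h2, ?_⟩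
  rw [smul_sub_fix h1] at h3
  exact sub_right_injective h3

theorem dots24 : allL (dotsB nV1 [(0, 8), (16, 0), (8, 0)]) CertC24.L = true := by decide +kernel

theorem cover24 (hu : sqNorm (u : GolayPt → ℤ) = 48) (hx : x ∈ Xu u) {y : L} (hy : y ∈ Xu u) :
    y = x ∨ y = u - x ∨ y ∈ Aa u x 16 ∨ y ∈ Aa u x 8 := by
  obtain ⟨t, ht⟩ := exists_to_uv hu hx
  have ht' : Maps t [(u, nU0)] := fun p hp => ht p (List.mem_cons_of_mem _ hp)
  rcases dot_cover CertC24.cover (ht (x, nV1) (by simp)) dots24 ((mem_C24 ht' hu y).1 hy) with h | ⟨d, hd, h⟩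
  · exact Or.inl h
  · right
    simp only [List.mem_cons, List.not_mem_nil, or_false] at hd
    rcases hd with rfl | rfl | rfl
    · left
      have : y ∈ Aa u x (-8) := ⟨hy, by simpa using h⟩
      rw [A_neg8 hu hx] at this
      exact this
    · exact Or.inr (Or.inl ⟨hy, by simpa using h⟩)
    · exact Or.inr (Or.inr ⟨hy, by simpa using h⟩)

/-- The group. -/
abbrev GG (u : L) : Subgroup Co0 := stabilizer Co0 u

/-- The block sizes. -/
theorem block24 (hu : sqNorm (u : GolayPt → ℤ) = 48) {K : Subgroup Co0} (hKH : K ≤ GG u)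
    (hn : ∀ h ∈ GG u, ∀ k ∈ K, h * k * h⁻¹ ∈ K) (hx : x ∈ Xu u) :
    (orbit K x).ncard = 1 ∨ (orbit K x).ncard = 2 ∨ (orbit K x).ncard = 276 ∨ (orbit K x).ncard = 552 := by
  have hcard := ncard_Xu u hu
  have hfin : (Xu u).Finite := Set.finite_of_ncard_ne_zero (by rw [hcard]; norm_num)
  have hinv : ∀ k ∈ K, ∀ y ∈ Xu u, k • y ∈ Xu u := fun k hk y hy => inv_Xu (hKH hk) hy
  have hd := ncard_orbit_dvd hn hfin hinv (fun a ha b hb => by
    obtain ⟨g, h1, h2⟩ := trans_Xu u a b hu ha hb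
    exact ⟨g, h1, h2⟩) hx
  have hsq : dotInt (x : GolayPt → ℤ) (x : GolayPt → ℤ) = 32 := by
    rw [dotInt_self]
    exact hx.1
  have hb := block_size hn hfin hinv hx [(Aa u x (-8), 1), (Aa u x 16, 275), (Aa u x 8, 275)]
    (by
      intro p hp
      simp only [List.mem_cons, List.not_mem_nil, or_false] at hp
      rcases hp with rfl | rfl | rfl
      · show (Aa u x (-8)).ncard = 1
        rw [A_neg8 hu hx, Set.ncard_singleton]
      · show (Aa u x 16).ncard = 275
        rw [A16_eq]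
        exact ncard_X275 u x hu hx
      · exact ncard_A8 hu hx)
    (by
      intro p hp
      simp only [List.mem_cons, List.not_mem_nil, or_false] at hp
      rcases hp with rfl | rfl | rfl <;>
      · rintro ⟨-, h4⟩
        rw [hsq] at h4
        norm_num at h4)
    (by
      have hdj : ∀ a b : ℤ, a ≠ b → Disjoint (Aa u x a) (Aa u x b) := by
        intro a b hab
        rw [Set.disjoint_left]
        rintro y ⟨-, h4⟩ ⟨-, h5⟩
        exact hab (h4.symm.trans h5)
      refine List.Pairwise.cons ?_ (List.Pairwise.cons ?_ (List.Pairwise.cons (by simp) List.Pairwise.nil))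
      · intro p hp
        simp only [List.mem_cons, List.not_mem_nil, or_false] at hp
        rcases hp with rfl | rfl
        · exact hdj _ _ (by norm_num)
        · exact hdj _ _ (by norm_num)
      · intro p hp
        simp only [List.mem_cons, List.not_mem_nil, or_false] at hp
        subst hp
        exact hdj _ _ (by norm_num))
    (by
      intro y hy
      rcases cover24 hu hx hy with h | h | h | h
      · exact Or.inl h
      · right
        refine ⟨_, List.mem_cons_self, ?_⟩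
        show y ∈ Aa u x (-8)
        rw [A_neg8 hu hx]
        exact h
      · exact Or.inr ⟨_, List.mem_cons_of_mem _ List.mem_cons_self, h⟩
      · exact Or.inr ⟨_, List.mem_cons_of_mem _ (List.mem_cons_of_mem _ List.mem_cons_self), h⟩)
    (by
      intro p hp a ha b hb
      simp only [List.mem_cons, List.not_mem_nil, or_false] at hp
      rcases hp with rfl | rfl | rfl
      · have ha' : a ∈ Aa u x (-8) := ha
        have hb' : b ∈ Aa u x (-8) := hb
        rw [A_neg8 hu hx] at ha' hb'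
        refine ⟨1, Subgroup.one_mem _, one_smul _ _, ?_⟩
        rw [one_smul, Set.mem_singleton_iff.1 ha', Set.mem_singleton_iff.1 hb']
      · have ha' : a ∈ Aa u x 16 := ha
        have hb' : b ∈ Aa u x 16 := hb
        rw [A16_eq] at ha' hb'
        obtain ⟨g, h1, h2, h3⟩ := trans_X275 u x a b hu hx ha' hb'
        exact ⟨g, h1, h2, h3⟩
      · obtain ⟨g, h1, h2, h3⟩ := trans_A8 hu hx ha hb
        exact ⟨g, h1, h2, h3⟩)
  rw [hcard] at hd
  have key : ∀ d ∈ sums ([1, 275, 275] : List ℕ), d ∣ 552 → d = 1 ∨ d = 2 ∨ d = 276 ∨ d = 552 := by decide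
  exact key _ hb hd

/-- The lattice vector `u0`. -/
def uLL : L := ⟨dec nU0, nU0_mem⟩

/-- A lattice vector with inner product 8 with `u0`. -/
def nLam : ℕ := 686053159114795289240674611757597332

theorem nLam_mem : dec nLam ∈ leechLattice := mem_of_inL (by decide +kernel)

theorem lam_dot : dotInt (dec nLam) (dec nU0) = 8 := by
  have : dotIs nLam nU0 8 0 = true := by decide +kernel
  rw [dotIs_iff.1 this]
  norm_num

theorem ls24 : listB [nU0] 32 CertC24.conds zs24 = true := by decide +kernel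

theorem u_sq : sqNorm (dec nU0) = 48 := sq_uL

theorem u_p0 : dec nU0 (pt 0) = 1 := by decide +kernel

/-- The class is stable under the reflection. -/
theorem cl_sub {y : L} (hy : Cl 32 CertC24.conds (y : GolayPt → ℤ)) :
    Cl 32 CertC24.conds ((uLL - y : L) : GolayPt → ℤ) := by
  rw [CertC24.conds, cl1] at hy ⊢
  obtain ⟨-, h1, h2⟩ := hy
  refine ⟨(uLL - y).2, ?_, ?_⟩
  · rw [coe_sub, sqNorm_sub, dotInt_comm]
    show sqNorm (dec nU0) + sqNorm (y : GolayPt → ℤ) - 2 * dotInt (y : GolayPt → ℤ) (dec nU0) = _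
    rw [u_sq, h1, h2]
    norm_num
  · rw [coe_sub, dotInt_sub_left, dotInt_comm, h2]
    show dotInt (dec nU0) (dec nU0) - _ = _
    rw [dotInt_self, u_sq]
    norm_num

theorem dotInt_three (x w : GolayPt → ℤ) : dotInt ((3 : ℤ) • x) w = 3 * dotInt x w := by
  unfold dotInt
  rw [Finset.mul_sum]
  apply Finset.sum_congr rfl
  intro i _
  simp [mul_assoc]

/-- The reflection is not an automorphism. -/
theorem no_flip {k : Co0} (hU : k • uLL = uLL)
    (hfl : ∀ y : L, Cl 32 CertC24.conds (y : GolayPt → ℤ) → k • y = uLL - y) : False := by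
  let lam : L := ⟨dec nLam, nLam_mem⟩
  have hkl : dotInt ((k • lam : L) : GolayPt → ℤ) (dec nU0) = 8 := by
    have h1 := smul_dot k lam uLL
    rw [hU] at h1
    exact h1.trans lam_dot
  have hz : ((3 : ℤ) • (((k • lam : L) : GolayPt → ℤ) + (lam : GolayPt → ℤ)) - dec nU0) = 0 := by
    apply eq_zero_of_orth span24 (by decide +kernel)
    intro z hz
    have h3 := List.all_eq_true.1 ls24 z hz
    rw [dotInt_sub_left, dotInt_three, dotInt_add_left]
    rcases Bool.or_eq_true _ _ ▸ h3 with h4 | h4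
    · have h5 : z = nU0 := by simpa using h4
      subst h5
      rw [hkl, dotInt_self, u_sq]
      show 3 * (8 + dotInt (dec nLam) (dec nU0)) - 48 = 0
      rw [lam_dot]
      norm_num
    · have hcl : Cl 32 CertC24.conds (dec z) := classB_iff.1 h4
      let y : L := ⟨dec z, hcl.1⟩
      have h5 : k • (uLL - y) = y := by
        rw [hfl _ (cl_sub hcl)]
        exact sub_sub_cancel _ _
      have h6 : dotInt ((k • lam : L) : GolayPt → ℤ) (dec z) = 8 - dotInt (dec nLam) (dec z) := by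
        have h7 := smul_dot k lam (uLL - y)
        rw [h5] at h7
        have h8 : dotInt ((k • lam : L) : GolayPt → ℤ) (y : GolayPt → ℤ) =
            dotInt (lam : GolayPt → ℤ) ((uLL - y : L) : GolayPt → ℤ) := h7
        rw [coe_sub, dotInt_sub_right] at h8
        have h9 : dotInt (lam : GolayPt → ℤ) (uLL : GolayPt → ℤ) = 8 := lam_dot
        rw [h9] at h8
        exact h8
      rw [h6]
      have h10 : dotInt (dec z) (dec nU0) = 24 := by
        have := hcl.2.2 (nU0, 24, 0) (by simp [CertC24.conds])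
        simpa using this
      rw [dotInt_comm (dec nU0) (dec z), h10]
      show 3 * (8 - dotInt (dec nLam) (dec z) + dotInt (dec nLam) (dec z)) - 24 = 0
      ring
  have h1 := congrFun hz (pt 0)
  simp only [Pi.sub_apply, Pi.smul_apply, Pi.add_apply, Pi.zero_apply, smul_eq_mul, u_p0] at h1
  omega

/-- The reflection is not induced on the summands. -/
theorem flip_false (hu : sqNorm (u : GolayPt → ℤ) = 48) {k : Co0} (hk : k • u = u)
    (hfl : ∀ y ∈ Xu u, k • y = u - y) : False := by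
  obtain ⟨t, ht⟩ := exists_to_u u hu
  have h0 : t • u = uLL := ht.eq (p := (u, nU0)) (by simp)
  apply no_flip (k := t * k * t⁻¹)
  · rw [← h0, mul_smul, mul_smul, inv_smul_smul, hk]
  · intro y hy
    have h1 : t⁻¹ • y ∈ Xu u := by
      rw [mem_C24 ht hu, smul_inv_smul]
      exact hy
    rw [mul_smul, mul_smul, hfl _ h1, Lat.smul_sub, smul_inv_smul, h0]

theorem finite_orbit (K : Subgroup Co0) (x : L) : (orbit K x).Finite := Set.finite_range _

/-- The case of blocks of size two. -/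
theorem two_false (hu : sqNorm (u : GolayPt → ℤ) = 48) {K : Subgroup Co0} (hKH : K ≤ GG u)
    (hn : ∀ h ∈ GG u, ∀ k ∈ K, h * k * h⁻¹ ∈ K) (hx : x ∈ Xu u) (h2 : (orbit K x).ncard = 2) : False := by
  -- all blocks have size two
  have hall : ∀ y ∈ Xu u, (orbit K y).ncard = 2 := by
    intro y hy
    obtain ⟨g, h1, rfl⟩ := trans_Xu u x y hu hx hy
    rw [ncard_orbit_conj hn h1, h2]
  have hsat : ∀ y ∈ Xu u, ∀ z ∈ orbit K y, z = y ∨ z = u - y := by
    intro y hy z hz
    have hzX : z ∈ Xu u := by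
      obtain ⟨k, hk, rfl⟩ := mem_orbit_K.1 hz
      exact inv_Xu (hKH hk) hy
    rcases cover24 hu hy hzX with h | h | h | h
    · exact Or.inl h
    · exact Or.inr h
    · exfalso
      have hsub : X275 u y ⊆ orbit K y := by
        intro b hb
        rw [← A16_eq] at hb
        have ha' : z ∈ X275 u y := by rw [← A16_eq]; exact h
        have hb' : b ∈ X275 u y := by rw [← A16_eq]; exact hb
        obtain ⟨g, h1, h3, h4⟩ := trans_X275 u y z b hu hy ha' hb'
        exact mem_orbit_of_stab hn hz h1 h3 h4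
      have := Set.ncard_le_ncard hsub (finite_orbit K y)
      rw [ncard_X275 u y hu hy, hall y hy] at this
      norm_num at this
    · exfalso
      have hsub : Aa u y 8 ⊆ orbit K y := by
        intro b hb
        obtain ⟨g, h1, h3, h4⟩ := trans_A8 hu hy h hb
        exact mem_orbit_of_stab hn hz h1 h3 h4
      have := Set.ncard_le_ncard hsub (finite_orbit K y)
      rw [ncard_A8 hu hy, hall y hy] at this
      norm_num at this
  -- some element moves the point
  have hex : ∃ k ∈ K, k • x ≠ x := by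
    by_contra hcon
    push Not at hcon
    have hsub : orbit K x ⊆ {x} := by
      intro z hz
      obtain ⟨k, hk, rfl⟩ := mem_orbit_K.1 hz
      exact hcon k hk
    have := Set.ncard_le_ncard hsub (Set.finite_singleton x)
    rw [h2, Set.ncard_singleton] at this
    norm_num at this
  obtain ⟨k, hk, hkx⟩ := hex
  have hkmem : ∀ y : L, k • y ∈ orbit K y := fun y => mem_orbit_K.2 ⟨k, hk, rfl⟩
  have hku : k • u = u := hKH hk
  have hflx : k • x = u - x := by
    rcases hsat x hx _ (hkmem x) with h | h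
    · exact absurd h hkx
    · exact h
  apply flip_false hu hku
  intro y hy
  rcases hsat y hy _ (hkmem y) with h | h
  · exfalso
    have h3 := smul_dot k x y
    rw [h, hflx, coe_sub, dotInt_sub_left, dot_u hu hy] at h3
    have h4 : dotInt (x : GolayPt → ℤ) (y : GolayPt → ℤ) = 12 := by omega
    rcases cover24 hu hx hy with h5 | h5 | h5 | h5
    · rw [h5, dotInt_self, hx.1] at h4
      norm_num at h4
    · have h6 : dotInt (x : GolayPt → ℤ) (y : GolayPt → ℤ) = -8 := by
        have : y ∈ Aa u x (-8) := by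
          rw [A_neg8 hu hx]
          exact h5
        exact this.2
      rw [h6] at h4
      norm_num at h4
    · rw [h5.2] at h4
      norm_num at h4
    · rw [h5.2] at h4
      norm_num at h4
  · exact h

theorem cUU : ∀ i j, i ≠ pt 23 → j ≠ pt 23 → dec nU0 i = dec nU0 j := by decide +kernel
theorem cV : ∀ i j, i ≠ pt 22 → i ≠ pt 23 → j ≠ pt 22 → j ≠ pt 23 → dec nV1 i = dec nV1 j := by decide +kernel

/-- Reference vectors. -/
def n1 : ℕ := 771726057280619945113749969816863312
/-- Reference vectors. -/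
def n2 : ℕ := 728769222282640781454825196982158897
/-- Reference vectors. -/
def n4 : ℕ := 771807186919034551865183385405637200

theorem n1_cl : Cl 32 CertC24.conds (dec n1) := classB_iff.1 (by decide +kernel)
theorem n2_cl : Cl 32 CertC24.conds (dec n2) := classB_iff.1 (by decide +kernel)
theorem n4_cl : Cl 32 CertC24.conds (dec n4) := classB_iff.1 (by decide +kernel)

theorem d_v1 : dotInt (dec nV1) (dec n1) = 16 := by
  have : dotIs nV1 n1 16 0 = true := by decide +kernel
  simpa using dotIs_iff.1 this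
theorem d_12 : dotInt (dec n1) (dec n2) = 16 := by
  have : dotIs n1 n2 16 0 = true := by decide +kernel
  simpa using dotIs_iff.1 this
theorem d_v2 : dotInt (dec nV1) (dec n2) = 8 := by
  have : dotIs nV1 n2 8 0 = true := by decide +kernel
  simpa using dotIs_iff.1 this
theorem d_24 : dotInt (dec n2) (dec n4) = 8 := by
  have : dotIs n2 n4 8 0 = true := by decide +kernel
  simpa using dotIs_iff.1 this
theorem d_v4 : dotInt (dec nV1) (dec n4) = 16 := by
  have : dotIs nV1 n4 16 0 = true := by decide +kernel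
  simpa using dotIs_iff.1 this

/-- The normal subgroups. -/
theorem normal_cases (hu : sqNorm (u : GolayPt → ℤ) = 48) {K : Subgroup Co0} (hKH : K ≤ GG u)
    (hn : ∀ h ∈ GG u, ∀ k ∈ K, h * k * h⁻¹ ∈ K) : K = ⊥ ∨ K = GG u := by
  by_cases hne : K = ⊥
  · exact Or.inl hne
  right
  obtain ⟨t, ht⟩ := exists_to_u u hu
  have hcG : Nat.card (GG u) = 495766656000 := card_stab48 hu
  -- reference vectors
  let Pt : (n : ℕ) → Cl 32 CertC24.conds (dec n) → L := fun n h => t⁻¹ • (⟨dec n, h.1⟩ : L)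
  have hP : ∀ n h, Pt n h ∈ Xu u := by
    intro n h
    rw [mem_C24 ht hu]
    show Cl 32 CertC24.conds ((t • t⁻¹ • (⟨dec n, h.1⟩ : L) : L) : GolayPt → ℤ)
    rw [smul_inv_smul]
    exact h
  have hPd : ∀ n m h h', dotInt ((Pt n h : L) : GolayPt → ℤ) ((Pt m h' : L) : GolayPt → ℤ) = dotInt (dec n) (dec m) := by
    intro n m h h'
    exact smul_dot t⁻¹ (⟨dec n, h.1⟩ : L) (⟨dec m, h'.1⟩ : L)
  let x0 : L := Pt nV1 nV1_cl
  have hx0 : x0 ∈ Xu u := hP nV1 nV1_cl
  have ht0 : t • x0 = ⟨dec nV1, nV1_mem⟩ := smul_inv_smul t _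
  -- the case distinction
  have hbl := block24 hu hKH hn hx0
  have hone : (orbit K x0).ncard ≠ 1 := by
    intro h1
    apply hne
    rw [Subgroup.eq_bot_iff_forall]
    intro k hk
    refine faith (mem_C24 ht hu) ht span24 (by decide +kernel) ls24 ?_ ?_
    · intro p hp
      simp only [List.mem_cons, List.not_mem_nil, or_false] at hp
      subst hp
      exact hKH hk
    · intro y hy
      exact fix_of_ncard_one hn (fun a ha b hb => by
        obtain ⟨g, h3, h5⟩ := trans_Xu u a b hu ha hb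
        exact ⟨g, h3, h5⟩) hx0 h1 hk hy
  have htwo : (orbit K x0).ncard ≠ 2 := fun h2 => two_false hu hKH hn hx0 h2
  have h23 : 23 ∣ Nat.card K := by
    have h3 := ncard_orbit_dvd_card (K := K) x0
    rcases hbl with h | h | h | h
    · exact absurd h hone
    · exact absurd h htwo
    · rw [h] at h3
      exact Dvd.dvd.trans (by norm_num) h3
    · rw [h] at h3
      exact Dvd.dvd.trans (by norm_num) h3
  -- the point stabiliser of the code lies in the subgroup
  have hfG : ∀ a : B23, fG B23 t a ∈ GG u := fun a =>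
    fG_fix (p := (u, nU0)) ht (by simp) (fix23 _ cUU) a
  haveI : Fact (Nat.Prime 23) := ⟨by norm_num⟩
  have hMK : ∀ a : B23, fG B23 t a ∈ K :=
    le_of_prime_dvd (H := GG u) (fG B23 t) (fG_inj _ _) hfG hKH hn 23 (by rw [card_B23]; norm_num) h23
      (by rw [hcG]; norm_num)
  -- the stabilisers lie in the subgroup
  have hwsq : sqNorm ((u - x0 : L) : GolayPt → ℤ) = 32 := hx0.2
  have hdot0 : ∀ y ∈ Xu u, dotInt (y : GolayPt → ℤ) ((u - y : L) : GolayPt → ℤ) = -8 := by
    intro y hy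
    rw [coe_sub, dotInt_sub_right, dotInt_comm, dot_u hu hy, dotInt_self, hy.1]
    norm_num
  have hxsum : ∀ y : L, y + (u - y) = u := fun y => add_sub_cancel y u
  have hHu : ∀ y : L, ∀ g ∈ SimpleMcL.HH y (u - y), g • u = u := by
    intro y g hg
    have h1 : g • y = y := hg.1
    have h2 : g • (u - y) = u - y := hg.2
    have := Lat.smul_add g y (u - y)
    rw [h1, h2, hxsum] at this
    exact this
  have hH0 : SimpleMcL.HH x0 (u - x0) ≤ K := by
    obtain ⟨b, hb⟩ := exists_ne (1 : B22)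
    let a : B23 := ⟨b.1, b.2.2⟩
    have ha1 : a ≠ 1 := fun h => hb (Subtype.ext (show b.1 = 1 from congrArg (fun z : B23 => z.1) h))
    have h1 : fG B23 t a ∈ K := hMK a
    have h2 : fG B23 t a • x0 = x0 := by
      rw [fG_apply, mul_smul, mul_smul, ht0, fix22 _ cV b, ← ht0, inv_smul_smul]
    have h3 : fG B23 t a • (u - x0) = u - x0 := by
      rw [Lat.smul_sub, h2]
      have : fG B23 t a • u = u := hfG a
      rw [this]
    have hK' := SimpleMcL.normal_cases (v := x0) (w := u - x0) hx0.1 hwsq (hdot0 x0 hx0)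
      (K := K ⊓ SimpleMcL.HH x0 (u - x0)) inf_le_right (by
        intro h hh k hk
        exact ⟨hn h (hHu x0 h hh) k hk.1, Subgroup.mul_mem _ (Subgroup.mul_mem _ hh hk.2) (Subgroup.inv_mem _ hh)⟩)
    rcases hK' with h4 | h4
    · exfalso
      have h5 : fG B23 t a ∈ K ⊓ SimpleMcL.HH x0 (u - x0) := ⟨h1, h2, h3⟩
      rw [h4] at h5
      exact ha1 (fG_inj B23 t (by rw [map_one]; exact h5))
    · rw [← h4]
      exact inf_le_left
  have hHy : ∀ y ∈ Xu u, SimpleMcL.HH y (u - y) ≤ K := by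
    intro y hy g hg
    obtain ⟨h, hh, rfl⟩ := trans_Xu u x0 y hu hx0 hy
    have h1 : g • h • x0 = h • x0 := hg.1
    have h2 : g • (u - h • x0) = u - h • x0 := hg.2
    have h3 : h⁻¹ * g * h ∈ SimpleMcL.HH x0 (u - x0) := by
      constructor
      · show (h⁻¹ * g * h) • x0 = x0
        rw [mul_smul, mul_smul, h1, inv_smul_smul]
      · show (h⁻¹ * g * h) • (u - x0) = u - x0
        rw [mul_smul, mul_smul, smul_sub_fix hh, h2, Lat.smul_sub, inv_smul_smul]
        have : h⁻¹ • u = u := by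
          rw [inv_smul_eq_iff]
          exact hh.symm
        rw [this]
    have h4 := hn h hh _ (hH0 h3)
    have h5 : h * (h⁻¹ * g * h) * h⁻¹ = g := by group
    rwa [h5] at h4
  -- the orbit is everything
  have hy1 := hP n1 n1_cl
  have hy2 := hP n2 n2_cl
  have hy4 := hP n4 n4_cl
  have hm2 : Pt n2 n2_cl ∈ orbit K x0 := by
    have ha : x0 ∈ X275 u (Pt n1 n1_cl) := by
      refine ⟨hx0.1, hx0.2, ?_⟩
      rw [dotInt_comm]
      exact (hPd nV1 n1 nV1_cl n1_cl).trans d_v1
    have hb : Pt n2 n2_cl ∈ X275 u (Pt n1 n1_cl) :=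
      ⟨hy2.1, hy2.2, (hPd n1 n2 n1_cl n2_cl).trans d_12⟩
    obtain ⟨g, h1, h2, h3⟩ := trans_X275 u _ _ _ hu hy1 ha hb
    refine mem_orbit_K.2 ⟨g, hHy _ hy1 ⟨h2, ?_⟩, h3⟩
    show g • (u - Pt n1 n1_cl) = _
    rw [smul_sub_fix h1, h2]
  have hm4 : Pt n4 n4_cl ∈ orbit K x0 := by
    have ha : x0 ∈ Aa u (Pt n2 n2_cl) 8 := by
      refine ⟨hx0, ?_⟩
      rw [dotInt_comm]
      exact (hPd nV1 n2 nV1_cl n2_cl).trans d_v2
    have hb : Pt n4 n4_cl ∈ Aa u (Pt n2 n2_cl) 8 :=
      ⟨hy4, (hPd n2 n4 n2_cl n4_cl).trans d_24⟩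
    obtain ⟨g, h1, h2, h3⟩ := trans_A8 hu hy2 ha hb
    refine mem_orbit_K.2 ⟨g, hHy _ hy2 ⟨h2, ?_⟩, h3⟩
    show g • (u - Pt n2 n2_cl) = _
    rw [smul_sub_fix h1, h2]
  have hs8 : Aa u x0 8 ⊆ orbit K x0 := by
    intro b hb
    have ha : Pt n2 n2_cl ∈ Aa u x0 8 := ⟨hy2, (hPd nV1 n2 nV1_cl n2_cl).trans d_v2⟩
    obtain ⟨g, h1, h3, h4⟩ := trans_A8 hu hx0 ha hb
    exact mem_orbit_of_stab hn hm2 h1 h3 h4
  have hs16 : X275 u x0 ⊆ orbit K x0 := by
    intro b hb
    have ha : Pt n4 n4_cl ∈ X275 u x0 := ⟨hy4.1, hy4.2, (hPd nV1 n4 nV1_cl n4_cl).trans d_v4⟩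
    obtain ⟨g, h1, h3, h4⟩ := trans_X275 u x0 _ _ hu hx0 ha hb
    exact mem_orbit_of_stab hn hm4 h1 h3 h4
  have hdisj : Disjoint (Aa u x0 8) (X275 u x0) := by
    rw [Set.disjoint_left]
    rintro y ⟨-, h1⟩ ⟨-, -, h2⟩
    rw [h1] at h2
    norm_num at h2
  have hfa : (Aa u x0 8).Finite := Set.finite_of_ncard_ne_zero (by rw [ncard_A8 hu hx0]; norm_num)
  have hfb : (X275 u x0).Finite := Set.finite_of_ncard_ne_zero (by rw [ncard_X275 u x0 hu hx0]; norm_num)
  have hge : 550 ≤ (orbit K x0).ncard := by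
    have h1 := Set.ncard_le_ncard (Set.union_subset hs8 hs16) (finite_orbit K x0)
    rw [Set.ncard_union_eq hdisj hfa hfb, ncard_A8 hu hx0, ncard_X275 u x0 hu hx0] at h1
    exact h1
  have hd552 : (orbit K x0).ncard = 552 := by
    rcases hbl with h | h | h | h <;> omega
  have hcc := card_ge (K := K) (SimpleMcL.HH x0 (u - x0)).subtype (Subgroup.subtype_injective _)
    (fun a => hH0 a.2) (x := x0) (fun a => a.2.1)
  rw [hd552, SimpleMcL.card_HH hx0.1 hwsq (hdot0 x0 hx0)] at hcc
  apply Subgroup.eq_of_le_of_card_ge hKH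
  rw [hcG]
  omega

/-- **The stabiliser of a vector of norm 48 is simple of the expected order.** -/
theorem isCo3 (hu : sqNorm (u : GolayPt → ℤ) = 48) : IsCo3 (stabilizer Co0 u) := by
  have hc : Nat.card (stabilizer Co0 u) = 495766656000 := card_stab48 hu
  refine ⟨?_, hc⟩
  haveI : Nontrivial (stabilizer Co0 u) := by
    rw [← Finite.one_lt_card_iff_nontrivial, hc]
    norm_num
  exact isSimple_of (stabilizer Co0 u) fun K hKH hn => normal_cases hu hKH hn

end Cfsg.Agent.Lib.Leech.SimpleCo3
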